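import Mathlib

/-!
Tools for involution centralizers that are double covers: a central element outside a split part
of a Sylow subgroup is outside the commutator subgroup; sizes of orbits on elementary abelian
2-groups.
-/

set_option autoImplicit false

namespace CfsgLib.ThreeTransp.Cover94

universe u

section transfer

variable {E : Type u} [Group E] [Finite E]

open Classical in
/-- A central element outside a subgroup of index two of a subgroup of odd index is outside the
commutator subgroup. -/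
theorem central_not_commutator {S W : Subgroup E} {z : E} (hz : ∀ g : E, Commute z g)
    (hS : Odd S.index) (hzS : z ∈ S) (hW : (W.subgroupOf S).index = 2) (hzW : z ∉ W) :
    z ∉ commutator E := by
  obtain ⟨φ, hφ⟩ : ∃ φ : ↥S →* Multiplicative (ZMod 2),
      ∀ s, φ s = if s ∈ W.subgroupOf S then 1 else Multiplicative.ofAdd 1 :=
    ⟨{ toFun := fun s => if s ∈ W.subgroupOf S then 1 else Multiplicative.ofAdd 1
       map_one' := if_pos (one_mem _)
       map_mul' := fun a b => by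
        by_cases ha : a ∈ W.subgroupOf S <;> by_cases hb : b ∈ W.subgroupOf S <;>
          simp only [if_pos, if_neg, ha, hb, not_false_iff, Subgroup.mul_mem_iff_of_index_two hW,
            iff_self, iff_false, false_iff, not_true, one_mul, mul_one] <;>
          decide }, fun _ => rfl⟩
  have key : ∀ (k : ℕ) (g₀ : E), g₀⁻¹ * z ^ k * g₀ ∈ S → g₀⁻¹ * z ^ k * g₀ = z ^ k := fun k g₀ _ => by
    rw [mul_assoc, ((hz g₀).pow_left k).eq, inv_mul_cancel_left]
  have hval : MonoidHom.transfer φ z = Multiplicative.ofAdd (1 : ZMod 2) := by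
    rw [MonoidHom.transfer_eq_pow φ z key]
    have hzs : φ ⟨z, hzS⟩ = Multiplicative.ofAdd (1 : ZMod 2) := by
      rw [hφ, if_neg]
      exact fun h => hzW (Subgroup.mem_subgroupOf.1 h)
    obtain ⟨m, hm⟩ := hS
    have he : ∀ h : z ^ S.index ∈ S, (⟨z ^ S.index, h⟩ : ↥S) = ⟨z, hzS⟩ ^ S.index := fun _ => rfl
    rw [he _, map_pow, hzs, hm, pow_add, pow_mul, pow_one,
      show (Multiplicative.ofAdd (1 : ZMod 2)) ^ 2 = 1 from by decide, one_pow, one_mul]
  intro hc
  have h1 := Abelianization.commutator_subset_ker (MonoidHom.transfer φ) hc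
  rw [MonoidHom.mem_ker, hval] at h1
  exact absurd h1 (by decide)

/-- A split part containing an invariant hyperplane away from `z`. -/
theorem central_not_commutator_of_split {S A L H : Subgroup E} {z : E} (hz : ∀ g : E, Commute z g)
    (hS : Odd S.index) (hA : A ≤ S) (hL : L ≤ S) (hsplit : ∀ s ∈ S, ∃ a ∈ A, ∃ l ∈ L, s = a * l)
    (hHA : H ≤ A) (hzA : z ∈ A) (hzH : z ∉ H) (hcov : ∀ a ∈ A, a ∈ H ∨ a * z ∈ H)
    (hnorm : ∀ l ∈ L, ∀ h ∈ H, l * h * l⁻¹ ∈ H) (hint : ∀ l ∈ L, l ∈ A → l ∈ H) :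
    z ∉ commutator E := by
  obtain ⟨W, hW⟩ : ∃ W : Subgroup E, ∀ x, x ∈ W ↔ ∃ h ∈ H, ∃ l ∈ L, x = h * l := by
    refine ⟨{ carrier := {x | ∃ h ∈ H, ∃ l ∈ L, x = h * l}
              one_mem' := ⟨1, one_mem _, 1, one_mem _, (one_mul 1).symm⟩
              mul_mem' := ?_
              inv_mem' := ?_ }, fun x => Iff.rfl⟩
    · rintro _ _ ⟨h, hh, l, hl, rfl⟩ ⟨h', hh', l', hl', rfl⟩
      exact ⟨h * (l * h' * l⁻¹), mul_mem hh (hnorm l hl h' hh'), l * l', mul_mem hl hl',
        by simp [mul_assoc]⟩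
    · rintro _ ⟨h, hh, l, hl, rfl⟩
      exact ⟨l⁻¹ * h⁻¹ * l⁻¹⁻¹, hnorm _ (inv_mem hl) _ (inv_mem hh), l⁻¹, inv_mem hl,
        by simp [mul_assoc]⟩
  have hzW : z ∉ W := fun h => by
    obtain ⟨a, ha, l, hl, e⟩ := (hW z).1 h
    have hlA : l ∈ A := by
      rw [show l = a⁻¹ * z by rw [e]; simp]
      exact mul_mem (inv_mem (hHA ha)) hzA
    exact hzH (e ▸ mul_mem ha (hint l hl hlA))
  refine central_not_commutator hz hS (hA hzA) ?_ hzW
  refine Subgroup.index_eq_two_iff'.2 ⟨⟨z, hA hzA⟩, fun b => ?_⟩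
  rw [xor_iff_iff_not]
  simp only [Subgroup.mem_subgroupOf, Subgroup.coe_mul]
  constructor
  · intro h1 h2
    exact hzW (by simpa using mul_mem h1 (inv_mem h2))
  · intro h1
    obtain ⟨a, ha, l, hl, e⟩ := hsplit b b.2
    rcases hcov a ha with h | h
    · exact absurd ((hW _).2 ⟨a, h, l, hl, e⟩) h1
    · refine (hW _).2 ⟨a * z, h, l, hl, ?_⟩
      rw [e, ← mul_assoc, (hz a).eq]

end transfer

section aut

variable {V : Type u} [Group V] [Finite V]

theorem elem_comm (hsq : ∀ x : V, x * x = 1) (x y : V) : x * y = y * x := by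
  have h1 : x⁻¹ = x := inv_eq_of_mul_eq_one_right (hsq x)
  have h2 : y⁻¹ = y := inv_eq_of_mul_eq_one_right (hsq y)
  have h3 : (x * y)⁻¹ = x * y := inv_eq_of_mul_eq_one_right (hsq _)
  rw [mul_inv_rev, h1, h2] at h3
  exact h3.symm

theorem elem_card (hsq : ∀ x : V, x * x = 1) (K : Subgroup V) : ∃ j, Nat.card K = 2 ^ j := by
  haveI : Fact (Nat.Prime 2) := ⟨Nat.prime_two⟩
  exact IsPGroup.iff_card.1 fun x => ⟨1, by rw [pow_one, pow_two]; exact Subtype.ext (hsq x)⟩

/-- The fixed points of a non-trivial automorphism of prime order. -/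
theorem fixed_card (hsq : ∀ x : V, x * x = 1) {r : ℕ} (hr : Nat.card V = 2 ^ r) {q : ℕ}
    (hq : q.Prime) (φ : MulAut V) (hφ : orderOf φ = q) :
    ∃ j < r, Nat.card {x : V // φ x = x} = 2 ^ j ∧ 2 ^ r % q = 2 ^ j % q := by
  haveI : Fact q.Prime := ⟨hq⟩
  obtain ⟨F, hF⟩ : ∃ F : Subgroup V, ∀ x, x ∈ F ↔ φ x = x :=
    ⟨φ.toMonoidHom.eqLocus (MonoidHom.id V), fun _ => Iff.rfl⟩
  obtain ⟨j, hj⟩ := elem_card hsq F
  have hcard : Nat.card {x : V // φ x = x} = 2 ^ j := by
    rw [← hj]; exact Nat.card_congr (Equiv.subtypeEquivRight fun x => (hF x).symm)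
  refine ⟨j, ?_, hcard, ?_⟩
  · have hlt : Nat.card F < Nat.card V := by
      refine lt_of_le_of_ne (Nat.le_of_dvd Nat.card_pos (Subgroup.card_subgroup_dvd_card F)) fun h => ?_
      have htop := Subgroup.eq_top_of_card_eq F h
      have : φ = 1 := MulEquiv.ext fun x => (hF x).1 (htop ▸ Subgroup.mem_top x)
      rw [this, orderOf_one] at hφ
      exact hq.ne_one hφ.symm
    rw [hj, hr] at hlt
    exact (Nat.pow_lt_pow_iff_right (by norm_num)).1 hlt
  · have hpg : IsPGroup q ↥(Subgroup.zpowers φ) :=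
      IsPGroup.of_card (n := 1) (by rw [Nat.card_zpowers, hφ, pow_one])
    have h := hpg.card_modEq_card_fixedPoints V
    rw [hr] at h
    refine h.trans ?_
    rw [← hcard]
    refine (congrArg (· % q) (Nat.card_congr (Equiv.subtypeEquivRight fun x => ?_)))
    constructor
    · intro hx
      exact hx ⟨φ, Subgroup.mem_zpowers φ⟩
    · rintro hx ⟨g, hg⟩
      exact Subgroup.zpowers_le.2 (MulAction.mem_stabilizer_iff.2 (show φ • x = x from hx)) hg

/-- Two orbits of an automorphism of prime order without fixed points in the set generate at most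
four times its commutator. -/
theorem two_orbits_span (hsq : ∀ x : V, x * x = 1) {q : ℕ} (hq : q.Prime) (φ : MulAut V)
    (hφ : orderOf φ = q) (O : Finset V) (hO : ∀ x ∈ O, φ x ∈ O) (hfree : ∀ x ∈ O, φ x ≠ x)
    (hcard : O.card ≤ 2 * q) (hgen : Subgroup.closure (O : Set V) = ⊤) :
    Nat.card {x : V // φ x = x} ≤ 4 := by
  classical
  haveI : Fact q.Prime := ⟨hq⟩
  let ψ : V →* V :=
    { toFun := fun x => x * φ x
      map_one' := by simp
      map_mul' := fun a b => by
        rw [map_mul, mul_assoc, mul_assoc, ← mul_assoc b, elem_comm hsq b (φ a), mul_assoc] }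
  have hker : Nat.card ψ.ker = Nat.card {x : V // φ x = x} := by
    refine Nat.card_congr (Equiv.subtypeEquivRight fun x => ?_)
    rw [MonoidHom.mem_ker]
    show x * φ x = 1 ↔ _
    constructor
    · intro h; rw [eq_comm, ← inv_eq_of_mul_eq_one_right h, inv_eq_of_mul_eq_one_right (hsq x)]
    · intro h; rw [h]; exact hsq x
  have hiter : ∀ (x : V) (n : ℕ), x * (φ ^ n) x ∈ ψ.range := by
    intro x n
    induction n with
    | zero => rw [pow_zero, MulAut.one_apply, hsq]; exact one_mem _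
    | succ k ih =>
      have h : x * (φ ^ (k + 1)) x = (x * (φ ^ k) x) * ψ ((φ ^ k) x) := by
        show _ = _ * ((φ ^ k) x * φ ((φ ^ k) x))
        rw [pow_succ', MulAut.mul_apply, mul_assoc, ← mul_assoc ((φ ^ k) x), hsq, one_mul]
      rw [h]
      exact mul_mem ih ⟨_, rfl⟩
  obtain ⟨orb, horb⟩ : ∃ orb : V → Finset V, ∀ x, orb x = (Finset.range q).image fun n => (φ ^ n) x :=
    ⟨_, fun _ => rfl⟩
  have hqpow : φ ^ q = 1 := hφ ▸ pow_orderOf_eq_one φ
  have hstay : ∀ (n : ℕ), ∀ x ∈ O, (φ ^ n) x ∈ O := by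
    intro n
    induction n with
    | zero => intro x hx; rwa [pow_zero, MulAut.one_apply]
    | succ k ih => intro x hx; rw [pow_succ, MulAut.mul_apply]; exact ih _ (hO x hx)
  have horbcard : ∀ x ∈ O, (orb x).card = q := by
    intro x hx
    rw [horb, Finset.card_image_of_injOn, Finset.card_range]
    intro a ha b hb hab
    have hper : Function.minimalPeriod (φ • ·) x = q := by
      have hd : Function.minimalPeriod (φ • ·) x ∣ q :=
        Function.IsPeriodicPt.minimalPeriod_dvd (by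
          show (φ • ·)^[q] x = x
          simp only [smul_iterate, hqpow, one_smul])
      rcases (Nat.dvd_prime hq).1 hd with h | h
      · exact absurd (Function.minimalPeriod_eq_one_iff_isFixedPt.1 h) (hfree x hx)
      · exact h
    simp only [Finset.coe_range, Set.mem_Iio] at ha hb
    refine Function.iterate_injOn_Iio_minimalPeriod (f := (φ • ·)) (x := x) (hper ▸ ha) (hper ▸ hb) ?_
    simp only [smul_iterate]
    exact hab
  have hdisj : ∀ x, ∀ y ∉ orb x, Disjoint (orb x) (orb y) := by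
    intro x y hy
    rw [Finset.disjoint_left]
    intro z hz hz'
    rw [horb, Finset.mem_image] at hz hz'
    obtain ⟨a, ha, rfl⟩ := hz
    obtain ⟨b, hb, hb'⟩ := hz'
    refine hy ?_
    rw [horb, Finset.mem_image]
    refine ⟨(q - b + a) % q, Finset.mem_range.2 (Nat.mod_lt _ hq.pos), ?_⟩
    rw [← hφ, pow_mod_orderOf, hφ, pow_add, MulAut.mul_apply, ← hb', ← MulAut.mul_apply, ← pow_add,
      Nat.sub_add_cancel (le_of_lt (Finset.mem_range.1 hb)), hqpow, MulAut.one_apply]
  -- two representatives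
  have hrep : ∃ a b : V, ∀ z ∈ O, z ∈ orb a ∨ z ∈ orb b := by
    rcases O.eq_empty_or_nonempty with h | ⟨a, ha⟩
    · exact ⟨1, 1, by simp [h]⟩
    by_cases hall : ∀ z ∈ O, z ∈ orb a
    · exact ⟨a, a, fun z hz => Or.inl (hall z hz)⟩
    push Not at hall
    obtain ⟨b, hb, hba⟩ := hall
    refine ⟨a, b, fun z hz => ?_⟩
    by_contra hz'
    push Not at hz'
    have hsub : ∀ x ∈ O, orb x ⊆ O := fun x hx w hw => by
      rw [horb, Finset.mem_image] at hw
      obtain ⟨n, -, rfl⟩ := hw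
      exact hstay n x hx
    have hd1 := hdisj a b hba
    have hd : Disjoint (orb a ∪ orb b) (orb z) := Finset.disjoint_union_left.2
      ⟨hdisj a z hz'.1, hdisj b z hz'.2⟩
    have := Finset.card_le_card (Finset.union_subset (Finset.union_subset (hsub a ha) (hsub b hb))
      (hsub z hz))
    rw [Finset.card_union_of_disjoint hd, Finset.card_union_of_disjoint hd1, horbcard a ha,
      horbcard b hb, horbcard z hz] at this
    have := hq.pos
    omega
  obtain ⟨a, b, hab⟩ := hrep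
  haveI : ψ.range.Normal := ⟨fun n hn g => by rw [elem_comm hsq g n, mul_inv_cancel_right]; exact hn⟩
  have htop : (⊤ : Subgroup V) ≤ Subgroup.zpowers a ⊔ Subgroup.zpowers b ⊔ ψ.range := by
    rw [← hgen, Subgroup.closure_le]
    intro z hz
    have main : ∀ c, z ∈ orb c → z ∈ Subgroup.zpowers c ⊔ ψ.range := fun c hc => by
      rw [horb, Finset.mem_image] at hc
      obtain ⟨n, -, rfl⟩ := hc
      rw [show (φ ^ n) c = c * (c * (φ ^ n) c) by rw [← mul_assoc, hsq, one_mul]]
      exact Subgroup.mul_mem_sup (Subgroup.mem_zpowers c) (hiter c n)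
    rcases hab z hz with h | h
    · exact SetLike.le_def.1 (sup_le_sup_right le_sup_left _) (main a h)
    · exact SetLike.le_def.1 (sup_le_sup_right le_sup_right _) (main b h)
  have hz2 : ∀ c : V, Nat.card (Subgroup.zpowers c) ≤ 2 := fun c => by
    rw [Nat.card_zpowers]
    exact Nat.le_of_dvd (by norm_num) (orderOf_dvd_of_pow_eq_one (by rw [pow_two]; exact hsq c))
  haveI : (Subgroup.zpowers b).Normal :=
    ⟨fun n hn g => by rw [elem_comm hsq g n, mul_inv_cancel_right]; exact hn⟩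
  have hle : ∀ (H N : Subgroup V) [N.Normal], Nat.card ↥(H ⊔ N) ≤ Nat.card H * Nat.card N :=
    fun H N _ => by
      show Nat.card ↥((H ⊔ N : Subgroup V) : Set V) ≤ _
      rw [Subgroup.mul_normal H N]
      exact Set.natCard_mul_le
  have h1 := hle (Subgroup.zpowers a ⊔ Subgroup.zpowers b) ψ.range
  have h2 := hle (Subgroup.zpowers a) (Subgroup.zpowers b)
  rw [top_le_iff.1 htop, Subgroup.card_top] at h1
  have h3 : Nat.card ψ.range * Nat.card ψ.ker = Nat.card V := by
    rw [← Subgroup.index_ker ψ, Subgroup.index_mul_card]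
  rw [← hker]
  have h5 := hz2 a
  have h6 := hz2 b
  refine Nat.le_of_mul_le_mul_right ?_ (Nat.card_pos : 0 < Nat.card ψ.range)
  rw [mul_comm (Nat.card ψ.ker), h3]
  exact h1.trans (Nat.mul_le_mul_right _ (h2.trans (Nat.mul_le_mul h5 h6)))

end aut

section orbit

variable {G : Type u} [Group G] [Finite G]

/-- An orbit of the normalizer: primes dividing its length come from automorphisms keeping it. -/
theorem prime_orbit (A : Subgroup G) (O : Finset ↥A) (hne : O.Nonempty)
    (hinv : ∀ n ∈ Subgroup.normalizer (A : Set G), ∀ x ∈ O, ∀ y : ↥A,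
      n * (x : G) * n⁻¹ = y → y ∈ O)
    (htr : ∀ x ∈ O, ∀ y ∈ O, ∃ n ∈ Subgroup.normalizer (A : Set G), n * (x : G) * n⁻¹ = y)
    {q : ℕ} (hq : q.Prime) (hdvd : q ∣ O.card) :
    ∃ φ : MulAut ↥A, orderOf φ = q ∧ ∀ x ∈ O, φ x ∈ O := by
  classical
  haveI : Fact q.Prime := ⟨hq⟩
  obtain ⟨x₀, hx₀⟩ := hne
  obtain ⟨R, hR⟩ : ∃ R, A.normalizerMonoidHom.range = R := ⟨_, rfl⟩
  have hkey : ∀ n : ↥(Subgroup.normalizer (A : Set G)), ∀ x : ↥A,
      ((A.normalizerMonoidHom n x : ↥A) : G) = (n : G) * x * (n : G)⁻¹ := fun n x => rfl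
  have hstay : ∀ φ ∈ R, ∀ x ∈ O, φ x ∈ O := by
    rw [← hR]
    rintro _ ⟨n, rfl⟩ x hx
    exact hinv n n.2 x hx _ (hkey n x).symm
  have horb : MulAction.orbit ↥R x₀ = (O : Set ↥A) := by
    ext y
    constructor
    · rintro ⟨⟨φ, hφ⟩, rfl⟩
      exact hstay φ hφ x₀ hx₀
    · intro hy
      obtain ⟨n, hn, e⟩ := htr x₀ hx₀ y hy
      exact ⟨⟨A.normalizerMonoidHom ⟨n, hn⟩, hR ▸ ⟨_, rfl⟩⟩, Subtype.ext e⟩
  have h := (MulAction.stabilizer (↥R) x₀).index_dvd_card
  rw [MulAction.index_stabilizer, horb, Set.ncard_coe_finset] at h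
  obtain ⟨φ, hφ⟩ := exists_prime_orderOf_dvd_card' (G := ↥R) q (hdvd.trans h)
  exact ⟨φ, by rw [← hφ, Subgroup.orderOf_coe], hstay φ φ.2⟩

/-- The length of such an orbit has only primes `q` with `2 ^ i ≡ 1` for some positive `i ≤ r`. -/
theorem orbit_prime_bound (A : Subgroup G) (hsq : ∀ x : ↥A, x * x = 1) {r : ℕ}
    (hr : Nat.card A = 2 ^ r) (O : Finset ↥A) (hne : O.Nonempty)
    (hinv : ∀ n ∈ Subgroup.normalizer (A : Set G), ∀ x ∈ O, ∀ y : ↥A,
      n * (x : G) * n⁻¹ = y → y ∈ O)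
    (htr : ∀ x ∈ O, ∀ y ∈ O, ∃ n ∈ Subgroup.normalizer (A : Set G), n * (x : G) * n⁻¹ = y)
    {q : ℕ} (hq : q.Prime) (hdvd : q ∣ O.card) (hbad : ∀ j < r, 2 ^ r % q ≠ 2 ^ j % q) : False := by
  obtain ⟨φ, hφ, -⟩ := prime_orbit A O hne hinv htr hq hdvd
  obtain ⟨j, hj, -, h⟩ := fixed_card hsq hr hq φ hφ
  exact hbad j hj h

end orbit

end CfsgLib.ThreeTransp.Cover94
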