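import Mathlib
import Cfsg.Agent.ThreeTransp.M22Base53
import Cfsg.Prelude.Def_Transfer

/-!
Type M(22): the group generated by a base is the only elementary abelian subgroup of largest
order in a Sylow 2-subgroup containing it.
-/

set_option autoImplicit false

namespace CfsgLib.ThreeTransp

open Cfsg Pointwise

universe u

variable {G : Type u} [Group G] {D : Set G}

theorem sq_one_comm94 {H : Type*} [Group H] {x y : H} (hx : x * x = 1) (hy : y * y = 1)
    (hxy : (x * y) * (x * y) = 1) : Commute x y := by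
  have h1 : x⁻¹ = x := inv_eq_of_mul_eq_one_right hx
  have h2 : y⁻¹ = y := inv_eq_of_mul_eq_one_right hy
  have h3 : (x * y)⁻¹ = x * y := inv_eq_of_mul_eq_one_right hxy
  show x * y = y * x
  rw [mul_inv_rev, h1, h2] at h3
  exact h3.symm

/-- Two members of a subgroup in which every element has order dividing a power of two commute. -/
theorem tt_commute_of_pgroup94 (hD : IsThreeTranspositionSet D) {T : Subgroup G} (hT : IsPGroup 2 T)
    {x y : G} (hx : x ∈ D) (hy : y ∈ D) (hxT : x ∈ T) (hyT : y ∈ T) : Commute x y := by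
  rcases hD.2 x hx y hy with h | h
  · exact sq_one_comm94 (tt_mul_self hD hx) (tt_mul_self hD hy) (by rw [← pow_two]; exact h)
  · obtain ⟨k, hk⟩ := hT ⟨x * y, mul_mem hxT hyT⟩
    have hk' : (x * y) ^ 2 ^ k = 1 := by simpa using congrArg Subtype.val hk
    have h1 : orderOf (x * y) ∣ 1 := by
      have hc : Nat.Coprime 3 (2 ^ k) := Nat.Coprime.pow_right k (by norm_num)
      rw [← hc.gcd_eq_one]
      exact Nat.dvd_gcd (orderOf_dvd_of_pow_eq_one h) (orderOf_dvd_of_pow_eq_one hk')
    have h2 : x * y = 1 := orderOf_eq_one_iff.1 (Nat.dvd_one.1 h1)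
    rw [eq_inv_of_mul_eq_one_right h2]
    exact (Commute.refl x).inv_right

/-- A two-power bound. -/
theorem two_pow_le94 {n b : ℕ} (k : ℕ) (hn : ∃ j, n = 2 ^ j) (hb : n ≤ b) (hk : b < 2 ^ (k + 1)) :
    n ≤ 2 ^ k := by
  obtain ⟨j, rfl⟩ := hn
  refine Nat.pow_le_pow_right (by norm_num) ?_
  by_contra hcon
  have : 2 ^ (k + 1) ≤ 2 ^ j := Nat.pow_le_pow_right (by norm_num) (by omega)
  omega

theorem card_two_pow94 [Finite G] {K : Subgroup G} (h : ∀ x ∈ K, x * x = 1) :
    ∃ j, Nat.card K = 2 ^ j := by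
  haveI : Fact (Nat.Prime 2) := ⟨Nat.prime_two⟩
  refine IsPGroup.iff_card.1 fun x => ⟨1, ?_⟩
  rw [pow_one, pow_two]
  exact Subtype.ext (h x x.2)

/-- A subgroup moving `u` inside a finite set has order at most the size of the set times the
order of the stabilizer. -/
theorem card_le_mul_stab94 [Finite G] (C : Subgroup G) (u : G) (S : Finset G)
    (h : ∀ e ∈ C, e * u * e⁻¹ ∈ S) :
    Nat.card C ≤ S.card * Nat.card ↥(C ⊓ Subgroup.centralizer {u}) := by
  classical
  haveI := Fintype.ofFinite G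
  rw [Nat.card_eq_fintype_card, Nat.card_eq_fintype_card, mul_comm]
  rw [← Finset.card_univ]
  refine Finset.card_le_mul_card_image_of_maps_to (f := fun e : ↥C => (e : G) * u * (e : G)⁻¹)
    (fun e _ => h e e.2) _ fun y _ => ?_
  rcases Finset.eq_empty_or_nonempty
    (Finset.univ.filter fun e : ↥C => (e : G) * u * (e : G)⁻¹ = y) with h0 | ⟨e₀, he₀⟩
  · rw [h0]; simp
  rw [Finset.mem_filter] at he₀
  refine (Finset.card_le_card_of_injOn (t := Finset.univ.map
    ⟨fun k : ↥(C ⊓ Subgroup.centralizer {u}) => e₀ * ⟨k, k.2.1⟩, fun a b hab => Subtype.ext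
      (congrArg Subtype.val (mul_left_cancel hab) :)⟩) id ?_ Function.injective_id.injOn).trans
    (le_of_eq (by rw [Finset.card_map, Finset.card_univ]))
  intro e he
  rw [Finset.mem_coe, Finset.mem_filter] at he
  rw [Finset.mem_coe, Finset.mem_map]
  have hm : (e₀ : G)⁻¹ * e ∈ C ⊓ Subgroup.centralizer {u} := by
    refine ⟨C.mul_mem (C.inv_mem e₀.2) e.2, Subgroup.mem_centralizer_singleton_iff.2 ?_⟩
    have h1 : (e : G) * u * (e : G)⁻¹ = (e₀ : G) * u * (e₀ : G)⁻¹ := he.2.trans he₀.2.symm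
    calc (e₀ : G)⁻¹ * e * u = (e₀ : G)⁻¹ * ((e : G) * u * (e : G)⁻¹) * e := by
          simp [mul_assoc]
      _ = u * ((e₀ : G)⁻¹ * e) := by rw [h1]; simp [mul_assoc]
  exact ⟨⟨_, hm⟩, Finset.mem_univ _, Subtype.ext (mul_inv_cancel_left (e₀ : G) e)⟩

/-- Commuting involutive permutations of three points have a common fixed point. -/
theorem fixed_of_three94 {X : Type*} {a b c : X} (hab : a ≠ b) (hac : a ≠ c) (hbc : b ≠ c)
    {ι : Type*} (f : ι → X → X) (hinv : ∀ i, ∀ x, f i (f i x) = x)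
    (hmap : ∀ i, ∀ x, (x = a ∨ x = b ∨ x = c) → (f i x = a ∨ f i x = b ∨ f i x = c))
    (hcomm : ∀ i j, ∀ x, f i (f j x) = f j (f i x)) :
    ∃ w, (w = a ∨ w = b ∨ w = c) ∧ ∀ i, f i w = w := by
  by_cases hall : ∀ i, f i a = a
  · exact ⟨a, Or.inl rfl, hall⟩
  push Not at hall
  obtain ⟨i, hi⟩ := hall
  have h1 := hinv i a
  rcases hmap i a (Or.inl rfl) with h | h | h
  · exact absurd h hi
  · -- the third point is fixed
    have hb : f i b = a := by rw [← h]; exact h1
    have hc : f i c = c := by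
      rcases hmap i c (Or.inr (Or.inr rfl)) with h' | h' | h'
      · exact absurd (by rw [← hinv i c, h', h] : c = b) hbc.symm
      · exact absurd (by rw [← hinv i c, h', hb] : c = a) hac.symm
      · exact h'
    refine ⟨c, Or.inr (Or.inr rfl), fun j => ?_⟩
    have hf : f i (f j c) = f j c := by rw [hcomm i j c, hc]
    rcases hmap j c (Or.inr (Or.inr rfl)) with h' | h' | h'
    · rw [h', h] at hf; exact absurd hf hab.symm
    · rw [h', hb] at hf; exact absurd hf hab
    · exact h'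
  · have hc : f i c = a := by rw [← h]; exact h1
    have hb : f i b = b := by
      rcases hmap i b (Or.inr (Or.inl rfl)) with h' | h' | h'
      · exact absurd (by rw [← hinv i b, h', h] : b = c) hbc
      · exact h'
      · exact absurd (by rw [← hinv i b, h', hc] : b = a) hab.symm
    refine ⟨b, Or.inr (Or.inl rfl), fun j => ?_⟩
    have hf : f i (f j b) = f j b := by rw [hcomm i j b, hb]
    rcases hmap j b (Or.inr (Or.inl rfl)) with h' | h' | h'
    · rw [h', h] at hf; exact absurd hf hac.symm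
    · exact h'
    · rw [h', hc] at hf; exact absurd hf hac

section m22

variable [Finite G] (hG : IsThreeTranspositionGroup D) (hp : IsPrimitiveUnderConj D)
  (h22 : IsOfTypeM22 G D)
include hG hp h22

/-- Members outside a base commute with at most six of it. -/
theorem m22_base_le_six {B : Set G} (hB : MaxClique53 D B) (hne : B.Nonempty) {x : G}
    (hx : x ∈ D) (hxB : x ∉ B) : {b | b ∈ B ∧ Commute x b}.ncard ≤ 6 := by
  classical
  haveI := Fintype.ofFinite G
  have hcard := m22_clique_card hG hp h22 hB hne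
  obtain ⟨S, hS⟩ : ∃ S : Finset G, S = Finset.univ.filter (· ∈ B) := ⟨_, rfl⟩
  obtain ⟨U, hU⟩ : ∃ U : Finset G, U = Finset.univ.filter (fun x => x ∈ D ∧ x ∉ B) := ⟨_, rfl⟩
  have mS : ∀ x, x ∈ S ↔ x ∈ B := fun x => by simp [hS]
  have mU : ∀ x, x ∈ U ↔ x ∈ D ∧ x ∉ B := fun x => by simp [hU]
  have cS : S.card = 22 := by rw [← hcard, ← Set.ncard_coe_finset]; congr 1; ext x; simp [mS]
  have cU : U.card = 3488 := by
    rw [← Set.ncard_coe_finset, show (↑U : Set G) = D \ B by ext x; simp [mU],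
      Set.ncard_diff hB.sub (Set.toFinite _), (m22_global hG hp h22).1, hcard]
  -- members outside commuting with all of a small subset
  have hcomm : ∀ T : Finset G, T ⊆ S → 1 ≤ T.card → ∀ c : ℕ,
      {x | x ∈ D ∧ ∀ t ∈ T, x ∈ nbr D t}.ncard = c + (22 - T.card) →
      (U.filter fun u => ∀ t ∈ T, Commute u t).card = c := by
    intro T hT hT1 c hc
    have hset : {x | x ∈ D ∧ ∀ t ∈ T, x ∈ nbr D t} =
        ↑(U.filter fun u => ∀ t ∈ T, Commute u t) ∪ ↑(S \ T) := by
      ext x
      simp only [Set.mem_setOf_eq, Set.mem_union, Finset.mem_coe, Finset.mem_filter, mU,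
        Finset.mem_sdiff, mS]
      constructor
      · rintro ⟨hx, h⟩
        by_cases hxB : x ∈ B
        · exact Or.inr ⟨hxB, fun hxT => (h x hxT).2.1 rfl⟩
        · exact Or.inl ⟨⟨hx, hxB⟩, fun t ht => (h t ht).2.2.symm⟩
      · rintro (⟨⟨hx, hxB⟩, h⟩ | ⟨hxB, hxT⟩)
        · exact ⟨hx, fun t ht => ⟨hx, fun e => hxB (e ▸ (mS t).1 (hT ht)), (h t ht).symm⟩⟩
        · exact ⟨hB.sub hxB, fun t ht =>
            ⟨hB.sub hxB, fun e => hxT (e ▸ ht), hB.comm t ((mS t).1 (hT ht)) x hxB⟩⟩
    rw [hset, Set.ncard_union_eq (by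
      rw [Set.disjoint_left]
      intro x hx hx'
      simp only [Finset.mem_coe, Finset.mem_filter, mU, Finset.mem_sdiff, mS] at hx hx'
      exact hx.1.2 hx'.1) (Set.toFinite _) (Set.toFinite _), Set.ncard_coe_finset,
      Set.ncard_coe_finset, Finset.card_sdiff_of_subset hT, cS] at hc
    omega
  have pw : ∀ T ∈ S.powersetCard 1, (U.filter fun u => ∀ t ∈ T, Commute u t).card = 672 := by
    intro T hT
    obtain ⟨hT, hTc⟩ := Finset.mem_powersetCard.1 hT
    obtain ⟨a, rfl⟩ := Finset.card_eq_one.1 hTc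
    refine hcomm _ hT (by rw [hTc]) 672 ?_
    rw [hTc, show {x | x ∈ D ∧ ∀ t ∈ ({a} : Finset G), x ∈ nbr D t} = nbr D a by
      ext x; simp only [Set.mem_setOf_eq, Finset.mem_singleton, forall_eq]; exact ⟨fun h => h.2, fun h => ⟨h.1, h⟩⟩,
      m22_ncard_nbr hG hp h22 (hB.sub ((mS a).1 (hT (Finset.mem_singleton_self a))))]
  have pw2 : ∀ T ∈ S.powersetCard 2, (U.filter fun u => ∀ t ∈ T, Commute u t).card = 160 := by
    intro T hT
    obtain ⟨hT, hTc⟩ := Finset.mem_powersetCard.1 hT
    obtain ⟨a, b, hab, rfl⟩ := Finset.card_eq_two.1 hTc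
    have haB := (mS a).1 (hT (by simp))
    have hbB := (mS b).1 (hT (by simp))
    refine hcomm _ hT (by rw [hTc]; norm_num) 160 ?_
    rw [hTc, show {x | x ∈ D ∧ ∀ t ∈ ({a, b} : Finset G), x ∈ nbr D t} = nbr D a ∩ nbr D b by
      ext x; simp only [Set.mem_setOf_eq, Finset.mem_insert, Finset.mem_singleton, forall_eq_or_imp,
        forall_eq, Set.mem_inter_iff]; exact ⟨fun h => h.2, fun h => ⟨h.1.1, h⟩⟩,
      (m22_pointModel hG h22 (hB.sub haB)).some.ncard_common
        ⟨hB.sub hbB, hab.symm, hB.comm a haB b hbB⟩]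
  have pw3 : ∀ T ∈ S.powersetCard 3, (U.filter fun u => ∀ t ∈ T, Commute u t).card = 32 := by
    intro T hT
    obtain ⟨hT, hTc⟩ := Finset.mem_powersetCard.1 hT
    obtain ⟨a, b, c, hab, hac, hbc, rfl⟩ := Finset.card_eq_three.1 hTc
    have haB := (mS a).1 (hT (by simp))
    have hbB := (mS b).1 (hT (by simp))
    have hcB := (mS c).1 (hT (by simp))
    refine hcomm _ hT (by rw [hTc]; norm_num) 32 ?_
    rw [hTc, show {x | x ∈ D ∧ ∀ t ∈ ({a, b, c} : Finset G), x ∈ nbr D t} =
        nbr D a ∩ nbr D b ∩ nbr D c by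
      ext x; simp only [Set.mem_setOf_eq, Finset.mem_insert, Finset.mem_singleton, forall_eq_or_imp,
        forall_eq, Set.mem_inter_iff]
      exact ⟨fun h => ⟨⟨h.2.1, h.2.2.1⟩, h.2.2.2⟩, fun h => ⟨h.1.1.1, h.1.1, h.1.2, h.2⟩⟩,
      (m22_pointModel hG h22 (hB.sub haB)).some.ncard_common_commute
        ⟨hB.sub hbB, hab.symm, hB.comm a haB b hbB⟩ ⟨hB.sub hcB, hac.symm, hB.comm a haB c hcB⟩
        hbc (hB.comm b hbB c hcB)]
  have s1 : ∑ u ∈ U, (S.filter (Commute u)).card.choose 1 = 14784 := by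
    refine (sum_choose_filter53 (fun u t => Commute u t) U S 1).trans
      ((Finset.sum_congr rfl fun T hT => ((congrArg Finset.card (Finset.filter_congr_decidable ..)).trans (pw T hT))).trans ?_)
    rw [Finset.sum_const, Finset.card_powersetCard, cS]
    rfl
  have s2 : ∑ u ∈ U, (S.filter (Commute u)).card.choose 2 = 36960 := by
    refine (sum_choose_filter53 (fun u t => Commute u t) U S 2).trans
      ((Finset.sum_congr rfl fun T hT => ((congrArg Finset.card (Finset.filter_congr_decidable ..)).trans (pw2 T hT))).trans ?_)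
    rw [Finset.sum_const, Finset.card_powersetCard, cS]
    rfl
  have s3 : ∑ u ∈ U, (S.filter (Commute u)).card.choose 3 = 49280 := by
    refine (sum_choose_filter53 (fun u t => Commute u t) U S 3).trans
      ((Finset.sum_congr rfl fun T hT => ((congrArg Finset.card (Finset.filter_congr_decidable ..)).trans (pw3 T hT))).trans ?_)
    rw [Finset.sum_const, Finset.card_powersetCard, cS]
    rfl
  have ident : ∀ k : ℕ, (k : ℤ) * ((k : ℤ) - 6) ^ 2 =
      6 * (k.choose 3 : ℤ) - 18 * (k.choose 2 : ℤ) + 25 * (k.choose 1 : ℤ) := by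
    intro k
    induction k with
    | zero => rfl
    | succ k ih =>
      have e2 : (2 : ℤ) * (k.choose 2 : ℤ) = (k : ℤ) * ((k : ℤ) - 1) := by
        clear ih
        induction k with
        | zero => rfl
        | succ m im =>
          rw [Nat.choose_succ_succ m 1, Nat.choose_one_right]
          push_cast
          linear_combination im
      rw [Nat.choose_succ_succ k 2, Nat.choose_succ_succ k 1, Nat.choose_one_right] at *
      simp only [Nat.choose_one_right] at ih ⊢
      push_cast at ih ⊢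
      linear_combination ih - 3 * e2
  have hsum : ∑ u ∈ U, (((S.filter (Commute u)).card : ℤ) *
      (((S.filter (Commute u)).card : ℤ) - 6) ^ 2) = 0 := by
    rw [Finset.sum_congr rfl fun u _ => ident _, Finset.sum_add_distrib, Finset.sum_sub_distrib,
      ← Finset.mul_sum, ← Finset.mul_sum, ← Finset.mul_sum, ← Nat.cast_sum, ← Nat.cast_sum,
      ← Nat.cast_sum, s1, s2, s3]
    norm_num
  have hk : ∀ u ∈ U, (S.filter (Commute u)).card = 0 ∨ (S.filter (Commute u)).card = 6 := by
    intro u hu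
    have h := (Finset.sum_eq_zero_iff_of_nonneg fun u _ =>
      mul_nonneg (by positivity) (sq_nonneg _)).1 hsum u hu
    rcases mul_eq_zero.1 h with h | h
    · left; exact_mod_cast h
    · right
      have := sub_eq_zero.1 (pow_eq_zero_iff (n := 2) (by norm_num) |>.1 h)
      exact_mod_cast this
  rw [show {b | b ∈ B ∧ Commute x b} = ↑(S.filter (Commute x)) by ext b; simp [mS],
    Set.ncard_coe_finset]
  rcases hk x ((mU x).2 ⟨hx, hxB⟩) with h | h <;> omega

theorem m22_base_span94 {B : Set G} (hB : MaxClique53 D B) {x : G}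
    (hx : x ∈ Subgroup.closure B) : x * x = 1 ∧ ∀ b ∈ B, Commute x b := by
  induction hx using Subgroup.closure_induction with
  | mem y hy => exact ⟨tt_mul_self hG.1 (hB.sub hy), fun b hb => hB.comm y hy b hb⟩
  | one => exact ⟨one_mul 1, fun b _ => Commute.one_left b⟩
  | mul y z hy hz h1 h2 =>
    refine ⟨?_, fun b hb => (h1.2 b hb).mul_left (h2.2 b hb)⟩
    have hyz : Commute z y := by
      clear h1
      induction hy using Subgroup.closure_induction with
      | mem w hw => exact h2.2 w hw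
      | one => exact Commute.one_right z
      | mul w w' _ _ a a' => exact a.mul_right a'
      | inv w _ a => exact a.inv_right
    rw [hyz.mul_mul_mul_comm, h1.1, h2.1, one_mul]
  | inv y _ h => exact ⟨by rw [← mul_inv_rev, h.1, inv_one], fun b hb => (h.2 b hb).inv_left⟩

theorem m22_base_abel94 {B : Set G} (hB : MaxClique53 D B) {x y : G}
    (hx : x ∈ Subgroup.closure B) (hy : y ∈ Subgroup.closure B) : Commute x y :=
  sq_one_comm94 (m22_base_span94 hG hp h22 hB hx).1 (m22_base_span94 hG hp h22 hB hy).1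
    (m22_base_span94 hG hp h22 hB (mul_mem hx hy)).1

/-- The group generated by a base has at least 1024 elements. -/
theorem m22_base_card94 {B : Set G} (hB : MaxClique53 D B) (hne : B.Nonempty) :
    1024 ≤ Nat.card ↥(Subgroup.closure B) := by
  have hcard := m22_base_profile hG hp h22 hB hne
  obtain ⟨o, ho, -, hoB⟩ := Set.nonempty_of_ncard_ne_zero (by rw [hcard]; norm_num :
    {x | x ∈ D ∧ x ∉ B ∧ ∀ b ∈ B, ¬ Commute x b}.ncard ≠ 0)
  rw [← hcard, ← Nat.card_coe_set_eq]
  have hall : ∀ z : ↥{x | x ∈ D ∧ x ∉ B ∧ ∀ b ∈ B, ¬ Commute x b},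
      ∃ e : ↥(Subgroup.closure B), (e : G) * o * (e : G)⁻¹ = z := fun z => by
    obtain ⟨e, he, h⟩ := m22_base_regular hG hp h22 hB hne ho hoB z.2.1 z.2.2.2
    exact ⟨⟨e, he⟩, h⟩
  choose f hf using hall
  exact Nat.card_le_card_of_injective f fun z z' h => Subtype.ext (by rw [← hf z, ← hf z', h])

/-- An element squaring to one and commuting with a base lies in the group it generates. -/
theorem m22_base_self_centralizing94 {B : Set G} (hB : MaxClique53 D B) {t : G} (ht : t * t = 1)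
    (htB : ∀ b ∈ B, Commute t b) : t ∈ Subgroup.closure B := by
  by_cases ht1 : t = 1
  · rw [ht1]; exact one_mem _
  obtain ⟨m, -, h3, l, hnd, hlen, hm, hc, hprod⟩ :=
    m22_involution_fact hG hp h22 (orderOf_eq_prime (p := 2) (by rw [pow_two]; exact ht) ht1)
  rw [← hprod]
  refine list_prod_mem fun a ha => Subgroup.subset_closure (hB.max a (hm a ha) fun b hb => ?_)
  refine (commute_of_commute_prod hG.1 (hB.sub hb) l (by omega) hnd hm hc ?_ a ha).symm
  rw [hprod]
  exact (htB b hb).symm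

/-- A member outside a base centralizes at most 32 elements of the group it generates. -/
theorem m22_base_member_cent94 {B : Set G} (hB : MaxClique53 D B) (hne : B.Nonempty) {x : G}
    (hx : x ∈ D) (hxB : x ∉ B) :
    Nat.card ↥(Subgroup.closure B ⊓ Subgroup.centralizer {x}) ≤ 32 := by
  classical
  haveI := Fintype.ofFinite G
  obtain ⟨H, hH⟩ : ∃ H : Finset G, H = Finset.univ.filter fun b => b ∈ B ∧ Commute x b := ⟨_, rfl⟩
  have h6 : H.card ≤ 6 := by
    refine le_trans (le_of_eq ?_) (m22_base_le_six hG hp h22 hB hne hx hxB)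
    rw [← Set.ncard_coe_finset]; congr 1; ext b; simp [hH]
  have hall : ∀ e : ↥(Subgroup.closure B ⊓ Subgroup.centralizer {x}), ∃ l : List G, l.Nodup ∧
      l.toFinset ∈ (Finset.range 4).biUnion (fun i => H.powersetCard i) ∧
      (∀ a ∈ l, ∀ b ∈ l, Commute a b) ∧ l.prod = e := by
    intro e
    by_cases he : (e : G) = 1
    · refine ⟨[], List.nodup_nil, ?_, by simp, by simp [he]⟩
      exact Finset.mem_biUnion.2 ⟨0, by simp, by simp⟩
    obtain ⟨m, -, h3, l, ⟨hnd, hlen, hm, hc, hprod⟩, hlB⟩ := m22_base_element hG hp h22 hB e.2.1 he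
    refine ⟨l, hnd, Finset.mem_biUnion.2 ⟨m, Finset.mem_range.2 (by omega),
      Finset.mem_powersetCard.2 ⟨fun a ha => ?_, by rw [List.toFinset_card_of_nodup hnd, hlen]⟩⟩,
      hc, hprod⟩
    rw [List.mem_toFinset] at ha
    rw [hH, Finset.mem_filter]
    refine ⟨Finset.mem_univ _, hlB a ha, commute_of_commute_prod hG.1 hx l (by omega) hnd hm hc ?_ a ha⟩
    rw [hprod]
    exact (Subgroup.mem_centralizer_singleton_iff.1 e.2.2).symm
  choose f hnd hmem hc hprod using hall
  have hle : Nat.card ↥(Subgroup.closure B ⊓ Subgroup.centralizer {x}) ≤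
      ((Finset.range 4).biUnion (fun i => H.powersetCard i)).card := by
    rw [← Nat.card_eq_finsetCard]
    refine Nat.card_le_card_of_injective (fun e => ⟨_, hmem e⟩) fun e e' h => Subtype.ext ?_
    have hperm : (f e).Perm (f e') :=
      List.perm_of_nodup_nodup_toFinset_eq (hnd e) (hnd e') (congrArg Subtype.val h :)
    rw [← hprod e, ← hprod e']
    exact hperm.prod_eq' (List.pairwise_of_forall_mem_list (hc e))
  have h42 : Nat.card ↥(Subgroup.closure B ⊓ Subgroup.centralizer {x}) ≤ 42 := by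
    refine hle.trans (Finset.card_biUnion_le.trans ?_)
    simp only [Finset.card_powersetCard]
    generalize H.card = h at h6
    interval_cases h <;> decide
  exact two_pow_le94 5 (card_two_pow94 fun e he => (m22_base_span94 hG hp h22 hB he.1).1) h42
    (by norm_num)

/-- An element squaring to one that normalizes a base without centralizing it fixes at most six of
its members and at most 64 elements of the group it generates. -/
theorem m22_base_inv_cent94 {B : Set G} (hB : MaxClique53 D B) (hne : B.Nonempty) {t : G}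
    (ht : t * t = 1) (htB : ¬ ∀ b ∈ B, Commute t b) :
    {b | b ∈ B ∧ Commute t b}.ncard ≤ 6 ∧
      Nat.card ↥(Subgroup.closure B ⊓ Subgroup.centralizer {t}) ≤ 64 := by
  classical
  haveI := Fintype.ofFinite G
  have hD := hG.1
  have hn := m22_noTwins hG h22
  have ht1 : t ≠ 1 := fun h => htB fun b _ => h ▸ Commute.one_left b
  obtain ⟨m, h1, h3, l, hl⟩ :=
    m22_involution_fact hG hp h22 (orderOf_eq_prime (p := 2) (by rw [pow_two]; exact ht) ht1)
  obtain ⟨hnd, hlen, hm, hc, hprod⟩ := id hl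
  obtain ⟨u, hu, huB⟩ : ∃ u ∈ l, u ∉ B := by
    by_contra hcon
    push Not at hcon
    refine htB fun b hb => ?_
    rw [← hprod]
    exact Commute.list_prod_left _ _ fun a ha => hB.comm a (hcon a ha) b hb
  have hsplit : ∀ b ∈ B, Commute t b → ∀ a ∈ l, Commute b a := fun b hb htb =>
    commute_of_commute_prod hD (hB.sub hb) l (by omega) hnd hm hc (by rw [hprod]; exact htb.symm)
  refine ⟨(Set.ncard_le_ncard (fun b hb => (⟨hb.1, (hsplit b hb.1 hb.2 u hu).symm⟩ :
    b ∈ {b | b ∈ B ∧ Commute u b})) (Set.toFinite _)).trans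
    (m22_base_le_six hG hp h22 hB hne (hm u hu) huB), ?_⟩
  obtain ⟨C, hC⟩ : ∃ C, Subgroup.closure B ⊓ Subgroup.centralizer {t} = C := ⟨_, rfl⟩
  rw [hC]
  have memC : ∀ e ∈ C, e ∈ Subgroup.closure B ∧ Commute e t := fun e he => by
    rw [← hC] at he
    exact ⟨he.1, Subgroup.mem_centralizer_singleton_iff.1 he.2⟩
  have stab : ∀ a ∈ l, a ∉ B → Nat.card ↥(C ⊓ Subgroup.centralizer {a}) ≤ 32 := by
    intro a ha haB
    refine le_trans (Subgroup.card_le_of_le ?_) (m22_base_member_cent94 hG hp h22 hB hne (hm a ha) haB)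
    exact inf_le_inf_right _ (hC ▸ inf_le_left)
  have hpow : ∃ j, Nat.card C = 2 ^ j := card_two_pow94 fun e he =>
    (m22_base_span94 hG hp h22 hB (memC e he).1).1
  -- conjugation permutes the factorizations
  have conjFact : ∀ {k : ℕ} {j : G} {l : List G}, IsFact D k j l → ∀ e, Commute e j →
      IsFact D k j (l.map fun a => e * a * e⁻¹) := by
    rintro k j l ⟨a1, a2, a3, a4, a5⟩ e he
    refine ⟨a1.map fun a b h => mul_left_cancel (mul_right_cancel h), by rw [List.length_map, a2],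
      fun a ha => ?_, fun a ha b hb => ?_, ?_⟩
    · obtain ⟨a', ha', rfl⟩ := List.mem_map.1 ha
      exact hG.2.1 e a' (a3 a' ha')
    · obtain ⟨a', ha', rfl⟩ := List.mem_map.1 ha
      obtain ⟨b', hb', rfl⟩ := List.mem_map.1 hb
      exact commute_conj_iff'.2 (a4 a' ha' b' hb')
    · have h := map_list_prod (MulAut.conj e) l
      simp only [MulAut.conj_apply] at h
      rw [show (fun a => e * a * e⁻¹) = ⇑(MulAut.conj e) from funext fun a => (MulAut.conj_apply e a).symm,
        ← map_list_prod, MulAut.conj_apply, a5, he.eq, mul_inv_cancel_right]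
  -- a pair determined by the product
  have pairBound : ∀ {j : G} {p : List G}, IsFact D 2 j p → (∀ e ∈ C, Commute e j) → u ∈ p →
      Nat.card C ≤ 64 := by
    intro j p hpf hej hup
    have hS : ∀ e ∈ C, e * u * e⁻¹ ∈ p.toFinset := fun e he => by
      rw [List.mem_toFinset]
      exact (pair_unique hD hn hpf (conjFact hpf e (hej e he)) _).2
        (List.mem_map.2 ⟨u, hup, rfl⟩)
    refine (card_le_mul_stab94 C u _ hS).trans ?_
    rw [List.toFinset_card_of_nodup hpf.1, hpf.2.1]
    have := stab u hu huB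
    omega
  match m, h1, h3, hl, hlen with
  | 1, _, _, hl, hlen =>
    match l, hlen, hprod, hu with
    | [a], _, hprod, hu =>
      simp only [List.prod_cons, List.prod_nil, mul_one] at hprod
      have hua : u = a := by simpa using hu
      subst hua
      refine (Subgroup.card_le_of_le (le_inf le_rfl fun e he => ?_)).trans
        ((stab u hu huB).trans (by norm_num))
      rw [Subgroup.mem_centralizer_singleton_iff, hprod]
      exact (memC e he).2.eq
  | 2, _, _, hl, _ => exact pairBound hl (fun e he => (memC e he).2) hu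
  | 3, _, _, hl, hlen =>
    by_cases hw : ∃ w ∈ l, w ∈ B
    · obtain ⟨w, hwl, hwB⟩ := hw
      have hpr : l.prod = w * (l.erase w).prod :=
        (List.Perm.prod_eq' (List.perm_cons_erase hwl)
          (List.pairwise_of_forall_mem_list hc)).trans List.prod_cons
      have hp2 : IsFact D 2 (l.erase w).prod (l.erase w) :=
        ⟨hnd.erase w, by rw [List.length_erase_of_mem hwl, hlen],
          fun a ha => hm a (List.mem_of_mem_erase ha),
          fun a ha b hb => hc a (List.mem_of_mem_erase ha) b (List.mem_of_mem_erase hb), rfl⟩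
      refine pairBound hp2 (fun e he => ?_) (List.mem_erase_of_ne (fun h => huB (by rw [h]; exact hwB)) |>.2 hu)
      have hew : Commute e w := (m22_base_span94 hG hp h22 hB (memC e he).1).2 w hwB
      rw [show (l.erase w).prod = w⁻¹ * t by rw [← hprod, hpr, inv_mul_cancel_left]]
      exact hew.inv_right.mul_right (memC e he).2
    push Not at hw
    obtain ⟨l₁, l₂, -, -, -, hall⟩ := m22_triples hG hp h22 hl
    match l, hlen, hnd, hw, hall, hl with
    | [a, b, c], _, hnd, hw, hall, hl =>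
      obtain ⟨P, hP⟩ : ∃ P : ↥C → Prop, P = fun e : ↥C => ∀ x : G, (x = a ∨ x = b ∨ x = c) →
          ((e : G) * x * (e : G)⁻¹ = a ∨ (e : G) * x * (e : G)⁻¹ = b ∨ (e : G) * x * (e : G)⁻¹ = c) :=
        ⟨_, rfl⟩
      have hn3 : (a ≠ b ∧ a ≠ c) ∧ b ≠ c := by simpa using hnd
      have hsq : ∀ e : ↥C, (e : G)⁻¹ = e := fun e =>
        inv_eq_of_mul_eq_one_right (m22_base_span94 hG hp h22 hB (memC e e.2).1).1
      -- all elements keeping the triple fix one of it
      obtain ⟨w, hw', hwfix⟩ := fixed_of_three94 hn3.1.1 hn3.1.2 hn3.2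
        (fun (e : {e : ↥C // P e}) x => ((e : ↥C) : G) * x * ((e : ↥C) : G)⁻¹)
        (fun e x => by
          have h := hsq (e : ↥C)
          have h' : ((e : ↥C) : G) * ((e : ↥C) : G) = 1 := by
            nth_rw 1 [← h]; exact inv_mul_cancel _
          simp [h, mul_assoc, ← mul_assoc ((e : ↥C) : G) ((e : ↥C) : G), h'])
        (fun e => (congrFun hP (e : ↥C)).mp e.2)
        (fun e e' x => by
          have hee := m22_base_abel94 hG hp h22 hB (memC _ (e : ↥C).2).1 (memC _ (e' : ↥C).2).1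
          show ((e : ↥C) : G) * (((e' : ↥C) : G) * x * ((e' : ↥C) : G)⁻¹) * ((e : ↥C) : G)⁻¹ = _
          rw [show ((e : ↥C) : G) * (((e' : ↥C) : G) * x * ((e' : ↥C) : G)⁻¹) * ((e : ↥C) : G)⁻¹ =
              (((e : ↥C) : G) * ((e' : ↥C) : G)) * x * (((e : ↥C) : G) * ((e' : ↥C) : G))⁻¹ by
            simp [mul_assoc], hee.eq]
          simp [mul_assoc])
      have hwl : w ∈ [a, b, c] := by simpa using hw'
      have hP32 : Nat.card {e : ↥C // P e} ≤ 32 := by
        refine le_trans ?_ (stab w hwl (hw w hwl))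
        refine Nat.card_le_card_of_injective (fun e => ⟨((e : ↥C) : G), (e : ↥C).2,
          Subgroup.mem_centralizer_singleton_iff.2 (mul_inv_eq_iff_eq_mul.1 (hwfix e))⟩)
          fun e e' h => Subtype.ext (Subtype.ext (congrArg Subtype.val h :))
      rw [Nat.card_eq_fintype_card, ← Finset.card_univ]
      refine (Finset.card_le_mul_card_image_of_maps_to (t := ({l₁.toFinset, l₂.toFinset} : Finset (Finset G)))
        (f := fun e : ↥C => ([a, b, c].map fun x => (e : G) * x * (e : G)⁻¹).toFinset)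
        (fun e _ => ?_) 32 fun y _ => ?_).trans ?_
      · rcases hall _ (conjFact hl e (memC e e.2).2) with h | h
        · exact Finset.mem_insert.2 (Or.inl (by ext x; rw [List.mem_toFinset, List.mem_toFinset]; exact h x))
        · refine Finset.mem_insert.2 (Or.inr (Finset.mem_singleton.2 ?_))
          ext x; rw [List.mem_toFinset, List.mem_toFinset]; exact h x
      · rcases Finset.eq_empty_or_nonempty (Finset.univ.filter fun e : ↥C =>
          ([a, b, c].map fun x => (e : G) * x * (e : G)⁻¹).toFinset = y) with h0 | ⟨e₀, he₀⟩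
        · rw [h0]; simp
        rw [Finset.mem_filter] at he₀
        refine le_trans ?_ hP32
        rw [← Nat.card_eq_finsetCard]
        refine Nat.card_le_card_of_injective (fun e => ⟨e₀⁻¹ * e.1, ?_⟩)
          fun e e' h => Subtype.ext (mul_left_cancel (congrArg Subtype.val h :))
        rw [hP]
        intro x hx
        have he := (Finset.mem_filter.1 e.2).2
        have hxm : ((e.1 : ↥C) : G) * x * ((e.1 : ↥C) : G)⁻¹ ∈
            ([a, b, c].map fun x => (e₀ : G) * x * (e₀ : G)⁻¹).toFinset :=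
          he₀.2.symm.subst (motive := fun z : Finset G => ((e.1 : ↥C) : G) * x * ((e.1 : ↥C) : G)⁻¹ ∈ z)
            (he.subst (motive := fun z : Finset G => ((e.1 : ↥C) : G) * x * ((e.1 : ↥C) : G)⁻¹ ∈ z)
              (List.mem_toFinset.2 (List.mem_map.2 ⟨x, by simpa using hx, rfl⟩)))
        obtain ⟨z, hz, hze⟩ := List.mem_map.1 (List.mem_toFinset.1 hxm)
        have heq : ((e₀⁻¹ * e.1 : ↥C) : G) * x * ((e₀⁻¹ * e.1 : ↥C) : G)⁻¹ = z := by
          rw [Subgroup.coe_mul, Subgroup.coe_inv]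
          calc (e₀ : G)⁻¹ * (e.1 : G) * x * ((e₀ : G)⁻¹ * (e.1 : G))⁻¹
              = (e₀ : G)⁻¹ * ((e.1 : G) * x * (e.1 : G)⁻¹) * (e₀ : G) := by simp [mul_assoc]
            _ = z := by rw [← hze]; simp [mul_assoc]
        rw [heq]
        simpa using hz
      · exact le_trans (Nat.mul_le_mul_left 32 Finset.card_le_two) (by norm_num)
  | 0, h1, _, _, _ => omega
  | _ + 4, _, h3, _, _ => omega

/-- An elementary abelian subgroup normalizing a base and not centralizing it has fewer than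
1024 elements. -/
theorem m22_base_offender94 {B : Set G} (hB : MaxClique53 D B) (hne : B.Nonempty) (A : Subgroup G)
    (hA : ∀ a ∈ A, a * a = 1) (hnorm : ∀ a ∈ A, ∀ b ∈ B, a * b * a⁻¹ ∈ B)
    (hmove : ∃ a ∈ A, ∃ b ∈ B, ¬ Commute a b) : Nat.card A < 1024 := by
  classical
  haveI := Fintype.ofFinite G
  have hAc : ∀ x ∈ A, ∀ y ∈ A, Commute x y := fun x hx y hy =>
    sq_one_comm94 (hA x hx) (hA y hy) (hA _ (mul_mem hx hy))
  obtain ⟨φ, hφ⟩ : ∃ φ : ↥A →* Equiv.Perm ↥B, ∀ a b, ((φ a b : ↥B) : G) = (a : G) * b * (a : G)⁻¹ :=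
    ⟨{ toFun := fun a =>
        { toFun := fun z => ⟨(a : G) * z * (a : G)⁻¹, hnorm a a.2 z z.2⟩
          invFun := fun z => ⟨(a : G)⁻¹ * z * (a : G), by simpa using hnorm _ (inv_mem a.2) z z.2⟩
          left_inv := fun z => Subtype.ext (by simp [mul_assoc])
          right_inv := fun z => Subtype.ext (by simp [mul_assoc]) }
       map_one' := Equiv.ext fun z => Subtype.ext (by simp)
       map_mul' := fun g h => Equiv.ext fun z => Subtype.ext (by simp [mul_assoc]) },
      fun _ _ => rfl⟩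
  have hfix : ∀ a b, φ a b = b ↔ Commute (a : G) (b : G) := fun a b => by
    rw [Subtype.ext_iff, hφ, mul_inv_eq_iff_eq_mul]; rfl
  have hcardB : B.ncard = 22 := m22_clique_card hG hp h22 hB hne
  -- kernel
  have hker : Nat.card φ.ker = Nat.card ↥(A ⊓ Subgroup.closure B) := by
    refine Nat.card_congr ⟨fun a => ⟨a.1, a.1.2, m22_base_self_centralizing94 hG hp h22 hB
      (hA _ a.1.2) fun b hb => (hfix a.1 ⟨b, hb⟩).1 (by rw [MonoidHom.mem_ker.1 a.2]; rfl)⟩,
      fun a => ⟨⟨a, a.2.1⟩, MonoidHom.mem_ker.2 (Equiv.ext fun b =>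
        (hfix _ b).2 ((m22_base_span94 hG hp h22 hB a.2.2).2 b b.2))⟩, fun a => rfl, fun a => rfl⟩
  have hcard : Nat.card A = Nat.card φ.range * Nat.card ↥(A ⊓ Subgroup.closure B) := by
    rw [← hker, ← Subgroup.index_ker φ, Subgroup.index_mul_card]
  obtain ⟨K, hK⟩ : ∃ K, A ⊓ Subgroup.closure B = K := ⟨_, rfl⟩
  rw [hK] at hcard
  obtain ⟨R, hR⟩ : ∃ R, φ.range = R := ⟨_, rfl⟩
  rw [hR] at hcard
  -- facts on the image
  have hlift : ∀ s ∈ R, ∃ a, φ a = s := fun s hs => MonoidHom.mem_range.1 (hR.symm ▸ hs)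
  have hR2 : ∀ s ∈ R, ∀ b, s (s b) = b := fun s hs b => by
    obtain ⟨a, rfl⟩ := hlift s hs
    rw [← Equiv.Perm.mul_apply, ← map_mul,
      show a * a = 1 from Subtype.ext (hA a a.2), map_one]; rfl
  have hRc : ∀ s ∈ R, ∀ r ∈ R, ∀ b, s (r b) = r (s b) := fun s hs r hr b => by
    obtain ⟨a, rfl⟩ := hlift s hs
    obtain ⟨a', rfl⟩ := hlift r hr
    rw [← Equiv.Perm.mul_apply, ← Equiv.Perm.mul_apply, ← map_mul, ← map_mul,
      show a * a' = a' * a from Subtype.ext (hAc a a.2 a' a'.2).eq]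
  have hmoves : ∀ a, φ a ≠ 1 → ¬ ∀ b ∈ B, Commute (a : G) b := fun a ha h =>
    ha (Equiv.ext fun b => (hfix a b).2 (h b b.2))
  have hfix6 : ∀ s ∈ R, s ≠ 1 → (Finset.univ.filter fun b => s b = b).card ≤ 6 := by
    intro s hs hs1
    obtain ⟨a, rfl⟩ := hlift s hs
    refine le_trans ?_ (m22_base_inv_cent94 hG hp h22 hB hne (hA a a.2) (hmoves a hs1)).1
    rw [← Finset.card_map (Function.Embedding.subtype fun x => x ∈ B), ← Set.ncard_coe_finset]
    refine Set.ncard_le_ncard (fun x hx => ?_) (Set.toFinite _)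
    simp only [Finset.mem_coe, Finset.mem_map, Finset.mem_filter, Finset.mem_univ, true_and,
      Function.Embedding.coe_subtype] at hx
    obtain ⟨b, hb, rfl⟩ := hx
    exact ⟨b.2, (hfix a b).1 hb⟩
  have hK64 : ∀ a, φ a ≠ 1 → K ≤ Subgroup.closure B ⊓ Subgroup.centralizer {(a : G)} := by
    intro a _ x hx
    rw [← hK] at hx
    exact ⟨hx.2, Subgroup.mem_centralizer_singleton_iff.2 (hAc x hx.1 a a.2).eq⟩
  obtain ⟨a₁, ha₁⟩ : ∃ a, φ a ≠ 1 := by
    obtain ⟨a, ha, b, hb, hab⟩ := hmove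
    refine ⟨⟨a, ha⟩, fun h => hab ((hfix ⟨a, ha⟩ ⟨b, hb⟩).1 ?_)⟩
    rw [h]; rfl
  have hKle : Nat.card K ≤ 64 := (Subgroup.card_le_of_le (hK64 a₁ ha₁)).trans
    (m22_base_inv_cent94 hG hp h22 hB hne (hA _ a₁.2) (hmoves a₁ ha₁)).2
  have hRpow : ∃ j, Nat.card R = 2 ^ j := by
    haveI : Fact (Nat.Prime 2) := ⟨Nat.prime_two⟩
    refine IsPGroup.iff_card.1 fun x => ⟨1, Subtype.ext (Equiv.ext fun b => ?_)⟩
    simp [pow_two, hR2 x.1 x.2 b]
  by_contra hcon
  push Not at hcon
  rw [hcard] at hcon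
  have hR16 : 16 ≤ Nat.card R := by nlinarith
  -- stabilizers and orbits
  obtain ⟨st, hst⟩ : ∃ st : ↥B → Finset ↥R, ∀ b s, s ∈ st b ↔ (s : Equiv.Perm ↥B) b = b :=
    ⟨fun b => Finset.univ.filter fun s : ↥R => (s : Equiv.Perm ↥B) b = b, fun b s => by simp⟩
  obtain ⟨orb, horb⟩ : ∃ orb : ↥B → Finset ↥B, ∀ b x, x ∈ orb b ↔ ∃ s : ↥R, (s : Equiv.Perm ↥B) b = x :=
    ⟨fun b => Finset.univ.image fun s : ↥R => (s : Equiv.Perm ↥B) b, fun b x => by simp⟩
  have hprodle : ∀ b, Nat.card R ≤ (orb b).card * (st b).card := by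
    intro b
    rw [Nat.card_eq_fintype_card, ← Finset.card_univ, mul_comm]
    refine Finset.card_le_mul_card_image_of_maps_to (f := fun s : ↥R => (s : Equiv.Perm ↥B) b)
      (fun s _ => (horb b _).2 ⟨s, rfl⟩) _ fun y _ => ?_
    rcases Finset.eq_empty_or_nonempty (Finset.univ.filter fun s : ↥R =>
      (s : Equiv.Perm ↥B) b = y) with h0 | ⟨s₀, hs₀⟩
    · rw [h0]; simp
    rw [Finset.mem_filter] at hs₀
    refine Finset.card_le_card_of_injOn (fun s => s₀⁻¹ * s) (fun s hs => ?_)
      (mul_right_injective _).injOn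
    rw [Finset.mem_coe, Finset.mem_filter] at hs
    rw [Finset.mem_coe, hst]
    show ((s₀⁻¹ * s : ↥R) : Equiv.Perm ↥B) b = b
    rw [Subgroup.coe_mul, Equiv.Perm.mul_apply, hs.2, ← hs₀.2, ← Equiv.Perm.mul_apply,
      ← Subgroup.coe_mul, inv_mul_cancel]
    rfl
  have horbfix : ∀ b, ∀ s ∈ st b, ∀ x ∈ orb b, (s : Equiv.Perm ↥B) x = x := by
    intro b s hs x hx
    obtain ⟨r, rfl⟩ := (horb b x).1 hx
    rw [hRc _ s.2 _ r.2, (hst b s).1 hs]
  have hst1 : ∀ b, (1 : ↥R) ∈ st b := fun b => (hst b 1).2 rfl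
  -- two orbits with a common nontrivial stabilizer
  have hfixU : ∀ (S : Finset ↥B) (s : ↥R), s ≠ 1 → (∀ x ∈ S, (s : Equiv.Perm ↥B) x = x) →
      S.card ≤ 6 := fun S s hs h =>
    le_trans (Finset.card_le_card fun x hx => Finset.mem_filter.2 ⟨Finset.mem_univ _, h x hx⟩)
      (hfix6 s s.2 fun e => hs (Subtype.ext e))
  have hBF : Fintype.card ↥B = 22 := by
    rw [← Nat.card_eq_fintype_card, Nat.card_coe_set_eq, hcardB]
  by_cases hbig : 32 ≤ Nat.card R
  · -- the stabilizers have index at most four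
    obtain ⟨j, hj⟩ := hRpow
    have hp2 : ∀ b, ∃ i, (orb b).card = 2 ^ i := by
      intro b
      haveI : Fact (Nat.Prime 2) := ⟨Nat.prime_two⟩
      have hpR : IsPGroup 2 R := IsPGroup.of_card hj
      obtain ⟨i, hi⟩ := hpR.card_orbit (α := ↥B) b
      refine ⟨i, ?_⟩
      rw [← hi, ← Nat.card_eq_finsetCard]
      refine Nat.card_congr (Equiv.subtypeEquivRight fun x => ?_)
      rw [horb, MulAction.mem_orbit_iff]
      exact Iff.rfl
    have horb4 : ∀ b, (orb b).card ≤ 4 := by
      intro b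
      have h22' : (orb b).card ≤ 22 := hBF ▸ Finset.card_le_univ _
      have h2 : 2 ≤ (st b).card := by
        by_contra h
        have := hprodle b
        interval_cases hh : (st b).card <;> omega
      obtain ⟨s, hs, hs1⟩ := Finset.exists_mem_ne h2 1
      have h6 := hfixU _ s hs1 (horbfix b s hs)
      exact two_pow_le94 2 (hp2 b) h6 (by norm_num)
    -- double counting
    have hsum : ∑ b, (st b).card ≤ 6 * Nat.card R + 16 := by
      calc ∑ b, (st b).card = ∑ b, ∑ s : ↥R, if (s : Equiv.Perm ↥B) b = b then 1 else 0 := by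
            refine Finset.sum_congr rfl fun b _ => ?_
            rw [← Finset.card_filter]
            congr 1; ext s; simp [hst]
        _ = ∑ s : ↥R, (Finset.univ.filter fun b => (s : Equiv.Perm ↥B) b = b).card := by
            rw [Finset.sum_comm]
            exact Finset.sum_congr rfl fun s _ => (Finset.card_filter _ _).symm
        _ ≤ ∑ s : ↥R, (6 + if s = 1 then 16 else 0) := by
            refine Finset.sum_le_sum fun s _ => ?_
            by_cases hs : s = 1
            · rw [if_pos hs]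
              exact le_trans (Finset.card_le_univ _) (by omega)
            · rw [if_neg hs, add_zero]
              exact hfix6 s s.2 fun e => hs (Subtype.ext e)
        _ = 6 * Nat.card R + 16 := by
            rw [Finset.sum_add_distrib, Finset.sum_ite_eq' Finset.univ (1 : ↥R) (fun _ => 16),
              if_pos (Finset.mem_univ _), Finset.sum_const, Finset.card_univ,
              Nat.card_eq_fintype_card, smul_eq_mul, mul_comm]
    obtain ⟨S3, hS3⟩ : ∃ S : Finset ↥B, S = Finset.univ.filter fun b => 2 < (orb b).card := ⟨_, rfl⟩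
    by_cases hS : S3.card ≤ 4
    · have hlow : ∀ b ∉ S3, Nat.card R ≤ 2 * (st b).card := fun b hb => by
        have hb' : ¬ 2 < (orb b).card := by simpa [hS3] using hb
        have := hprodle b
        nlinarith
      have h1 : ∑ b ∈ S3ᶜ, Nat.card R ≤ ∑ b ∈ S3ᶜ, 2 * (st b).card :=
        Finset.sum_le_sum fun b hb => hlow b (Finset.mem_compl.1 hb)
      rw [Finset.sum_const, smul_eq_mul, Finset.card_compl, hBF, ← Finset.mul_sum] at h1
      have h2 : ∑ b ∈ S3ᶜ, (st b).card ≤ ∑ b, (st b).card :=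
        Finset.sum_le_sum_of_subset (Finset.subset_univ _)
      have h3 : 18 * Nat.card R ≤ (22 - S3.card) * Nat.card R := Nat.mul_le_mul_right _ (by omega)
      omega
    push Not at hS
    obtain ⟨b, hb⟩ := Finset.card_pos.1 (by omega : 0 < S3.card)
    obtain ⟨b', hb', hbb⟩ := Finset.exists_mem_notMem_of_card_lt_card
      (lt_of_le_of_lt (horb4 b) hS)
    have hd : Disjoint (orb b) (orb b') := by
      rw [Finset.disjoint_left]
      intro x hx hx'
      obtain ⟨r, rfl⟩ := (horb b _).1 hx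
      obtain ⟨r', hr'⟩ := (horb b' _).1 hx'
      refine hbb ((horb b b').2 ⟨r'⁻¹ * r, ?_⟩)
      rw [Subgroup.coe_mul, Equiv.Perm.mul_apply, ← hr', ← Equiv.Perm.mul_apply,
        ← Subgroup.coe_mul, inv_mul_cancel]
      rfl
    obtain ⟨s, hs, hs1⟩ : ∃ s ∈ st b ∩ st b', s ≠ 1 := by
      by_contra hc
      push Not at hc
      have hinj : ((st b) ×ˢ (st b')).card ≤ (Finset.univ : Finset ↥R).card := by
        refine Finset.card_le_card_of_injOn (fun p => p.1 * p.2) (fun _ _ => Finset.mem_univ _) ?_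
        intro p hp' q hq h
        rw [Finset.mem_coe, Finset.mem_product] at hp' hq
        simp only at h
        have e : q.1⁻¹ * p.1 = q.2 * p.2⁻¹ := by
          rw [eq_mul_inv_iff_mul_eq, mul_assoc, h, inv_mul_cancel_left]
        have m1 : q.1⁻¹ * p.1 ∈ st b := (hst _ _).2 (by
          rw [Subgroup.coe_mul, Equiv.Perm.mul_apply, (hst _ _).1 hp'.1, Subgroup.coe_inv,
            Equiv.Perm.inv_eq_iff_eq, (hst _ _).1 hq.1])
        have m2 : q.2 * p.2⁻¹ ∈ st b' := (hst _ _).2 (by
          rw [Subgroup.coe_mul, Equiv.Perm.mul_apply, Subgroup.coe_inv]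
          conv_lhs => rw [show (p.2 : Equiv.Perm ↥B)⁻¹ b' = b' by
            rw [Equiv.Perm.inv_eq_iff_eq, (hst _ _).1 hp'.2]]
          exact (hst _ _).1 hq.2)
        have h1 := hc _ (Finset.mem_inter.2 ⟨m1, e ▸ m2⟩)
        have ea : p.1 = q.1 := (inv_mul_eq_one.1 h1).symm
        exact Prod.ext ea (mul_left_cancel (a := p.1) (by rw [h, ea]))
      rw [Finset.card_product, Finset.card_univ, ← Nat.card_eq_fintype_card] at hinj
      have e1 := hprodle b
      have e2 := hprodle b'
      have f1 := horb4 b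
      have f2 := horb4 b'
      have g1 : Nat.card R ≤ 4 * (st b).card := e1.trans (Nat.mul_le_mul_right _ f1)
      have g2 : Nat.card R ≤ 4 * (st b').card := e2.trans (Nat.mul_le_mul_right _ f2)
      nlinarith [Nat.mul_le_mul g1 g2]
    rw [Finset.mem_inter] at hs
    have hu6 := hfixU (orb b ∪ orb b') s hs1 fun x hx => (Finset.mem_union.1 hx).elim
      (horbfix b s hs.1 x) (horbfix b' s hs.2 x)
    rw [Finset.card_union_of_disjoint hd] at hu6
    have q1 : 2 < (orb b).card := by simpa [hS3] using hb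
    have q2 : 2 < (orb b').card := by simpa [hS3] using hb'
    have q1' : 3 < (orb b).card := by
      by_contra h
      have := two_pow_le94 1 (hp2 b) (show (orb b).card ≤ 3 by omega) (by norm_num)
      omega
    omega
  -- order sixteen
  have hR16' : Nat.card R = 16 := by
    obtain ⟨j, hj⟩ := hRpow
    have := two_pow_le94 (n := Nat.card R) 4 ⟨j, hj⟩ (show Nat.card R ≤ 31 by omega) (by norm_num)
    omega
  rw [hR16'] at hcon
  have hK64e : Nat.card K = 64 := by omega
  have hsame : ∀ a a', φ a ≠ 1 → ∀ x ∈ Subgroup.closure B, Commute x (a : G) → φ a' ≠ 1 →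
      Commute x (a' : G) := by
    intro a a' ha x hx hxa ha'
    have heq : ∀ a, φ a ≠ 1 → K = Subgroup.closure B ⊓ Subgroup.centralizer {(a : G)} := fun a ha =>
      Subgroup.eq_of_le_of_card_ge (hK64 a ha) (by
        rw [hK64e]
        exact (m22_base_inv_cent94 hG hp h22 hB hne (hA a a.2) (hmoves a ha)).2)
    have hxK : x ∈ K := by
      rw [heq a ha]
      exact ⟨hx, Subgroup.mem_centralizer_singleton_iff.2 hxa.eq⟩
    rw [heq a' ha'] at hxK
    exact Subgroup.mem_centralizer_singleton_iff.1 hxK.2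
  obtain ⟨b, hbf⟩ : ∃ b : ↥B, φ a₁ b ≠ b := by
    by_contra h
    push Not at h
    exact ha₁ (Equiv.ext h)
  have hfree : ∀ s : ↥R, (s : Equiv.Perm ↥B) b = b → s = 1 := by
    intro s hs
    by_contra hs1
    obtain ⟨a, ha⟩ := hlift s s.2
    have ha1 : φ a ≠ 1 := fun e => hs1 (Subtype.ext (ha ▸ e))
    rw [← ha] at hs
    exact hbf ((hfix a₁ b).2 (hsame a a₁ ha1 b (Subgroup.subset_closure b.2)
      ((hfix a b).1 hs).symm ha₁).symm)
  obtain ⟨b₁, hb₁⟩ : ∃ b₁, φ a₁ b = b₁ := ⟨_, rfl⟩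
  have hne1 : (b : G) ≠ b₁ := fun e => hbf (hb₁.trans (Subtype.ext e).symm)
  have hbc : Commute (b : G) b₁ := hB.comm _ b.2 _ b₁.2
  have hfact : IsFact D 2 ((b : G) * b₁) [(b : G), (b₁ : G)] := by
    refine ⟨by simpa using hne1, rfl, ?_, ?_, by simp⟩
    · simp [hB.sub b.2, hB.sub b₁.2]
    · simp [hbc, hbc.symm]
  have hswap : Commute ((b : G) * b₁) (a₁ : G) := by
    have e1 : (a₁ : G) * b * (a₁ : G)⁻¹ = b₁ := by rw [← hφ, hb₁]
    have e2 : (a₁ : G) * b₁ * (a₁ : G)⁻¹ = b := by
      rw [← hφ, ← hb₁, hR2 (φ a₁) (hR ▸ ⟨a₁, rfl⟩) b]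
    have e : (a₁ : G) * ((b : G) * b₁) * (a₁ : G)⁻¹ = (b : G) * b₁ := by
      rw [show (a₁ : G) * ((b : G) * b₁) * (a₁ : G)⁻¹ =
        ((a₁ : G) * b * (a₁ : G)⁻¹) * ((a₁ : G) * b₁ * (a₁ : G)⁻¹) by simp [mul_assoc], e1, e2]
      exact hbc.symm.eq
    exact (mul_inv_eq_iff_eq_mul.1 e).symm
  have hin : ∀ s : ↥R, (s : Equiv.Perm ↥B) b ∈ ({b, b₁} : Finset ↥B) := by
    intro s
    by_cases hs : s = 1
    · rw [hs]; exact Finset.mem_insert_self _ _
    obtain ⟨a, ha⟩ := hlift s s.2
    have ha1 : φ a ≠ 1 := fun e => hs (Subtype.ext (ha ▸ e))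
    have hca := hsame a₁ a ha₁ _ (mul_mem (Subgroup.subset_closure b.2)
      (Subgroup.subset_closure b₁.2)) hswap ha1
    have hf' : IsFact D 2 ((b : G) * b₁) [(a : G) * b * (a : G)⁻¹, (a : G) * b₁ * (a : G)⁻¹] := by
      refine ⟨by simpa using hne1, rfl, ?_, ?_, ?_⟩
      · simp [hG.2.1 _ _ (hB.sub b.2), hG.2.1 _ _ (hB.sub b₁.2)]
      · simp [commute_conj_iff', hbc, hbc.symm]
      · rw [List.prod_cons, List.prod_cons, List.prod_nil, mul_one]
        rw [show (a : G) * b * (a : G)⁻¹ * ((a : G) * b₁ * (a : G)⁻¹) =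
          (a : G) * ((b : G) * b₁) * (a : G)⁻¹ by simp [mul_assoc]]
        exact mul_inv_eq_iff_eq_mul.2 hca.eq.symm
    have hmem := (pair_unique hG.1 (m22_noTwins hG h22) hfact hf' _).2 (List.mem_cons_self ..)
    rw [← ha]
    simp only [List.mem_cons, List.not_mem_nil, or_false] at hmem
    rw [Finset.mem_insert, Finset.mem_singleton, Subtype.ext_iff, Subtype.ext_iff, hφ]
    exact hmem
  have h2 : Nat.card R ≤ 2 := by
    refine le_trans ?_ (Finset.card_le_two (a := b) (b := b₁))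
    rw [← Nat.card_eq_finsetCard]
    refine Nat.card_le_card_of_injective (fun s => ⟨_, hin s⟩) fun s s' h => ?_
    have h' : (s : Equiv.Perm ↥B) b = (s' : Equiv.Perm ↥B) b := congrArg Subtype.val h
    have := hfree (s'⁻¹ * s) (by
      rw [Subgroup.coe_mul, Equiv.Perm.mul_apply, h', ← Equiv.Perm.mul_apply, ← Subgroup.coe_mul,
        inv_mul_cancel]; rfl)
    exact (inv_mul_eq_one.1 this).symm
  omega

/-- A Sylow 2-subgroup contains the group generated by a base, normalizes it, and has it as the only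
elementary abelian subgroup of largest order. -/
theorem m22_sylow_base94 (T : Sylow 2 G) :
    ∃ B : Set G, MaxClique53 D B ∧ B.Nonempty ∧ Subgroup.closure B ≤ (T : Subgroup G) ∧
      {x : G | x ∈ D ∧ x ∈ (T : Subgroup G)} = B ∧ (T : Subgroup G) ≤ Subgroup.normalizer B ∧
      ∀ A : Subgroup G, A ≤ (T : Subgroup G) → (∀ a ∈ A, a * a = 1) →
        Nat.card A ≤ Nat.card ↥(Subgroup.closure B) ∧
          (Nat.card ↥(Subgroup.closure B) ≤ Nat.card A → A = Subgroup.closure B) := by
  classical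
  haveI : Fact (Nat.Prime 2) := ⟨Nat.prime_two⟩
  obtain ⟨B, hB, hne⟩ : ∃ B, MaxClique53 D B ∧ B.Nonempty := by
    obtain ⟨a, ha, -⟩ := hp.2.1
    obtain ⟨B, ⟨h1, h2, h3⟩, hmax⟩ := Set.Finite.exists_maximal (Set.toFinite
      {S : Set G | S ⊆ D ∧ (∀ x ∈ S, ∀ y ∈ S, Commute x y) ∧ a ∈ S})
      ⟨{a}, by simpa using ha, by simp, rfl⟩
    refine ⟨B, ⟨h1, h2, fun x hx hxB => ?_⟩, a, h3⟩
    refine hmax ⟨Set.insert_subset hx h1, ?_, Set.mem_insert_of_mem _ h3⟩
      (Set.subset_insert x B) (Set.mem_insert x B)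
    intro y hy z hz
    rcases hy with rfl | hy <;> rcases hz with rfl | hz
    · exact Commute.refl _
    · exact hxB z hz
    · exact (hxB y hy).symm
    · exact h2 y hy z hz
  -- move it into the Sylow subgroup
  obtain ⟨T₀, hT₀⟩ := (show IsPGroup 2 ↥(Subgroup.closure B) from fun x => ⟨1, Subtype.ext (by
    rw [pow_one, SubmonoidClass.coe_pow, pow_two]
    exact (m22_base_span94 hG hp h22 hB x.2).1)⟩).exists_le_sylow
  obtain ⟨g, hg⟩ := MulAction.exists_smul_eq G T₀ T
  obtain ⟨B', hB', hne', hle⟩ : ∃ B', MaxClique53 D B' ∧ B'.Nonempty ∧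
      Subgroup.closure B' ≤ (T : Subgroup G) := by
    refine ⟨(fun x => g * x * g⁻¹) '' B, ⟨?_, ?_, ?_⟩, hne.image _, ?_⟩
    · rintro _ ⟨x, hx, rfl⟩; exact hG.2.1 g x (hB.sub hx)
    · rintro _ ⟨x, hx, rfl⟩ _ ⟨y, hy, rfl⟩; exact commute_conj_iff'.2 (hB.comm x hx y hy)
    · intro x hx h
      refine ⟨g⁻¹ * x * g, hB.max _ (by simpa using hG.2.1 g⁻¹ x hx) fun b hb => ?_, by simp [mul_assoc]⟩
      have := h _ ⟨b, hb, rfl⟩
      rw [← commute_conj_iff' (g := g)]
      simpa [mul_assoc] using this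
    · rw [Subgroup.closure_le]
      rintro _ ⟨x, hx, rfl⟩
      rw [← hg, Sylow.coe_subgroup_smul]
      exact Subgroup.smul_mem_pointwise_smul x (MulAut.conj g) _ (hT₀ (Subgroup.subset_closure hx))
  clear hB hne hT₀
  obtain ⟨E, hE⟩ : ∃ E, Subgroup.closure B' = E := ⟨_, rfl⟩
  have hE2 : ∀ x ∈ E, x * x = 1 := fun x hx =>
    (m22_base_span94 hG hp h22 hB' (hE.symm ▸ hx)).1
  have hBE : ∀ x ∈ D, x ∈ E → x ∈ B' := fun x hx hxE =>
    hB'.max x hx (m22_base_span94 hG hp h22 hB' (hE.symm ▸ hxE)).2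
  have h1024 : 1024 ≤ Nat.card E := hE ▸ m22_base_card94 hG hp h22 hB' hne'
  -- largest elementary abelian subgroups normalizing the base
  have huniq : ∀ A : Subgroup G, (∀ a ∈ A, a * a = 1) → (∀ a ∈ A, ∀ b ∈ B', a * b * a⁻¹ ∈ B') →
      Nat.card E ≤ Nat.card A → A = E := by
    intro A hA hAn hcard
    by_cases hmove : ∃ a ∈ A, ∃ b ∈ B', ¬ Commute a b
    · have := m22_base_offender94 hG hp h22 hB' hne' A hA hAn hmove
      omega
    push Not at hmove
    exact Subgroup.eq_of_le_of_card_ge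
      (fun a ha => hE ▸ m22_base_self_centralizing94 hG hp h22 hB' (hA a ha) (hmove a ha)) hcard
  have hconj : ∀ t ∈ Subgroup.normalizer B', ∀ b ∈ B', t * b * t⁻¹ ∈ B' := fun t ht b hb =>
    (Subgroup.mem_set_normalizer_iff.1 ht b).1 hb
  -- the Sylow subgroup normalizes the base
  have hTN : (T : Subgroup G) ≤ Subgroup.normalizer B' := by
    obtain ⟨H, hH⟩ : ∃ H, (T : Subgroup G) ⊓ Subgroup.normalizer B' = H := ⟨_, rfl⟩
    by_contra hcon
    have hlt : H.subgroupOf (T : Subgroup G) < ⊤ := by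
      refine lt_top_iff_ne_top.2 fun h => hcon ?_
      rw [Subgroup.subgroupOf_eq_top] at h
      exact h.trans (hH ▸ inf_le_right)
    haveI : Group.IsNilpotent ↥(T : Subgroup G) := T.isPGroup'.isNilpotent
    obtain ⟨x, hx, hxH⟩ := SetLike.exists_of_lt (normalizerCondition_of_isNilpotent
      (H.subgroupOf (T : Subgroup G)) hlt)
    have hEH : E ≤ H := by
      rw [← hH]
      refine le_inf (hE ▸ hle) fun e he => Subgroup.mem_set_normalizer_iff.2 fun b => ?_
      have hc : ∀ b ∈ B', e * b * e⁻¹ = b := fun b hb => by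
        rw [((m22_base_span94 hG hp h22 hB' (hE.symm ▸ he)).2 b hb).eq, mul_inv_cancel_right]
      refine ⟨fun hb => by rw [hc b hb]; exact hb, fun hb => ?_⟩
      have h := hc _ hb
      have hb2 : e * b * e⁻¹ = b := mul_left_cancel (mul_right_cancel h)
      rw [← hb2]; exact hb
    -- the conjugate
    obtain ⟨A, hA⟩ : ∃ A, E.map (MulAut.conj (x : G)).toMonoidHom = A := ⟨_, rfl⟩
    have hAH : A ≤ H := by
      rw [← hA]
      rintro _ ⟨e, he, rfl⟩
      have hmem := (Subgroup.mem_normalizer_iff.1 hx (⟨e, hle (hE.symm ▸ he)⟩ : ↥(T : Subgroup G))).1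
        (Subgroup.mem_subgroupOf.2 (hEH he))
      exact Subgroup.mem_subgroupOf.1 hmem
    have hAE : A = E := by
      refine huniq A ?_ (fun a ha => hconj a ((hH ▸ hAH ha : a ∈ (T : Subgroup G) ⊓ _).2)) ?_
      · rw [← hA]
        rintro _ ⟨e, he, rfl⟩
        rw [← map_mul, hE2 e he, map_one]
      · exact le_of_eq (by rw [← hA]; exact Nat.card_congr (E.equivMapOfInjective _ (MulEquiv.injective _)).toEquiv)
    suffices hN : (x : G) ∈ Subgroup.normalizer B' from
      hxH (Subgroup.mem_subgroupOf.2 (hH ▸ Subgroup.mem_inf.2 ⟨x.2, hN⟩))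
    refine Subgroup.mem_set_normalizer_iff.2 fun b => ?_
    have hmap : ∀ e, e ∈ E ↔ (x : G) * e * (x : G)⁻¹ ∈ E := fun e => by
      constructor
      · intro he
        exact hAE ▸ hA ▸ ⟨e, he, rfl⟩
      · intro he
        rw [← hAE, ← hA] at he
        obtain ⟨e', he', h⟩ := he
        have : e' = e := mul_left_cancel (mul_right_cancel h)
        exact this ▸ he'
    constructor
    · intro hb
      exact hBE _ (hG.2.1 _ b (hB'.sub hb)) ((hmap b).1 (hE ▸ Subgroup.subset_closure hb))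
    · intro hb
      refine hBE b ?_ ((hmap b).2 (hE ▸ Subgroup.subset_closure hb))
      simpa [mul_assoc] using hG.2.1 (x : G)⁻¹ _ (hB'.sub hb)
  -- members in the Sylow subgroup
  have hDT : {x : G | x ∈ D ∧ x ∈ (T : Subgroup G)} = B' := by
    ext x
    exact ⟨fun h => hB'.max x h.1 fun b hb => tt_commute_of_pgroup94 hG.1 T.isPGroup' h.1
      (hB'.sub hb) h.2 (hle (Subgroup.subset_closure hb)),
      fun h => ⟨hB'.sub h, hle (Subgroup.subset_closure h)⟩⟩
  refine ⟨B', hB', hne', hle, hDT, hTN, fun A hAT hA => ?_⟩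
  rw [hE]
  have h := huniq A hA fun a ha => hconj a (hTN (hAT ha))
  refine ⟨?_, h⟩
  rcases le_total (Nat.card ↥A) (Nat.card E) with h' | h'
  · exact h'
  · rw [h h']

/-- The members in a Sylow 2-subgroup generate its Thompson subgroup. -/
theorem m22_sylow_thompson94 (T : Sylow 2 G) :
    Subgroup.closure {x : G | x ∈ D ∧ x ∈ (T : Subgroup G)} =
      thompsonSubgroupOf 2 (T : Subgroup G) := by
  obtain ⟨B, hB, -, hle, hDT, -, hA⟩ := m22_sylow_base94 hG hp h22 T
  rw [hDT]
  have hEab : IsElementaryAbelian 2 ((Subgroup.closure B).subgroupOf (T : Subgroup G)) := by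
    refine ⟨⟨⟨fun a b => Subtype.ext (Subtype.ext ?_)⟩⟩, fun a ha => Subtype.ext ?_⟩
    · exact (m22_base_abel94 hG hp h22 hB a.2 b.2).eq
    · rw [pow_two]; exact (m22_base_span94 hG hp h22 hB ha).1
  have hcE : Nat.card ↥((Subgroup.closure B).subgroupOf (T : Subgroup G)) =
      Nat.card ↥(Subgroup.closure B) :=
    Nat.card_congr (Subgroup.subgroupOfEquivOfLe hle).toEquiv
  have htoG : ∀ A : Subgroup ↥(T : Subgroup G), IsElementaryAbelian 2 A →
      Nat.card A ≤ Nat.card ↥(Subgroup.closure B) ∧ (Nat.card ↥(Subgroup.closure B) ≤ Nat.card A →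
        A = (Subgroup.closure B).subgroupOf (T : Subgroup G)) := by
    intro A hAe
    have h := hA (A.map (T : Subgroup G).subtype) (Subgroup.map_subtype_le A) ?_
    · rw [← Nat.card_congr (A.equivMapOfInjective _ (Subgroup.subtype_injective _)).toEquiv] at h
      refine ⟨h.1, fun hc => ?_⟩
      rw [← h.2 hc]
      exact (Subgroup.comap_map_eq_self_of_injective (Subgroup.subtype_injective _) A).symm
    · rintro _ ⟨a, ha, rfl⟩
      rw [← map_mul, ← pow_two, hAe.2 a ha, map_one]
  have hmax : maxElementaryAbelianSubgroups 2 ↥(T : Subgroup G) =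
      {(Subgroup.closure B).subgroupOf (T : Subgroup G)} := by
    ext A
    constructor
    · exact fun h => (htoG A h.1).2 (hcE ▸ h.2 _ hEab)
    · rintro rfl
      exact ⟨hEab, fun A hA => hcE.symm ▸ (htoG A hA).1⟩
  rw [thompsonSubgroupOf, thompsonSubgroup, hmax, sSup_singleton, Subgroup.subgroupOf_map_subtype,
    inf_eq_left.2 hle]

end m22

end CfsgLib.ThreeTransp
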