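import Mathlib
import Cfsg.Agent.ThreeTransp.M22Thompson94
import Cfsg.Agent.ThreeTransp.CoverCount94
import Cfsg.Agent.Classical.Unitary.Simple

/-!
An involution centralizer that is a double cover of a group of type M(22): the Thompson subgroup
of a Sylow 2-subgroup, its fusion, and the classes of lifts conjugate to the involution.
-/

set_option autoImplicit false

namespace CfsgLib.ThreeTransp

open Cfsg PSU62

universe u v

section ttg

variable {M : Type u} [Group M] {D : Set M}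

/-- Members with product of order two commute; the neighbours of a member as transvections. -/
theorem m22_nbr_hom94 [Finite M] (hG : IsThreeTranspositionGroup D) (hp : IsPrimitiveUnderConj D)
    (h22 : IsOfTypeM22 M D) {a : M} (ha : a ∈ D) :
    ∃ (F : Type) (_ : Field F) (_ : Fintype F) (hF : Fintype.card F = 4)
      (ψ : ↥(Subgroup.closure (nbr D a)) →* PSU 6 F 2), Function.Surjective ψ ∧
      (∀ z, ψ z = 1 ↔ (z : M) = 1 ∨ (z : M) = a) ∧
      (∀ v, hm v v = 0 → v ≠ 0 → ∃ y : ↥(Subgroup.closure (nbr D a)), (y : M) ∈ nbr D a ∧ ψ y = tp hF v) ∧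
      ∀ y y' : ↥(Subgroup.closure (nbr D a)), (y : M) ∈ nbr D a → (y' : M) ∈ nbr D a →
        Commute (ψ y) (ψ y') → Commute (y : M) (y' : M) := by
  classical
  have hs := m22_singleClass hG h22
  have hn := m22_noTwins hG h22
  obtain ⟨hZ, d, hd, c, hc, hdc, ⟨F, _, _, hF, ⟨φ⟩⟩, -⟩ := id h22
  obtain ⟨g, hg⟩ := hs a ha d hd
  have himg : (MulAut.conj g).toMonoidHom '' nbr D a = nbr D d := by
    ext y
    constructor
    · rintro ⟨x, hx, rfl⟩
      exact hg ▸ nbr_conj hG g hx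
    · intro hy
      refine ⟨g⁻¹ * y * g, ?_, ?_⟩
      · have := nbr_conj hG g⁻¹ hy
        rwa [inv_inv, ← hg, show g⁻¹ * (g * a * g⁻¹) * g = a by
          simp only [mul_assoc, inv_mul_cancel_left, inv_mul_cancel, mul_one]] at this
      · show g * (g⁻¹ * y * g) * g⁻¹ = y
        simp only [mul_assoc, mul_inv_cancel_left, mul_inv_cancel, mul_one]
  have hmap : (Subgroup.closure (nbr D a)).map (MulAut.conj g).toMonoidHom = Subgroup.closure (nbr D d) := by
    rw [MonoidHom.map_closure, himg]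
  let e : ↥(Subgroup.closure (nbr D a)) ≃* ↥(Subgroup.closure (nbr D d)) :=
    ((MulAut.conj g).subgroupMap _).trans (MulEquiv.subgroupCongr hmap)
  obtain ⟨ψ, hψ, hker⟩ : ∃ ψ : ↥(Subgroup.closure (nbr D a)) →* PSU 6 F 2, Function.Surjective ψ ∧
      ∀ z, ψ z = 1 ↔ z ∈ Subgroup.center ↥(Subgroup.closure (nbr D a)) := by
    refine ⟨(φ.toMonoidHom.comp (QuotientGroup.mk' _)).comp e.toMonoidHom,
      (φ.surjective.comp (QuotientGroup.mk'_surjective _)).comp e.surjective, fun z => ?_⟩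
    have h1 : φ (QuotientGroup.mk (e z)) = 1 ↔ e z ∈ Subgroup.center _ := by
      rw [← φ.map_one, φ.apply_eq_iff_eq, QuotientGroup.eq_one_iff]
    refine h1.trans ⟨fun hz => ?_, fun hz => ?_⟩
    · rw [Subgroup.mem_center_iff] at hz ⊢
      exact fun y => e.injective (by rw [map_mul, map_mul]; exact hz (e y))
    · rw [Subgroup.mem_center_iff] at hz ⊢
      intro y
      obtain ⟨y, rfl⟩ := e.surjective y
      rw [← map_mul, ← map_mul, hz y]
  have hnc : NbrNonCentral D a := noTwins_noncentral hG hn hZ ha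
  have hker' : ∀ z, ψ z = 1 ↔ (z : M) = 1 ∨ (z : M) = a := by
    intro z
    rw [hker, mem_center_closure]
    constructor
    · exact fun h => fixes_eq_one_or_self hG hp h22 ha
        ⟨commute_of_mem_closure_nbr z.2, fun y hy => (h y hy).symm⟩
    · rintro (h | h) s hs' <;> rw [h]
      · exact Commute.one_right s
      · exact hs'.2.2.symm
  have hH := nbrIn_ttg hG a
  have hne1 : ∀ x, x ∈ nbrIn D a → ψ x ≠ 1 := by
    intro x hx h
    obtain ⟨e', he, hne⟩ := hnc (x : M) hx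
    exact hne (mem_center_closure.1 ((hker x).1 h) e' he)
  have hT : IsThreeTranspositionGroup (ψ '' nbrIn D a) := by
    refine ⟨⟨?_, ?_⟩, ?_, ?_⟩
    · rintro _ ⟨x, hx, rfl⟩
      exact orderOf_eq_prime (by rw [pow_two, ← map_mul, tt_mul_self hH.1 hx, map_one]) (hne1 x hx)
    · rintro _ ⟨x, hx, rfl⟩ _ ⟨y, hy, rfl⟩
      rcases hH.1.2 x hx y hy with h | h
      · exact Or.inl (by rw [← map_mul, ← map_pow, h, map_one])
      · exact Or.inr (by rw [← map_mul, ← map_pow, h, map_one])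
    · rintro k _ ⟨x, hx, rfl⟩
      obtain ⟨k, rfl⟩ := hψ k
      exact ⟨k * x * k⁻¹, hH.2.1 k x hx, by simp⟩
    · rw [← MonoidHom.map_closure, hH.2.2, Subgroup.map_top_of_surjective _ hψ]
  have hne : (ψ '' nbrIn D a).Nonempty := by
    by_contra h
    rw [Set.not_nonempty_iff_eq_empty] at h
    have h1 := hT.2.2
    rw [h, Subgroup.closure_empty] at h1
    obtain ⟨p, hp', hp0⟩ := PSU62.exists_point hF
    exact PSU62.tp_ne_one hF hp' hp0 (Subgroup.mem_bot.1 (h1 ▸ Subgroup.mem_top _))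
  obtain ⟨-, honto⟩ := psu_class_eq hF hT hne
  refine ⟨F, inferInstance, inferInstance, hF, ψ, hψ, hker', fun v hv hv0 => ?_, fun y y' hy hy' h => ?_⟩
  · obtain ⟨y, hy, he⟩ := honto v hv hv0
    exact ⟨y, hy, he⟩
  · refine (nbr_mk_commute_iff hG hnc (x := y) (y := y') hy hy').1 ?_
    show _ = _
    rw [← QuotientGroup.mk_mul, ← QuotientGroup.mk_mul, QuotientGroup.eq, ← hker, map_mul,
      map_inv, map_mul, map_mul, h.eq, inv_mul_cancel]

/-- `PSU(6, 2)` is perfect. -/
theorem psu62_commutator94 {F : Type} [Field F] [Fintype F] (hF : Fintype.card F = 4) :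
    commutator (PSU 6 F 2) = ⊤ := by
  haveI := CfsgLib.Unitary.isSimpleGroup_PSU (n := 6) (q := 2) (card_sq hF) (by norm_num) (by omega)
  rcases Subgroup.Normal.eq_bot_or_eq_top (H := commutator (PSU 6 F 2)) inferInstance with h | h
  · exfalso
    obtain ⟨p, hp, hp0⟩ := PSU62.exists_point hF
    refine PSU62.tp_ne_one hF hp hp0 ?_
    rw [← Subgroup.mem_bot, ← psu_center_trivial hF]
    refine Subgroup.mem_center_iff.2 fun y => ?_
    have hmem := Subgroup.commutator_mem_commutator (Subgroup.mem_top y) (Subgroup.mem_top (tp hF p))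
    rw [← commutator_def, h, Subgroup.mem_bot] at hmem
    exact commutatorElement_eq_one_iff_mul_comm.1 hmem
  · exact h

theorem clique_extend94 [Finite M] {S : Set M} (hne : S.Nonempty) (hS : S ⊆ D)
    (hc : ∀ x ∈ S, ∀ y ∈ S, Commute x y) : ∃ B, MaxClique53 D B ∧ B.Nonempty ∧ S ⊆ B := by
  obtain ⟨B, ⟨h1, h2, h3⟩, hmax⟩ := Set.Finite.exists_maximal (Set.toFinite
    {T : Set M | T ⊆ D ∧ (∀ x ∈ T, ∀ y ∈ T, Commute x y) ∧ S ⊆ T})
    ⟨S, hS, hc, subset_rfl⟩
  refine ⟨B, ⟨h1, h2, fun x hx hxB => ?_⟩, hne.mono h3, h3⟩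
  refine hmax ⟨Set.insert_subset hx h1, ?_, h3.trans (Set.subset_insert _ _)⟩
    (Set.subset_insert x B) (Set.mem_insert x B)
  intro y hy z hz
  rcases hy with rfl | hy <;> rcases hz with rfl | hz
  · exact Commute.refl _
  · exact hxB z hz
  · exact (hxB y hy).symm
  · exact h2 y hy z hz

variable [Finite M] (hG : IsThreeTranspositionGroup D) (hp : IsPrimitiveUnderConj D)
  (h22 : IsOfTypeM22 M D)
include hG hp h22

/-- The group generated by a base has order 1024. -/
theorem m22_base_card_eq94 {B : Set M} (hB : MaxClique53 D B) (hne : B.Nonempty) :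
    Nat.card ↥(Subgroup.closure B) = 1024 := by
  refine le_antisymm ?_ (m22_base_card94 hG hp h22 hB hne)
  have hcard := m22_base_profile hG hp h22 hB hne
  obtain ⟨o, ho, -, hoB⟩ := Set.nonempty_of_ncard_ne_zero (by rw [hcard]; norm_num :
    {x | x ∈ D ∧ x ∉ B ∧ ∀ b ∈ B, ¬ Commute x b}.ncard ≠ 0)
  rw [← hcard, ← Nat.card_coe_set_eq]
  have hmaps : ∀ e : ↥(Subgroup.closure B),
      (e : M) * o * (e : M)⁻¹ ∈ {x | x ∈ D ∧ x ∉ B ∧ ∀ b ∈ B, ¬ Commute x b} := by
    intro e
    have key : ∀ b ∈ B, ¬ Commute ((e : M) * o * (e : M)⁻¹) b := fun b hb h => hoB b hb (by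
      refine (commute_conj_iff' (g := (e : M))).1 ?_
      rwa [((m22_base_span94 hG hp h22 hB e.2).2 b hb).eq, mul_inv_cancel_right])
    exact ⟨hG.2.1 _ o ho, fun h => key _ h (Commute.refl _), key⟩
  refine Nat.card_le_card_of_injective (fun e => ⟨_, hmaps e⟩) fun x y h => ?_
  have h' : (x : M) * o * (x : M)⁻¹ = (y : M) * o * (y : M)⁻¹ := congrArg Subtype.val h
  have hc : Commute ((y : M)⁻¹ * x) o := by
    show (y : M)⁻¹ * x * o = o * ((y : M)⁻¹ * x)
    rw [mul_assoc, show (x : M) * o = (x : M) * o * (x : M)⁻¹ * x by rw [inv_mul_cancel_right], h']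
    simp [mul_assoc]
  exact Subtype.ext (inv_mul_eq_one.1
    (m22_base_free hG hp h22 hB (mul_mem (inv_mem y.2) x.2) ho hoB hc)).symm

/-- A member commuting with an element of a base span is in the factorization. -/
theorem m22_member_in_span94 {B : Set M} (hB : MaxClique53 D B) {x : M} (hx : x ∈ D)
    (hxE : x ∈ Subgroup.closure B) : x ∈ B :=
  hB.max x hx (m22_base_span94 hG hp h22 hB hxE).2

/-- The span of a base and a member in it, from the product of members. -/
theorem m22_class_two_square94 {a b : M} (ha : a ∈ D) (hb : b ∈ nbr D a) :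
    ∃ y g : M, y * y = g * (a * b) * g⁻¹ := by
  have hD := hG.1
  obtain ⟨c, hc, hca, hcb⟩ : ∃ c ∈ D, ¬ Commute c a ∧ ¬ Commute c b := by
    by_contra hcon
    push Not at hcon
    have hsub : D ⊆ insert a (nbr D a) ∪ insert b (nbr D b) := fun c hc => by
      by_cases h : Commute c a
      · by_cases hca : c = a
        · exact Or.inl (Or.inl hca)
        · exact Or.inl (Or.inr ⟨hc, hca, h.symm⟩)
      · by_cases hcb : c = b
        · exact Or.inr (Or.inl hcb)
        · exact Or.inr (Or.inr ⟨hc, hcb, (hcon c hc h).symm⟩)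
    have h1 := (Set.ncard_le_ncard hsub (Set.toFinite _)).trans (Set.ncard_union_le _ _)
    rw [(m22_global hG hp h22).1] at h1
    have h2 := Set.ncard_insert_le a (nbr D a)
    have h3 := Set.ncard_insert_le b (nbr D b)
    rw [m22_ncard_nbr hG hp h22 ha] at h2
    rw [m22_ncard_nbr hG hp h22 hb.1] at h3
    omega
  refine ⟨a * c * b, c, ?_⟩
  have e1 : c * a * c = a * c * a := tt_braid hD hc ha hca
  have e2 : b * c * b = c * b * c := (tt_braid hD hc hb.1 hcb).symm
  rw [tt_inv hD hc]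
  calc a * c * b * (a * c * b) = a * c * (b * a) * (c * b) := by simp only [mul_assoc]
    _ = (a * c * a) * (b * c * b) := by rw [← hb.2.2.eq]; simp only [mul_assoc]
    _ = (c * a * c) * (c * b * c) := by rw [e1, e2]
    _ = c * (a * b) * c := by
      simp only [mul_assoc]
      rw [tt_cancel_left hD hc]

end ttg

/-- The data of a double cover `C(d) → M` by an involution `d`. -/
structure CoverData94 {G : Type v} [Group G] {M : Type u} [Group M] (d : G)
    (f : ↥(Subgroup.centralizer ({d} : Set G)) →* M) : Prop where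
  surj : Function.Surjective f
  sq : d * d = 1
  ne : d ≠ 1
  ker : ∀ k, f k = 1 ↔ (k : G) = 1 ∨ (k : G) = d
  lift : ∀ z, f z * f z = 1 → z * z = 1
  nosq : ∀ g : G, g * g ≠ d
  perf : commutator ↥(Subgroup.centralizer ({d} : Set G)) = ⊤
  nwc : ∃ g : G, g * d * g⁻¹ ∈ Subgroup.centralizer ({d} : Set G) ∧ g * d * g⁻¹ ≠ d

/-- The preimage of a base span, in the whole group. -/
def coverA94 {G : Type v} [Group G] {M : Type u} [Group M] {d : G}
    (f : ↥(Subgroup.centralizer ({d} : Set G)) →* M) (B : Set M) : Subgroup G :=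
  ((Subgroup.closure B).comap f).map (Subgroup.centralizer ({d} : Set G)).subtype

/-- The number of lifts of an element that are conjugate to `d`. -/
noncomputable def coverFib94 {G : Type v} [Group G] {M : Type u} [Group M] (d : G)
    (f : ↥(Subgroup.centralizer ({d} : Set G)) →* M) (e : M) : ℕ :=
  {z : ↥(Subgroup.centralizer ({d} : Set G)) | f z = e ∧ IsConj d (z : G)}.ncard

section cover

variable {G : Type v} [Group G] {M : Type u} [Group M] {d : G}
variable {f : ↥(Subgroup.centralizer ({d} : Set G)) →* M}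

theorem mem_coverA94 {B : Set M} {x : G} :
    x ∈ coverA94 f B ↔ ∃ h : x ∈ Subgroup.centralizer ({d} : Set G),
      f ⟨x, h⟩ ∈ Subgroup.closure B := by
  constructor
  · rintro ⟨z, hz, rfl⟩
    exact ⟨z.2, hz⟩
  · rintro ⟨h, hx⟩
    exact ⟨⟨x, h⟩, hx, rfl⟩

theorem CoverData94.self_mem (_ : CoverData94 d f) : d ∈ Subgroup.centralizer ({d} : Set G) :=
  Subgroup.mem_centralizer_singleton_iff.2 rfl

theorem CoverData94.f_self (hc : CoverData94 d f) : f ⟨d, hc.self_mem⟩ = 1 := (hc.ker _).2 (Or.inr rfl)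

theorem CoverData94.central (hc : CoverData94 d f) (g : ↥(Subgroup.centralizer ({d} : Set G))) :
    Commute (⟨d, hc.self_mem⟩ : ↥(Subgroup.centralizer ({d} : Set G))) g :=
  Subtype.ext (Subgroup.mem_centralizer_singleton_iff.1 g.2).symm

theorem CoverData94.commute_lifts (hc : CoverData94 d f) {x y : ↥(Subgroup.centralizer ({d} : Set G))}
    (hx : f x * f x = 1) (hy : f y * f y = 1) (hxy : Commute (f x) (f y)) : Commute x y := by
  refine sq_one_comm94 (hc.lift x hx) (hc.lift y hy) (hc.lift _ ?_)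
  rw [map_mul, hxy.symm.mul_mul_mul_comm, hx, hy, one_mul]

theorem CoverData94.lift_cases (hc : CoverData94 d f) {x y : ↥(Subgroup.centralizer ({d} : Set G))}
    (h : f x = f y) : y = x ∨ y = x * ⟨d, hc.self_mem⟩ := by
  rcases (hc.ker (x⁻¹ * y)).1 (by rw [map_mul, map_inv, h, inv_mul_cancel]) with h' | h'
  · left; exact (inv_mul_eq_one.1 (Subtype.ext h')).symm
  · right
    rw [show (⟨d, hc.self_mem⟩ : ↥(Subgroup.centralizer ({d} : Set G))) = x⁻¹ * y from Subtype.ext h'.symm,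
      mul_inv_cancel_left]

theorem CoverData94.fib_one (hc : CoverData94 d f) : coverFib94 d f 1 = 1 := by
  rw [coverFib94, Set.ncard_eq_one]
  refine ⟨⟨d, hc.self_mem⟩, Set.ext fun z => ⟨fun hz => ?_, ?_⟩⟩
  · rcases (hc.ker z).1 hz.1 with h | h
    · exact absurd (isConj_iff.1 hz.2) fun ⟨g, hg⟩ => hc.ne (by rw [h] at hg; simpa using hg)
    · exact Subtype.ext h
  · rintro rfl; exact ⟨hc.f_self, IsConj.refl d⟩

theorem CoverData94.not_conj_sq (hc : CoverData94 d f) (x : G) : ¬ IsConj d (x * x) := fun h => by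
  obtain ⟨g, hg⟩ := isConj_iff.1 h
  refine hc.nosq (g⁻¹ * x * g) ?_
  rw [show g⁻¹ * x * g * (g⁻¹ * x * g) = g⁻¹ * (x * x) * g by simp [mul_assoc], ← hg]
  simp [mul_assoc]

theorem CoverData94.fib_conj [Finite G] (hc : CoverData94 d f) (e g : M) :
    coverFib94 d f (g * e * g⁻¹) = coverFib94 d f e := by
  obtain ⟨c, rfl⟩ := hc.surj g
  rw [coverFib94, coverFib94]
  symm
  refine Set.ncard_congr (fun z _ => c * z * c⁻¹) (fun z hz => ⟨?_, ?_⟩) (fun _ _ _ _ h => by simpa using h) ?_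
  · rw [map_mul, map_mul, map_inv, hz.1]
  · exact hz.2.trans (isConj_iff.2 ⟨(c : G), rfl⟩)
  · intro w hw
    refine ⟨c⁻¹ * w * c, ⟨?_, ?_⟩, by simp [mul_assoc]⟩
    · rw [map_mul, map_mul, map_inv, hw.1]; simp [mul_assoc]
    · exact hw.2.trans (isConj_iff.2 ⟨((c : G))⁻¹, by simp [mul_assoc]⟩)

theorem CoverData94.fib_le [Finite G] (hc : CoverData94 d f) (e : M) : coverFib94 d f e ≤ 2 := by
  obtain ⟨x, hx⟩ := hc.surj e
  refine (Set.ncard_le_ncard (t := {x, x * ⟨d, hc.self_mem⟩}) (fun z hz => ?_) (Set.toFinite _)).trans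
    ((Set.ncard_insert_le _ _).trans (by rw [Set.ncard_singleton]))
  exact hc.lift_cases (hx.trans hz.1.symm)

variable [Finite G] [Finite M] {D : Set M}

theorem coverA94_card (hc : CoverData94 d f) (hG : IsThreeTranspositionGroup D)
    (hp : IsPrimitiveUnderConj D) (h22 : IsOfTypeM22 M D) {B : Set M} (hB : MaxClique53 D B)
    (hne : B.Nonempty) : Nat.card ↥(coverA94 f B) = 2 ^ 11 := by
  rw [coverA94, Nat.card_congr (((Subgroup.closure B).comap f).equivMapOfInjective _
    (Subgroup.subtype_injective _)).toEquiv.symm]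
  have h1 := ((Subgroup.closure B).comap f).card_mul_index
  rw [Subgroup.index_comap_of_surjective _ hc.surj] at h1
  have h2 := f.ker.card_mul_index
  rw [Subgroup.index_ker, MonoidHom.range_eq_top.2 hc.surj, Subgroup.card_top] at h2
  have h3 := (Subgroup.closure B).card_mul_index
  rw [m22_base_card_eq94 hG hp h22 hB hne] at h3
  have hk : Nat.card f.ker = 2 := by
    rw [Nat.card_eq_two_iff]
    refine ⟨1, ⟨⟨d, hc.self_mem⟩, hc.f_self⟩, fun h => hc.ne ?_, Set.ext fun z => ?_⟩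
    · exact (congrArg (fun z : ↥f.ker => ((z : ↥(Subgroup.centralizer ({d} : Set G))) : G)) h).symm
    · simp only [Set.mem_univ, iff_true, Set.mem_insert_iff, Set.mem_singleton_iff]
      rcases (hc.ker z.1).1 z.2 with h | h
      · exact Or.inl (Subtype.ext (Subtype.ext h))
      · exact Or.inr (Subtype.ext (Subtype.ext h))
  rw [hk] at h2
  rw [← h2, ← h3] at h1
  exact Nat.eq_of_mul_eq_mul_right (Subgroup.index_ne_zero_of_finite (H := Subgroup.closure B)).bot_lt
    (h1.trans (by ring))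

theorem coverA94_sq (hc : CoverData94 d f) (hG : IsThreeTranspositionGroup D)
    (hp : IsPrimitiveUnderConj D) (h22 : IsOfTypeM22 M D) {B : Set M} (hB : MaxClique53 D B) :
    ∀ x ∈ coverA94 f B, x * x = 1 := by
  intro x hx
  obtain ⟨h, hx⟩ := mem_coverA94.1 hx
  exact congrArg Subtype.val (hc.lift ⟨x, h⟩ (m22_base_span94 hG hp h22 hB hx).1)

/-- In a Sylow 2-subgroup of the centralizer the preimage of a base span is the only elementary
abelian subgroup of largest order. -/
theorem cover_sylow94 (hc : CoverData94 d f) (hG : IsThreeTranspositionGroup D)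
    (hp : IsPrimitiveUnderConj D) (h22 : IsOfTypeM22 M D)
    (S : Sylow 2 ↥(Subgroup.centralizer ({d} : Set G))) :
    ∃ B, MaxClique53 D B ∧ B.Nonempty ∧
      coverA94 f B ≤ (S : Subgroup _).map (Subgroup.centralizer ({d} : Set G)).subtype ∧
      ∀ X : Subgroup G, X ≤ (S : Subgroup _).map (Subgroup.centralizer ({d} : Set G)).subtype →
        (∀ x ∈ X, x * x = 1) →
        Nat.card X ≤ 2 ^ 11 ∧ (2 ^ 11 ≤ Nat.card X → X = coverA94 f B) := by
  haveI : Fact (Nat.Prime 2) := ⟨Nat.prime_two⟩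
  obtain ⟨B, hB, hne, hle, -, -, hmax⟩ := m22_sylow_base94 hG hp h22 (S.mapSurjective hc.surj)
  rw [Sylow.coe_mapSurjective] at hle hmax
  have hkerS : f.ker ≤ (S : Subgroup ↥(Subgroup.centralizer ({d} : Set G))) := by
    refine IsPGroup.le_sylow_of_normal ?_ S
    refine fun k => ⟨1, Subtype.ext ?_⟩
    rw [pow_one, SubmonoidClass.coe_pow, pow_two]
    exact hc.lift k.1 (by rw [MonoidHom.mem_ker.1 k.2, one_mul])
  refine ⟨B, hB, hne, ?_, fun X hX hXs => ?_⟩
  · refine Subgroup.map_mono ((Subgroup.comap_mono hle).trans ?_)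
    rw [Subgroup.comap_map_eq]
    exact sup_le le_rfl hkerS
  · have hXC : X ≤ Subgroup.centralizer ({d} : Set G) := hX.trans (Subgroup.map_subtype_le _)
    obtain ⟨Y, hY⟩ : ∃ Y, X.subgroupOf (Subgroup.centralizer ({d} : Set G)) = Y := ⟨_, rfl⟩
    have hXY : Nat.card Y = Nat.card X :=
      hY ▸ Nat.card_congr (Subgroup.subgroupOfEquivOfLe hXC).toEquiv
    have hYS : Y.map f ≤ (S : Subgroup ↥(Subgroup.centralizer ({d} : Set G))).map f := by
      refine Subgroup.map_mono fun y hy => ?_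
      rw [← hY, Subgroup.mem_subgroupOf] at hy
      obtain ⟨z, hz, he⟩ := hX hy
      exact (Subtype.ext he : z = y) ▸ hz
    have hYsq : ∀ a ∈ Y.map f, a * a = 1 := by
      rintro _ ⟨y, hy, rfl⟩
      rw [← map_mul]
      refine (congrArg f (Subtype.ext ?_ : y * y = 1)).trans f.map_one
      rw [← hY] at hy
      exact hXs _ hy
    obtain ⟨h1, h2⟩ := hmax (Y.map f) hYS hYsq
    rw [m22_base_card_eq94 hG hp h22 hB hne] at h1 h2
    have hker : Nat.card ↥(f.ker ⊓ Y : Subgroup _) ≤ 2 := by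
      classical
      haveI := Fintype.ofFinite ↥(Subgroup.centralizer ({d} : Set G))
      rw [← SetLike.coe_sort_coe, Nat.card_coe_set_eq]
      refine (Set.ncard_le_ncard (t := {1, ⟨d, hc.self_mem⟩}) (fun k hk => ?_) (Set.toFinite _)).trans
        ((Set.ncard_insert_le _ _).trans (by rw [Set.ncard_singleton]))
      rcases (hc.ker k).1 hk.1 with h | h
      · exact Or.inl (Subtype.ext h)
      · exact Or.inr (Subtype.ext h)
    have hcard : Nat.card Y = Nat.card ↥(Y.map f) * Nat.card ↥(f.ker ⊓ Y : Subgroup _) := by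
      have h := Subgroup.card_eq_card_quotient_mul_card_subgroup (f.comp Y.subtype).ker
      rw [Nat.card_congr (QuotientGroup.quotientKerEquivRange (f.comp Y.subtype)).toEquiv,
        MonoidHom.range_comp, Subgroup.range_subtype] at h
      rw [h]
      congr 1
      exact Nat.card_congr ⟨fun k => ⟨k.1, k.2, k.1.2⟩, fun k => ⟨⟨k.1, k.2.2⟩, k.2.1⟩,
        fun _ => rfl, fun _ => rfl⟩
    rw [← hXY, hcard]
    refine ⟨(Nat.mul_le_mul h1 hker).trans (by norm_num), fun h => ?_⟩
    have hYf : Y.map f = Subgroup.closure B := h2 (by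
      by_contra hlt
      have := Nat.mul_le_mul (show Nat.card ↥(Y.map f) ≤ 1023 by omega) hker
      omega)
    refine Subgroup.eq_of_le_of_card_ge (fun x hx => mem_coverA94.2 ⟨hXC hx, hYf ▸
      Subgroup.mem_map_of_mem f (show (⟨x, hXC hx⟩ : ↥(Subgroup.centralizer ({d} : Set G))) ∈ Y from
        hY ▸ hx)⟩) ?_
    rw [coverA94_card hc hG hp h22 hB hne, ← hXY, hcard]
    exact h

/-- An elementary abelian subgroup of order `2 ^ 11` of the centralizer is the preimage of a base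
span, conjugate to the given one. -/
theorem cover_max_conj94 (hc : CoverData94 d f) (hG : IsThreeTranspositionGroup D)
    (hp : IsPrimitiveUnderConj D) (h22 : IsOfTypeM22 M D) {B : Set M} (hB : MaxClique53 D B)
    (hne : B.Nonempty) (X : Subgroup G) (hX : X ≤ Subgroup.centralizer ({d} : Set G))
    (hXs : ∀ x ∈ X, x * x = 1) (hcard : Nat.card X = 2 ^ 11) :
    ∃ c ∈ Subgroup.centralizer ({d} : Set G), ∀ x, x ∈ coverA94 f B ↔ c⁻¹ * x * c ∈ X := by
  haveI : Fact (Nat.Prime 2) := ⟨Nat.prime_two⟩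
  have mk : ∀ Y : Subgroup G, Y ≤ Subgroup.centralizer ({d} : Set G) → (∀ x ∈ Y, x * x = 1) →
      ∃ S : Sylow 2 ↥(Subgroup.centralizer ({d} : Set G)),
        Y ≤ (S : Subgroup _).map (Subgroup.centralizer ({d} : Set G)).subtype := by
    intro Y hY hYs
    have hp2 : IsPGroup 2 ↥(Y.subgroupOf (Subgroup.centralizer ({d} : Set G))) := fun y => ⟨1, by
      rw [pow_one, pow_two]; exact Subtype.ext (Subtype.ext (hYs _ y.2))⟩
    obtain ⟨S, hS⟩ := hp2.exists_le_sylow
    exact ⟨S, fun y hy => ⟨⟨y, hY hy⟩, hS (Subgroup.mem_subgroupOf.2 hy), rfl⟩⟩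
  obtain ⟨S₁, h₁⟩ := mk X hX hXs
  obtain ⟨S₂, h₂⟩ := mk (coverA94 f B) (Subgroup.map_subtype_le _) (coverA94_sq hc hG hp h22 hB)
  obtain ⟨B₁, hB₁, hne₁, -, hm₁⟩ := cover_sylow94 hc hG hp h22 S₁
  obtain ⟨B₂, hB₂, hne₂, -, hm₂⟩ := cover_sylow94 hc hG hp h22 S₂
  have e₂ := (hm₂ _ h₂ (coverA94_sq hc hG hp h22 hB)).2 (coverA94_card hc hG hp h22 hB hne).ge
  obtain ⟨c, hcS⟩ := MulAction.exists_smul_eq ↥(Subgroup.centralizer ({d} : Set G)) S₁ S₂
  refine ⟨c, c.2, fun x => ?_⟩
  obtain ⟨Z, hZ⟩ : ∃ Z, X.map (MulAut.conj (c : G)).toMonoidHom = Z := ⟨_, rfl⟩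
  have hZeq : Z = coverA94 f B := by
    rw [e₂]
    refine (hm₂ Z ?_ ?_).2 ?_
    · rw [← hZ]
      rintro _ ⟨y, hy, rfl⟩
      obtain ⟨z, hz, rfl⟩ := h₁ hy
      refine ⟨c * z * c⁻¹, ?_, rfl⟩
      rw [← hcS, Sylow.coe_subgroup_smul]
      exact ⟨z, hz, rfl⟩
    · rw [← hZ]
      rintro _ ⟨y, hy, rfl⟩
      rw [← map_mul, hXs y hy, map_one]
    · rw [← hZ, ← Nat.card_congr (X.equivMapOfInjective _ (MulEquiv.injective _)).toEquiv, hcard]
  rw [← hZeq, ← hZ]
  constructor
  · rintro ⟨y, hy, rfl⟩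
    simpa [mul_assoc] using hy
  · intro h
    exact ⟨_, h, by simp [mul_assoc]⟩

/-- Conjugates of `d` in the preimage of a base span are conjugate under its normalizer. -/
theorem cover_transitive94 (hc : CoverData94 d f) (hG : IsThreeTranspositionGroup D)
    (hp : IsPrimitiveUnderConj D) (h22 : IsOfTypeM22 M D) {B : Set M} (hB : MaxClique53 D B)
    (hne : B.Nonempty) {x : G} (hx : x ∈ coverA94 f B) (hdx : IsConj d x) :
    ∃ n ∈ Subgroup.normalizer (coverA94 f B : Set G), n * d * n⁻¹ = x := by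
  obtain ⟨g, hg⟩ := isConj_iff.1 hdx
  obtain ⟨A, hA⟩ : ∃ A, coverA94 f B = A := ⟨_, rfl⟩
  rw [hA] at hx ⊢
  have hsq := hA ▸ coverA94_sq hc hG hp h22 hB
  obtain ⟨X, hX⟩ : ∃ X, A.map (MulAut.conj g⁻¹).toMonoidHom = X := ⟨_, rfl⟩
  have hXC : X ≤ Subgroup.centralizer ({d} : Set G) := by
    rw [← hX]
    rintro _ ⟨a, ha, rfl⟩
    rw [Subgroup.mem_centralizer_singleton_iff]
    have hcomm : Commute a x := sq_one_comm94 (hsq a ha) (hsq x hx) (hsq _ (mul_mem ha hx))
    have := hcomm.map (MulAut.conj g⁻¹).toMonoidHom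
    rw [show (MulAut.conj g⁻¹).toMonoidHom x = d by rw [← hg]; simp [mul_assoc]] at this
    exact this.eq
  obtain ⟨c, hcC, hiff⟩ := cover_max_conj94 hc hG hp h22 hB hne X hXC (by
    rw [← hX]
    rintro _ ⟨a, ha, rfl⟩
    rw [← map_mul, hsq a ha, map_one]) (by
    rw [← hX, ← Nat.card_congr (A.equivMapOfInjective _ (MulEquiv.injective _)).toEquiv, ← hA,
      coverA94_card hc hG hp h22 hB hne])
  rw [hA] at hiff
  refine ⟨g * c⁻¹, Subgroup.mem_set_normalizer_iff.2 fun a => ?_, ?_⟩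
  · show a ∈ A ↔ g * c⁻¹ * a * (g * c⁻¹)⁻¹ ∈ A
    rw [hiff, ← hX]
    constructor
    · rintro ⟨b, hb, hbe⟩
      rw [show g * c⁻¹ * a * (g * c⁻¹)⁻¹ = g * (c⁻¹ * a * c) * g⁻¹ by simp [mul_assoc], ← hbe]
      simpa [mul_assoc] using hb
    · intro h
      exact ⟨_, h, by simp [mul_assoc]⟩
  · have hcd : c⁻¹ * d * c = d := by
      rw [mul_assoc, ← (Subgroup.mem_centralizer_singleton_iff.1 hcC), inv_mul_cancel_left]
    rw [show g * c⁻¹ * d * (g * c⁻¹)⁻¹ = g * (c⁻¹ * d * c) * g⁻¹ by simp [mul_assoc], hcd, hg]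

/-- Every conjugate of `d` in the centralizer is, up to conjugation there, in the given preimage. -/
theorem cover_into94 (hc : CoverData94 d f) (hG : IsThreeTranspositionGroup D)
    (hp : IsPrimitiveUnderConj D) (h22 : IsOfTypeM22 M D) {B : Set M} (hB : MaxClique53 D B)
    (hne : B.Nonempty) {z : ↥(Subgroup.centralizer ({d} : Set G))} (hz : f z * f z = 1) :
    ∃ c : ↥(Subgroup.centralizer ({d} : Set G)), (c : G) * z * (c : G)⁻¹ ∈ coverA94 f B := by
  by_cases h1 : f z = 1
  · exact ⟨1, mem_coverA94.2 ⟨by simp, by simp [h1]⟩⟩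
  obtain ⟨m, hm1, hm3, l, hl⟩ :=
    m22_involution_fact hG hp h22 (orderOf_eq_prime (p := 2) (by rw [pow_two]; exact hz) h1)
  obtain ⟨B', hB', hne', hlB⟩ := clique_extend94 (S := {a | a ∈ l})
    (List.exists_mem_of_length_pos (l := l) (by rw [hl.2.1]; omega)) (fun a ha => hl.2.2.1 a ha)
    (fun a ha b hb => hl.2.2.2.1 a ha b hb)
  obtain ⟨c, hcC, hiff⟩ := cover_max_conj94 hc hG hp h22 hB hne (coverA94 f B')
    (Subgroup.map_subtype_le _) (coverA94_sq hc hG hp h22 hB') (coverA94_card hc hG hp h22 hB' hne')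
  refine ⟨⟨c, hcC⟩, (hiff _).2 ?_⟩
  refine mem_coverA94.2 ⟨by simp [mul_assoc], ?_⟩
  rw [show (⟨c⁻¹ * (c * (z : G) * c⁻¹) * c, _⟩ : ↥(Subgroup.centralizer ({d} : Set G))) = z from
    Subtype.ext (by simp [mul_assoc]), ← hl.2.2.2.2]
  exact list_prod_mem fun a ha => Subgroup.subset_closure (hlB ha)

end cover

end CfsgLib.ThreeTransp
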