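import Mathlib
import Cfsg.Agent.ThreeTransp.U6Point25

/-!
The kernel of the map from the stabilizer of an isotropic vector onto `SU(4, 2)`.
-/

set_option autoImplicit false

namespace CfsgLib.ThreeTransp.U62Point

open Cfsg CfsgLib.ThreeTransp.PSU62 CfsgLib.ThreeTransp.U62

variable {F : Type} [Field F] [Fintype F] {p f : Fin 6 → F} {g : Fin 4 → Fin 6 → F}

/-- The vector attached to an element of the kernel. -/
def delta (f : Fin 6 → F) (g : Fin 4 → Fin 6 → F) (A : ↥(stabVec p)) : Fin 4 → F :=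
  coord g (CfsgLib.Unitary.sv A.1 f)

theorem Coord.coord_f (hF : Fintype.card F = 4) (C : Coord p f g) : coord g f = 0 :=
  funext fun i => hm_flip hF (C.perp_f i)

theorem Coord.move_perp (hF : Fintype.card F = 4) (C : Coord p f g) (A : ↥(stabVec p)) :
    hm (CfsgLib.Unitary.sv A.1 f + f) p = 0 := by
  have h : hm (CfsgLib.Unitary.sv A.1 f) p = 1 := by
    conv_lhs => arg 2; rw [← (A.2 : CfsgLib.Unitary.sv A.1 p = p)]
    exact (CfsgLib.Unitary.sv_herm A.1 f p).trans (C.hyp.fe hF)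
  rw [hm_addL, h, C.hyp.fe hF, F4.two_eq_zero hF]

theorem Coord.coord_move (hF : Fintype.card F = 4) (C : Coord p f g) (A : ↥(stabVec p)) :
    coord g (CfsgLib.Unitary.sv A.1 f + f) = delta f g A := by
  rw [coord_add, C.coord_f hF, add_zero, delta]

theorem ker_apply_eq (hF : Fintype.card F = 4) (C : Coord p f g) {A : ↥(stabVec p)}
    (hA : res hF C A = 1) {x : Fin 6 → F} (hx : hm x p = 0) :
    CfsgLib.Unitary.sv A.1 x = x + hm x (CfsgLib.Unitary.sv A.1 f + f) • p := by
  obtain ⟨t, ht⟩ := res_ker_apply hF C hA hx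
  have h : hm (CfsgLib.Unitary.sv A.1 x) (CfsgLib.Unitary.sv A.1 f) = hm x f :=
    CfsgLib.Unitary.sv_herm A.1 x f
  have hpf : hm p (CfsgLib.Unitary.sv A.1 f) = 1 := by
    conv_lhs => arg 1; rw [← (A.2 : CfsgLib.Unitary.sv A.1 p = p)]
    exact (CfsgLib.Unitary.sv_herm A.1 p f).trans C.hyp.ef
  rw [ht, hm_addL, hm_smulL, hpf, mul_one] at h
  rw [ht, hm_addR hF]
  congr 2
  linear_combination h - hm x (CfsgLib.Unitary.sv A.1 f) * two_zero hF

theorem delta_mul (hF : Fintype.card F = 4) (C : Coord p f g) {A B : ↥(stabVec p)}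
    (hA : res hF C A = 1) : delta f g (A * B) = delta f g A + delta f g B := by
  obtain ⟨d, hd⟩ : ∃ d, CfsgLib.Unitary.sv B.1 f + f = d := ⟨_, rfl⟩
  have hB : CfsgLib.Unitary.sv B.1 f = d + f := by
    rw [← hd, add_assoc, vec_add_self hF, add_zero]
  have hdp : hm d p = 0 := hd ▸ C.move_perp hF B
  have e : delta f g B = coord g d := by rw [← hd, C.coord_move hF]
  rw [e, delta, delta, Subgroup.coe_mul, CfsgLib.Unitary.sv_mul, hB, CfsgLib.Unitary.sv_add,
    ker_apply_eq hF C hA hdp, coord_add, coord_add, coord_smul, C.coord_p hF, smul_zero, add_zero,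
    add_comm]

theorem delta_one (hF : Fintype.card F = 4) (C : Coord p f g) :
    delta f g (1 : ↥(stabVec p)) = 0 := by
  rw [delta, Subgroup.coe_one, CfsgLib.Unitary.sv_one, C.coord_f hF]

theorem delta_eq_zero (hF : Fintype.card F = 4) (C : Coord p f g) {A : ↥(stabVec p)}
    (hA : res hF C A = 1) (h : delta f g A = 0) : A.1 = 1 ∨ A.1 = tv hF p := by
  refine eq_one_or_tv hF C fun x hx => ?_
  have hd := C.eq_smul hF (C.move_perp hF A) ((C.coord_move hF A).trans h)
  rw [ker_apply_eq hF C hA hx, hd, hm_smulR, hx, mul_zero, zero_smul, add_zero]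

theorem commute_form (hF : Fintype.card F = 4) (C : Coord p f g) {A B : ↥(stabVec p)}
    (hA : res hF C A = 1) (hB : res hF C B = 1) (h : Commute A B) :
    hermForm 4 F 2 (delta f g A) (delta f g B) = hermForm 4 F 2 (delta f g B) (delta f g A) := by
  rw [← C.coord_move hF A, ← C.coord_move hF B, ← C.hm_coord hF (C.move_perp hF A) (C.move_perp hF B),
    ← C.hm_coord hF (C.move_perp hF B) (C.move_perp hF A)]
  obtain ⟨a, ha⟩ : ∃ a, CfsgLib.Unitary.sv A.1 f + f = a := ⟨_, rfl⟩
  obtain ⟨b, hb⟩ : ∃ b, CfsgLib.Unitary.sv B.1 f + f = b := ⟨_, rfl⟩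
  have ea : CfsgLib.Unitary.sv A.1 f = f + a := by
    rw [← ha, add_comm (CfsgLib.Unitary.sv A.1 f), ← add_assoc, vec_add_self hF, zero_add]
  have eb : CfsgLib.Unitary.sv B.1 f = f + b := by
    rw [← hb, add_comm (CfsgLib.Unitary.sv B.1 f), ← add_assoc, vec_add_self hF, zero_add]
  have key : CfsgLib.Unitary.sv (A * B).1 f = CfsgLib.Unitary.sv (B * A).1 f := by rw [h.eq]
  rw [Subgroup.coe_mul, Subgroup.coe_mul, CfsgLib.Unitary.sv_mul, CfsgLib.Unitary.sv_mul, eb, ea,
    CfsgLib.Unitary.sv_add, CfsgLib.Unitary.sv_add, ea, eb,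
    ker_apply_eq hF C hA (hb ▸ C.move_perp hF B), ker_apply_eq hF C hB (ha ▸ C.move_perp hF A),
    ha, hb] at key
  rw [ha, hb]
  refine smul_left_injective F C.hyp.ne_zero ?_
  show hm a b • p = hm b a • p
  linear_combination (norm := module) -key

theorem add_closure (hF : Fintype.card F = 4) {P : (Fin 4 → F) → Prop} (h0 : P 0)
    (hadd : ∀ x y, P x → P y → P (x + y))
    (hiso : ∀ u, hermForm 4 F 2 u u = 0 → P u) (u : Fin 4 → F) : P u := by
  classical
  obtain ⟨w, hw0, hw1, hw3, hws⟩ := F4.exists_omega hF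
  have hsingle : ∀ (j : Fin 4) (c : F), P (Pi.single j c) := by
    intro j c
    by_cases hc : c = 0
    · rw [hc, Pi.single_zero]; exact h0
    obtain ⟨i, hi⟩ : ∃ i : Fin 4, i ≠ j := exists_ne j
    have hv : ∀ x y : F, x ≠ 0 → y ≠ 0 →
        hermForm 4 F 2 (Pi.single i x + Pi.single j y) (Pi.single i x + Pi.single j y) = 0 := by
      intro x y hx hy
      unfold hermForm
      rw [← Finset.sum_subset (Finset.subset_univ {i, j}) (fun k _ hk => ?_), Finset.sum_pair hi]
      · simp only [Pi.add_apply, Pi.single_eq_same, Pi.single_eq_of_ne hi, Pi.single_eq_of_ne' hi,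
          add_zero, zero_add]
        linear_combination F4.cube_eq_one hF hx + F4.cube_eq_one hF hy + two_zero hF
      · simp only [Finset.mem_insert, Finset.mem_singleton, not_or] at hk
        simp [hk.1, hk.2]
    obtain ⟨μ, hμ⟩ : ∃ μ, μ = c * (1 + w)⁻¹ := ⟨_, rfl⟩
    have hw' : 1 + w ≠ 0 := fun h => hw1 (by linear_combination h - two_zero hF)
    have hμ0 : μ ≠ 0 := hμ ▸ mul_ne_zero hc (inv_ne_zero hw')
    have e : Pi.single j c =
        (Pi.single i μ + Pi.single j μ) + (Pi.single i μ + Pi.single j (μ * w) : Fin 4 → F) := by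
      funext k
      by_cases hkj : k = j
      · subst hkj
        simp only [Pi.add_apply, Pi.single_eq_same, Pi.single_eq_of_ne' hi, zero_add]
        rw [show μ + μ * w = μ * (1 + w) by ring, hμ, inv_mul_cancel_right₀ hw']
      · simp only [Pi.add_apply, Pi.single_eq_of_ne hkj, add_zero]
        exact (F4.add_self hF _).symm
    rw [e]
    exact hadd _ _ (hiso _ (hv μ μ hμ0 hμ0)) (hiso _ (hv μ _ hμ0 (mul_ne_zero hμ0 hw0)))
  rw [← Finset.univ_sum_single u]
  exact Finset.sum_induction _ P hadd h0 fun j _ => hsingle j _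

/-- An element of the kernel with a prescribed isotropic vector. -/
theorem exists_twist (hF : Fintype.card F = 4) (C : Coord p f g) {u : Fin 4 → F}
    (hu : hermForm 4 F 2 u u = 0) :
    ∃ T : ↥(stabVec p), T.1 = tv hF (lift4 g u) * tv hF (lift4 g u + p) ∧
      hm (lift4 g u + p) (lift4 g u + p) = 0 ∧ res hF C T = 1 ∧ delta f g T = u := by
  have hvp := C.lift_perp u
  have hvv : hm (lift4 g u) (lift4 g u) = 0 := by
    rw [C.hm_coord hF hvp hvp, C.coord_lift hF]; exact hu
  have hwp : hm (lift4 g u + p) p = 0 := by rw [hm_addL, hvp, C.hyp.ee, add_zero]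
  have hww : hm (lift4 g u + p) (lift4 g u + p) = 0 := by
    rw [hm_addL, hm_addR hF, hm_addR hF, hvv, hvp, hm_flip hF hvp, C.hyp.ee]; simp
  have hfv : hm f (lift4 g u) = 0 := by
    show hermForm 6 F 2 f (∑ i, u i • g i) = 0
    rw [CfsgLib.Unitary.herm_sum_right (card_sq hF)]
    refine Finset.sum_eq_zero fun i _ => ?_
    rw [CfsgLib.Unitary.herm_smul_right,
      show hermForm 6 F 2 f (g i) = 0 from hm_flip hF (C.perp_f i), mul_zero]
  refine ⟨⟨tv hF (lift4 g u), tv_mem_stabVec hF hvv (hm_flip hF hvp)⟩ *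
    ⟨tv hF (lift4 g u + p), tv_mem_stabVec hF hww (hm_flip hF hwp)⟩, rfl, hww, ?_, ?_⟩
  · rw [map_mul, res_tv hF C hvv hvp, res_tv hF C hww hwp, coord_add, C.coord_p hF, add_zero,
      C.coord_lift hF]
    refine CfsgLib.Unitary.sv_ext fun x => ?_
    rw [CfsgLib.Unitary.sv_mul, sv_tv4 hF hu, sv_tv4 hF hu, CfsgLib.Unitary.herm_add_left,
      CfsgLib.Unitary.herm_smul_left, hu, mul_zero, add_zero, add_assoc, ← add_smul,
      F4.add_self hF, zero_smul, add_zero, CfsgLib.Unitary.sv_one]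
  · rw [delta, Subgroup.coe_mul, CfsgLib.Unitary.sv_mul, sv_tv hF hww, sv_tv hF hvv, hm_addR hF,
      hfv, zero_add, C.hyp.fe hF, one_smul, hm_addL, hfv, hm_addL, hvv, hm_flip hF hvp, add_zero,
      add_zero, zero_smul, add_zero, coord_add, coord_add, C.coord_f hF, C.coord_lift hF,
      C.coord_p hF, zero_add, add_zero]

theorem delta_pair (hF : Fintype.card F = 4) (C : Coord p f g) {v w : Fin 6 → F}
    (hv : hm v v = 0) (hw : hm w w = 0) (hvp : hm v p = 0) (hwp : hm w p = 0) {k : F}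
    (hk : coord g w = k • coord g v) (A : ↥(stabVec p)) (hA : A.1 = tv hF v * tv hF w) :
    hermForm 4 F 2 (delta f g A) (delta f g A) = 0 := by
  have hiso : hermForm 4 F 2 (coord g v) (coord g v) = 0 := by
    rw [← C.hm_coord hF hvp hvp, hv]
  have e : ∃ c : F, delta f g A = c • coord g v := by
    refine ⟨hm f w * k + hm (f + hm f w • w) v, ?_⟩
    rw [delta, hA, CfsgLib.Unitary.sv_mul, sv_tv hF hw, sv_tv hF hv, coord_add, coord_add,
      coord_smul, coord_smul, C.coord_f hF, hk, zero_add, smul_smul, ← add_smul]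
  obtain ⟨c, hc⟩ := e
  rw [hc, CfsgLib.Unitary.herm_smul_left, CfsgLib.Unitary.herm_smul_right, hiso, mul_zero, mul_zero]

/-- A central element of the kernel is the identity or the transvection at `p`. -/
theorem ker_center (hF : Fintype.card F = 4) (C : Coord p f g) {A : ↥(stabVec p)}
    (hA : res hF C A = 1) (h : ∀ B, res hF C B = 1 → Commute A B) :
    A.1 = 1 ∨ A.1 = tv hF p := by
  obtain ⟨δ, hδ⟩ : ∃ δ, delta f g A = δ := ⟨_, rfl⟩
  refine delta_eq_zero hF C hA (hδ.trans ?_)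
  have hzero : ∀ u, hermForm 4 F 2 u u = 0 → hermForm 4 F 2 u δ = 0 := by
    intro u hu
    obtain ⟨w, hw0, hw1, -, -⟩ := F4.exists_omega hF
    have hwu : hermForm 4 F 2 (w • u) (w • u) = 0 := by
      rw [CfsgLib.Unitary.herm_smul_left, CfsgLib.Unitary.herm_smul_right, hu, mul_zero, mul_zero]
    obtain ⟨T, -, -, hT, hTd⟩ := exists_twist hF C hu
    obtain ⟨T', -, -, hT', hTd'⟩ := exists_twist hF C hwu
    have e1 := commute_form hF C hA hT (h T hT)
    have e2 := commute_form hF C hA hT' (h T' hT')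
    rw [hδ, hTd] at e1
    rw [hδ, hTd', CfsgLib.Unitary.herm_smul_left, CfsgLib.Unitary.herm_smul_right, e1] at e2
    have : (w * (w - 1)) * hermForm 4 F 2 u δ = 0 := by linear_combination e2
    exact (mul_eq_zero.1 this).resolve_left (mul_ne_zero hw0 (sub_ne_zero.2 hw1))
  refine CfsgLib.Unitary.herm_nondeg (card_sq hF) δ fun x => ?_
  refine CfsgLib.Unitary.herm_eq_zero_comm (card_sq hF) ?_
  refine add_closure hF (P := fun x => hermForm 4 F 2 x δ = 0) (CfsgLib.Unitary.herm_zero_left δ)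
    (fun x y hx hy => ?_) hzero x
  rw [CfsgLib.Unitary.herm_add_left, hx, hy, add_zero]

/-- An element commuting with the kernel acts trivially on the coordinates. -/
theorem res_eq_one_of_centralizes (hF : Fintype.card F = 4) (C : Coord p f g) {A : ↥(stabVec p)}
    (h : ∀ B, res hF C B = 1 → Commute A B) : res hF C A = 1 := by
  refine CfsgLib.Unitary.sv_ext fun u => ?_
  rw [CfsgLib.Unitary.sv_one]
  refine add_closure hF (P := fun u => CfsgLib.Unitary.sv (res hF C A) u = u) ?_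
    (fun x y hx hy => by rw [CfsgLib.Unitary.sv_add, hx, hy]) (fun u hu => ?_) u
  · exact Matrix.mulVec_zero _
  obtain ⟨T, -, -, hT, hTd⟩ := exists_twist hF C hu
  obtain ⟨d, hd⟩ : ∃ d, CfsgLib.Unitary.sv T.1 f + f = d := ⟨_, rfl⟩
  have hdp : hm d p = 0 := hd ▸ C.move_perp hF T
  have hdu : coord g d = u := by rw [← hd, C.coord_move hF, hTd]
  have hinv : ∀ x, hm x p = 0 → hm (CfsgLib.Unitary.sv A.1 x) d = hm x d := by
    intro x hx
    have key : CfsgLib.Unitary.sv (A * T).1 x = CfsgLib.Unitary.sv (T * A).1 x := by rw [(h T hT).eq]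
    rw [Subgroup.coe_mul, Subgroup.coe_mul, CfsgLib.Unitary.sv_mul, CfsgLib.Unitary.sv_mul,
      ker_apply_eq hF C hT hx, ker_apply_eq hF C hT (stab_perp hF A.2 hx), CfsgLib.Unitary.sv_add,
      CfsgLib.Unitary.sv_smul, (A.2 : CfsgLib.Unitary.sv A.1 p = p), hd] at key
    exact (smul_left_injective F C.hyp.ne_zero (add_left_cancel key)).symm
  have hAd : hm (CfsgLib.Unitary.sv A.1 d) p = 0 := stab_perp hF A.2 hdp
  rw [← hdu, res_coord hF C A hdp]
  funext i
  have hgi : hm (CfsgLib.Unitary.sv (A⁻¹ : ↥(stabVec p)).1 (g i)) p = 0 :=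
    stab_perp hF (A⁻¹).2 (C.perp_p i)
  have e := hinv _ hgi
  rw [Subgroup.coe_inv, CfsgLib.Unitary.sv_sv_inv] at e
  have e' : hm (g i) d = hm (g i) (CfsgLib.Unitary.sv A.1 d) := by
    rw [e]
    conv_rhs => arg 1; rw [← CfsgLib.Unitary.sv_sv_inv A.1 (g i)]
    exact (CfsgLib.Unitary.sv_herm A.1 _ _).symm
  show hm (CfsgLib.Unitary.sv A.1 d) (g i) = hm d (g i)
  rw [hm_symm hF (g i) d, hm_symm hF (g i) (CfsgLib.Unitary.sv A.1 d), e']

end CfsgLib.ThreeTransp.U62Point
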