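import Mathlib
import Cfsg.Prelude.Def_Transfer
import Cfsg.Agent.ThreeTransp.U6Radical25
import Cfsg.Agent.ThreeTransp.M22PairSwap25
import Cfsg.Agent.ThreeTransp.M22Triple
import Cfsg.Agent.PGroup.Extraspecial
import Cfsg.Agent.LocalP.Basic
import Cfsg.Agent.CharP.Climb

/-!
Type M(22): the centralizer of the product of two commuting members.
-/

set_option autoImplicit false

namespace CfsgLib.ThreeTransp.Pair25

open Cfsg CfsgLib.ThreeTransp.U62Point
open scoped commutatorElement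

universe u

variable {G : Type u} [Group G] {D : Set G}

/-- The structure of the centralizer `C` of `a * b`. -/
structure PairStruct (a b : G) (K C E : Subgroup G) : Prop where
  le : K ≤ C
  index : (K.subgroupOf C).index = 2
  center : (Subgroup.center ↥K).map K.subtype = Subgroup.closure ({a, b} : Set G)
  hV : Subgroup.closure ({a, b} : Set G) ≤ E
  hEK : E ≤ K
  normal : (E.subgroupOf C).Normal
  card : Nat.card ↥E = 2 ^ 10
  sq : ∀ x ∈ E, x ^ 2 = 1 ∨ x ^ 2 = a * b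
  comm : ∀ x ∈ E, ∀ y ∈ E, x * y * x⁻¹ * y⁻¹ = 1 ∨ x * y * x⁻¹ * y⁻¹ = a * b
  self : C ⊓ Subgroup.centralizer (E : Set G) ≤ E
  max : ∀ N : Subgroup ↥C, N.Normal → IsPGroup 2 N → N ≤ E.subgroupOf C
  quot : ∃ (F : Type) (_ : Field F) (_ : Fintype F), Fintype.card F = 4 ∧
    ∃ Φ : ↥C →* MulAut (PSU 4 F 2), Function.Surjective Φ ∧ Φ.ker = E.subgroupOf C ∧
      Nat.card (MulAut (PSU 4 F 2)) = 51840
  split : ∃ M : Subgroup G, M ≤ E ∧ a ∉ M ∧ (∀ x ∈ E, x ∈ M ∨ x * a ∈ M) ∧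
    Cfsg.IsExtraspecial 2 ↥M ∧ Nat.card ↥M = 2 ^ 9

theorem card_mulAut_psu4 {F : Type} [Field F] [Fintype F] (hF : Fintype.card F = 4) :
    Nat.card (MulAut (PSU 4 F 2)) = 51840 := by
  haveI : Fact (Nat.Prime 2) := ⟨Nat.prime_two⟩
  show Nat.card (MulAut (PSU (2 + 2) F 2)) = 51840
  rw [CfsgLib.AutPSU.card_mulAut (F := F) (m := 2) (q := 2) (p := 2) (f := 1) (PSU62.card_sq hF)
    (by norm_num) le_rfl (by norm_num) (by norm_num)]
  obtain ⟨e⟩ := su4_equiv_psu4 hF
  rw [← Nat.card_congr (e.toEquiv : ↥(SU 4 F 2) ≃ PSU 4 F 2), card_SU_four hF]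
  norm_num

theorem swap_conj {a b c : G} (hab : Commute a b) (h : c * a * c⁻¹ = b) (h' : c * b * c⁻¹ = a) :
    c * (a * b) * c⁻¹ = a * b := by
  rw [show c * (a * b) * c⁻¹ = c * a * c⁻¹ * (c * b * c⁻¹) by group, h, h', hab.eq]

section m22

variable [Finite G] (hG : IsThreeTranspositionGroup D) (hp : IsPrimitiveUnderConj D)
  (h22 : IsOfTypeM22 G D)
include hG hp h22

theorem card_centralizer_pair {a b : G} (ha : a ∈ D) (hb : b ∈ nbr D a) :
    693 * Nat.card ↥(Subgroup.centralizer ({a, b} : Set G)) = 2 * 9196830720 := by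
  classical
  obtain ⟨Ca, hCa⟩ : ∃ Ca, Ca = Subgroup.centralizer ({a} : Set G) := ⟨_, rfl⟩
  obtain ⟨K, hK⟩ : ∃ K, K = Subgroup.centralizer ({a, b} : Set G) := ⟨_, rfl⟩
  rw [← hK]
  have hKle : K ≤ Ca := by rw [hK, hCa]; exact Subgroup.centralizer_le (by simp)
  have hconj : ∀ g : ↥Ca, (g : G) * b * (g : G)⁻¹ ∈ nbr D a := by
    intro g
    have hga : (g : G) * a * (g : G)⁻¹ = a := by
      rw [Subgroup.mem_centralizer_singleton_iff.1 (hCa ▸ g.2 :
        (g : G) ∈ Subgroup.centralizer ({a} : Set G)), mul_inv_cancel_right]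
    have := nbr_conj hG (g : G) hb
    rwa [hga] at this
  have hiff : ∀ g h : ↥Ca, (g : G) * b * (g : G)⁻¹ = (h : G) * b * (h : G)⁻¹ ↔
      g⁻¹ * h ∈ K.subgroupOf Ca := by
    intro g h
    rw [Subgroup.mem_subgroupOf, hK, mem_centralizer_pair, Subgroup.coe_mul, Subgroup.coe_inv]
    constructor
    · intro e
      refine ⟨?_, ?_⟩
      · exact Subgroup.mem_centralizer_singleton_iff.1 (hCa ▸ mul_mem (inv_mem g.2) h.2 :
          (g : G)⁻¹ * (h : G) ∈ Subgroup.centralizer ({a} : Set G))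
      · show (g : G)⁻¹ * h * b = b * ((g : G)⁻¹ * h)
        calc (g : G)⁻¹ * h * b = (g : G)⁻¹ * ((h : G) * b * (h : G)⁻¹) * h := by group
          _ = b * ((g : G)⁻¹ * h) := by rw [← e]; group
    · rintro ⟨-, e⟩
      have e' : (g : G)⁻¹ * h * b = b * ((g : G)⁻¹ * h) := e
      calc (g : G) * b * (g : G)⁻¹ = (g : G) * (b * ((g : G)⁻¹ * h)) * (h : G)⁻¹ := by group
        _ = (h : G) * b * (h : G)⁻¹ := by rw [← e']; group
  have hq : Nat.card (↥Ca ⧸ K.subgroupOf Ca) = 693 := by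
    rw [← m22_ncard_nbr hG hp h22 ha, ← Nat.card_coe_set_eq]
    refine Nat.card_eq_of_bijective (Quotient.lift (fun g : ↥Ca => (⟨_, hconj g⟩ : ↥(nbr D a)))
      fun g h e => Subtype.ext ((hiff g h).2 (QuotientGroup.leftRel_apply.1 e))) ⟨?_, ?_⟩
    · rintro ⟨g⟩ ⟨h⟩ e
      exact Quotient.sound (QuotientGroup.leftRel_apply.2 ((hiff g h).1 (congrArg Subtype.val e)))
    · rintro ⟨y, hy⟩
      obtain ⟨g, hga, hgy⟩ := m22_nbr_conj_fix hG h22 ha hb hy
      refine ⟨Quotient.mk _ ⟨g, ?_⟩, Subtype.ext hgy⟩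
      rw [hCa, Subgroup.mem_centralizer_singleton_iff, ← mul_inv_eq_iff_eq_mul, hga]
  have h1 := Subgroup.card_eq_card_quotient_mul_card_subgroup (K.subgroupOf Ca)
  rw [hq, Nat.card_congr (Subgroup.subgroupOfEquivOfLe hKle).toEquiv, hCa,
    Nat.card_congr (MulEquiv.subgroupCongr (m22_centralizer_eq hG hp h22 ha)).toEquiv,
    m22_card_nbr_group hG hp h22 ha] at h1
  exact h1.symm

set_option maxHeartbeats 1600000 in
theorem m22_pair_struct {a b : G} (ha : a ∈ D) (hb : b ∈ nbr D a) (K C : Subgroup G)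
    (hK : K = Subgroup.centralizer ({a, b} : Set G))
    (hC : C = Subgroup.centralizer ({a * b} : Set G)) : ∃ E, PairStruct a b K C E := by
  classical
  haveI : Fact (Nat.Prime 2) := ⟨Nat.prime_two⟩
  have hD := hG.1
  have hnt := m22_noTwins hG h22
  have hab := hb.2.2
  have hne := Ne.symm hb.2.1
  obtain ⟨M⟩ := m22_pointModel hG h22 ha
  have hF := M.hF
  subst hK
  obtain ⟨χ, hχs, hχk, hχn⟩ := exists_pair_hom hG hp h22 ha hb M
  obtain ⟨p, hp'⟩ : ∃ p, M.pt b = p := ⟨_, rfl⟩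
  have hpp : PSU62.hm p p = 0 := hp' ▸ (M.iso b hb).1
  have hp0 : p ≠ 0 := hp' ▸ (M.iso b hb).2
  obtain ⟨f, g, Co⟩ := exists_coord hF (M.iso b hb).2 (M.iso b hb).1
  obtain ⟨g₀, hga, hgb, hswap⟩ := swap_not_inner hG hp h22 ha hb M Co
  have memK : ∀ x : G, x ∈ Subgroup.centralizer ({a, b} : Set G) ↔
      x * a * x⁻¹ = a ∧ x * b * x⁻¹ = b := fun x => by
    rw [mem_centralizer_pair, mul_inv_eq_iff_eq_mul, mul_inv_eq_iff_eq_mul]; rfl
  have memC : ∀ x : G, x ∈ C ↔ x * (a * b) * x⁻¹ = a * b := fun x => by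
    rw [hC, Subgroup.mem_centralizer_singleton_iff, mul_inv_eq_iff_eq_mul]
  have hfact : ∀ c ∈ C, (c * a * c⁻¹ = a ∧ c * b * c⁻¹ = b) ∨
      (c * a * c⁻¹ = b ∧ c * b * c⁻¹ = a) := by
    intro c hc
    have hne' : c * a * c⁻¹ ≠ c * b * c⁻¹ := fun e => hne (mul_left_cancel (mul_right_cancel e))
    have := pair_unique hD hnt (j := a * b) (l := [a, b]) (l' := [c * a * c⁻¹, c * b * c⁻¹])
      ⟨by simp [hne], rfl, by simp [ha, hb.1], by simp [hab, hab.symm], by simp⟩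
      ⟨by simp [hne'], rfl, by simp [tt_conj_mem hG ha, tt_conj_mem hG hb.1],
        by simp [commute_conj_iff'.2 hab, (commute_conj_iff'.2 hab).symm],
        by rw [List.prod_cons, List.prod_singleton]; exact Eq.trans (by group) ((memC c).1 hc)⟩
    simp only [List.mem_cons, List.not_mem_nil, or_false] at this
    rcases (this (c * a * c⁻¹)).2 (Or.inl rfl) with h1 | h1 <;>
      rcases (this (c * b * c⁻¹)).2 (Or.inr rfl) with h2 | h2
    · exact absurd (h1.trans h2.symm) hne'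
    · exact Or.inl ⟨h1, h2⟩
    · exact Or.inr ⟨h1, h2⟩
    · exact absurd (h1.trans h2.symm) hne'
  have hKC : Subgroup.centralizer ({a, b} : Set G) ≤ C := fun x hx => (memC x).2 (by
    rw [show x * (a * b) * x⁻¹ = x * a * x⁻¹ * (x * b * x⁻¹) by group, ((memK x).1 hx).1,
      ((memK x).1 hx).2])
  have hgC : g₀ ∈ C := (memC g₀).2 (swap_conj hab hga hgb)
  have hindex : ((Subgroup.centralizer ({a, b} : Set G)).subgroupOf C).index = 2 := by
    rw [Subgroup.index_eq_two_iff]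
    refine ⟨⟨g₀, hgC⟩, fun c => ?_⟩
    simp only [Subgroup.mem_subgroupOf, Subgroup.coe_mul, memK]
    have e1 : ∀ x : G, (c : G) * g₀ * x * ((c : G) * g₀)⁻¹ =
        (c : G) * (g₀ * x * g₀⁻¹) * (c : G)⁻¹ := fun x => by group
    rw [e1, e1, hga, hgb]
    rcases hfact c c.2 with ⟨h1, h2⟩ | ⟨h1, h2⟩ <;> rw [h1, h2] <;> unfold Xor <;> tauto
  -- elements of the pair group
  have hA : a ∈ Subgroup.centralizer ({a, b} : Set G) := mem_centralizer_pair.2 ⟨Commute.refl a, hab⟩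
  have hB : b ∈ Subgroup.centralizer ({a, b} : Set G) :=
    mem_centralizer_pair.2 ⟨hab.symm, Commute.refl b⟩
  have hχa : χ ⟨a, hA⟩ = 1 := (hχk _).2 (Or.inr rfl)
  have hχb : (χ ⟨b, hB⟩).1 = PSU62.tv hF p := by
    rw [hχn ⟨b, hB⟩ hb (M.iso b hb).1, hp']
  obtain ⟨Φ₀, hΦ₀⟩ : ∃ Φ₀ : ↥(Subgroup.centralizer ({a, b} : Set G)) →* ↥(SU 4 M.F 2),
      Φ₀ = (res hF Co).comp χ := ⟨_, rfl⟩
  have hΦs : Function.Surjective Φ₀ := by
    rw [hΦ₀]; exact (res_surjective hF Co).comp hχs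
  have hΦχ : ∀ k, Φ₀ k = res hF Co (χ k) := fun k => by rw [hΦ₀]; rfl
  have hperp : ∀ y, y ∈ nbr D a → y ∈ nbr D b → PSU62.hm (M.pt y) (M.pt b) = 0 :=
    fun y hya hyb => (M.comm b hb y hya).1 hyb.2.2
  have hSK : ∀ y, y ∈ nbr D a → y ∈ nbr D b → y ∈ Subgroup.centralizer ({a, b} : Set G) :=
    fun y hya hyb => mem_centralizer_pair.2 ⟨hya.2.2.symm, hyb.2.2.symm⟩
  have hΦy : ∀ (y : G) (hya : y ∈ nbr D a) (hyb : y ∈ nbr D b),
      Φ₀ ⟨y, hSK y hya hyb⟩ = tv4 hF (coord g (M.pt y)) := by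
    intro y hya hyb
    rw [hΦχ, ← res_tv hF Co (M.iso y hya).1 (hperp y hya hyb)]
    exact congrArg _ (Subtype.ext (hχn ⟨y, hSK y hya hyb⟩ hya (hperp y hya hyb)))
  -- the kernel
  obtain ⟨E, hE⟩ : ∃ E, E = Φ₀.ker.map (Subgroup.centralizer ({a, b} : Set G)).subtype := ⟨_, rfl⟩
  have memE : ∀ x : G, x ∈ E ↔ ∃ hx : x ∈ Subgroup.centralizer ({a, b} : Set G),
      Φ₀ ⟨x, hx⟩ = 1 := by
    intro x
    rw [hE, Subgroup.mem_map]
    exact ⟨by rintro ⟨k, hk, rfl⟩; exact ⟨k.2, hk⟩, fun ⟨hx, h⟩ => ⟨⟨x, hx⟩, h, rfl⟩⟩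
  have hEK : E ≤ Subgroup.centralizer ({a, b} : Set G) := fun x hx => ((memE x).1 hx).1
  have haE : a ∈ E := (memE a).2 ⟨hA, by rw [hΦχ, hχa, map_one]⟩
  have hbE : b ∈ E := (memE b).2 ⟨hB, by
    rw [hΦχ, show χ ⟨b, hB⟩ = ⟨PSU62.tv hF (M.pt b), tv_mem_stabVec hF (M.iso b hb).1
      (M.iso b hb).1⟩ from Subtype.ext (hp' ▸ hχb), res_tv hF Co (M.iso b hb).1 (M.iso b hb).1,
      Co.coord_p hF]
    refine CfsgLib.Unitary.sv_ext fun x => ?_
    rw [sv_tv4 hF (CfsgLib.Unitary.herm_zero_left _), smul_zero, add_zero, CfsgLib.Unitary.sv_one]⟩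
  have hVE : Subgroup.closure ({a, b} : Set G) ≤ E := by
    rw [Subgroup.closure_le]
    rintro x (rfl | rfl)
    exacts [haE, hbE]
  have hVc : ∀ v ∈ Subgroup.closure ({a, b} : Set G), ∀ k ∈ Subgroup.centralizer ({a, b} : Set G),
      Commute v k := fun v hv k hk =>
    commute_closure_iff.2 (fun s hs => Subgroup.mem_centralizer_iff.1 hk s hs) v hv
  -- χ of an element of the pair group in {1, tv p} lies in V
  have hsmall : ∀ k : ↥(Subgroup.centralizer ({a, b} : Set G)),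
      (χ k).1 = 1 ∨ (χ k).1 = PSU62.tv hF p → (k : G) ∈ Subgroup.closure ({a, b} : Set G) := by
    intro k hk
    rcases hk with h | h
    · rcases (hχk k).1 (Subtype.ext h) with e | e <;> rw [e]
      exacts [one_mem _, Subgroup.subset_closure (by simp)]
    · have e : χ (k * ⟨b, hB⟩⁻¹) = 1 := by
        rw [map_mul, map_inv, show χ k = χ ⟨b, hB⟩ from Subtype.ext (h.trans hχb.symm), mul_inv_cancel]
      have hb' : b ∈ Subgroup.closure ({a, b} : Set G) := Subgroup.subset_closure (by simp)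
      have ha' : a ∈ Subgroup.closure ({a, b} : Set G) := Subgroup.subset_closure (by simp)
      rcases (hχk _).1 e with e' | e' <;> rw [Subgroup.coe_mul, Subgroup.coe_inv] at e'
      · rw [mul_inv_eq_one.1 e']; exact hb'
      · rw [mul_inv_eq_iff_eq_mul.1 e']; exact mul_mem ha' hb'
  -- the centre
  have hcenter : (Subgroup.center ↥(Subgroup.centralizer ({a, b} : Set G))).map
      (Subgroup.centralizer ({a, b} : Set G)).subtype = Subgroup.closure ({a, b} : Set G) := by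
    apply le_antisymm
    · rintro x ⟨k, hk, rfl⟩
      refine hsmall k (hp' ▸ center_stabVec hF Co ?_)
      rw [Subgroup.mem_center_iff]
      intro A
      obtain ⟨m, rfl⟩ := hχs A
      rw [← map_mul, ← map_mul, Subgroup.mem_center_iff.1 hk m]
    · intro v hv
      exact ⟨⟨v, hEK (hVE hv)⟩, Subgroup.mem_center_iff.2 fun k =>
        Subtype.ext (hVc v hv k k.2).eq.symm, rfl⟩
  -- squares
  have hpow : ∀ x ∈ E, x * x ∈ Subgroup.closure ({a, b} : Set G) := by
    intro x hx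
    obtain ⟨hxK, h⟩ := (memE x).1 hx
    refine hsmall (⟨x, hxK⟩ * ⟨x, hxK⟩) ?_
    rw [map_mul]
    exact hp' ▸ res_ker_sq hF Co (A := χ ⟨x, hxK⟩) ((hΦχ _).symm.trans h)
  have hE2 : IsPGroup 2 E := by
    intro x
    refine ⟨2, Subtype.ext ?_⟩
    have h := hpow x x.2
    rw [pair_mem_V hD ha hb.1 hab] at h
    rw [SubmonoidClass.coe_pow, OneMemClass.coe_one, show (2 : ℕ) ^ 2 = 2 + 2 from rfl, pow_add,
      pow_two]
    rcases h with e | e | e | e <;> rw [e]
    · exact one_mul 1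
    · exact tt_mul_self hD ha
    · exact tt_mul_self hD hb.1
    · rw [mul_assoc, ← mul_assoc b, ← hab.eq, mul_assoc a b b, tt_mul_self hD hb.1, mul_one,
        tt_mul_self hD ha]
  have hcardE : Nat.card ↥E = 2 ^ 10 := by
    have h1 := Subgroup.card_eq_card_quotient_mul_card_subgroup Φ₀.ker
    rw [Nat.card_congr (QuotientGroup.quotientKerEquivOfSurjective Φ₀ hΦs).toEquiv,
      card_SU_four hF] at h1
    have h2 : Nat.card ↥E = Nat.card ↥Φ₀.ker := by
      rw [hE]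
      exact Nat.card_congr (Subgroup.equivMapOfInjective _ _ (Subgroup.subtype_injective _)).toEquiv.symm
    have h3 := card_centralizer_pair hG hp h22 ha hb
    rw [h2]
    rw [h1] at h3
    omega
  -- conjugation by `C` preserves the pair group and `E`
  have hconjK : ∀ c ∈ C, ∀ x ∈ Subgroup.centralizer ({a, b} : Set G),
      c * x * c⁻¹ ∈ Subgroup.centralizer ({a, b} : Set G) := by
    intro c hc x hx
    obtain ⟨h1, h2⟩ := (memK x).1 hx
    rw [memK]
    rcases hfact c⁻¹ (inv_mem hc) with ⟨e1, e2⟩ | ⟨e1, e2⟩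
    all_goals
      rw [inv_inv] at e1 e2
      have key : ∀ z w : G, c⁻¹ * z * c = w → x * w * x⁻¹ = w →
          c * x * c⁻¹ * z * (c * x * c⁻¹)⁻¹ = z := fun z w ez ew => by
        rw [show c * x * c⁻¹ * z * (c * x * c⁻¹)⁻¹ = c * (x * (c⁻¹ * z * c) * x⁻¹) * c⁻¹ by group,
          ez, ew, ← ez]
        group
    · exact ⟨key a a e1 h1, key b b e2 h2⟩
    · exact ⟨key a b e1 h2, key b a e2 h1⟩
  have hEnorm : ∀ c ∈ C, ∀ x ∈ E, c * x * c⁻¹ ∈ E := by
    intro c hc x hx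
    obtain ⟨α, hα⟩ : ∃ α : ↥(Subgroup.centralizer ({a, b} : Set G)) →*
        ↥(Subgroup.centralizer ({a, b} : Set G)), ∀ k, (α k : G) = c * k * c⁻¹ :=
      ⟨MonoidHom.mk' (fun k => ⟨c * k * c⁻¹, hconjK c hc k k.2⟩)
        fun k l => Subtype.ext (by simp [mul_assoc]), fun _ => rfl⟩
    have hαs : Function.Surjective α := fun k => ⟨⟨c⁻¹ * k * c, by
      simpa using hconjK c⁻¹ (inv_mem hc) k k.2⟩, Subtype.ext (by rw [hα]; group)⟩
    obtain ⟨N, hN⟩ : ∃ N, N = (Φ₀.ker.map α).map Φ₀ := ⟨_, rfl⟩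
    haveI : N.Normal := by
      rw [hN]
      exact ((MonoidHom.normal_ker Φ₀).map α hαs).map Φ₀ hΦs
    have hk2 : IsPGroup 2 ↥Φ₀.ker := by
      rw [hE] at hE2
      exact hE2.of_equiv (Subgroup.equivMapOfInjective _ _ (Subgroup.subtype_injective _)).symm
    have hN1 := normal_twoGroup_su4_eq_bot hF N (hN ▸ (hk2.map α).map Φ₀)
    obtain ⟨hxK, h⟩ := (memE x).1 hx
    refine (memE _).2 ⟨hconjK c hc x hxK, ?_⟩
    have hm : Φ₀ (α ⟨x, hxK⟩) ∈ N := hN ▸ ⟨_, ⟨_, h, rfl⟩, rfl⟩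
    rw [hN1, Subgroup.mem_bot] at hm
    rw [← hm]
    exact congrArg Φ₀ (Subtype.ext (hα ⟨x, hxK⟩).symm)
  -- members at prescribed points
  have hlift : ∀ v : Fin 6 → M.F, PSU62.hm v v = 0 → PSU62.hm v p = 0 → coord g v ≠ 0 →
      ∃ (y : G) (hya : y ∈ nbr D a) (hyb : y ∈ nbr D b),
        PSU62.tp hF (M.pt y) = PSU62.tp hF v ∧
        (χ ⟨y, hSK y hya hyb⟩).1 = PSU62.tv hF v := by
    intro v hv hvp hv0
    have hvn : v ≠ 0 := fun h => hv0 (by rw [h]; exact funext fun i => PSU62.hm_zeroL _)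
    obtain ⟨y, hya, hy⟩ := M.onto v hv hvn
    obtain ⟨k, hk, hkv⟩ := PSU62.tp_inj hF (M.iso y hya).1 hv (M.iso y hya).2 hvn hy
    have hyb : y ∈ nbr D b := by
      refine ⟨hya.1, fun h => hv0 ?_, ?_⟩
      · rw [hkv, h, coord_smul, Co.coord_p hF, smul_zero]
      · refine (M.comm b hb y hya).2 ?_
        rw [hkv, PSU62.hm_smulL, mul_eq_zero, or_iff_right hk] at hvp
        rw [hp']; exact hvp
    refine ⟨y, hya, hyb, hy, ?_⟩
    rw [hχn ⟨y, hSK y hya hyb⟩ hya (hperp y hya hyb), hkv, PSU62.tv_smul hF (M.iso y hya).1 hk]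
  obtain ⟨δ, hδ⟩ : ∃ δ : ↥(Subgroup.centralizer ({a, b} : Set G)) → Fin 4 → M.F,
      ∀ k, δ k = delta f g (χ k) := ⟨_, fun _ => rfl⟩
  have hδmul : ∀ k l, Φ₀ k = 1 → δ (k * l) = δ k + δ l := fun k l hk => by
    rw [hδ, hδ, hδ, map_mul, delta_mul hF Co ((hΦχ k).symm.trans hk)]
  have hδ0 : ∀ k, Φ₀ k = 1 → δ k = 0 → (k : G) ∈ Subgroup.closure ({a, b} : Set G) :=
    fun k hk h => hsmall k (hp' ▸ delta_eq_zero hF Co ((hΦχ k).symm.trans hk) ((hδ k).symm.trans h))
  have hδV : ∀ k : ↥(Subgroup.centralizer ({a, b} : Set G)),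
      (k : G) ∈ Subgroup.closure ({a, b} : Set G) → δ k = 0 := by
    intro k hk
    rw [hδ, delta]
    have hfix : CfsgLib.Unitary.sv (χ ⟨b, hB⟩).1 f = f + p := by
      rw [hχb, PSU62.sv_tv hF hpp, ← hp', Co.hyp.fe hF, one_smul]
    rcases (pair_mem_V hD ha hb.1 hab).1 hk with e | e | e | e
    · rw [show k = 1 from Subtype.ext e, map_one, Subgroup.coe_one, CfsgLib.Unitary.sv_one,
        Co.coord_f hF]
    · rw [show k = ⟨a, hA⟩ from Subtype.ext e, hχa, Subgroup.coe_one, CfsgLib.Unitary.sv_one,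
        Co.coord_f hF]
    · rw [show k = ⟨b, hB⟩ from Subtype.ext e, hfix, coord_add, Co.coord_f hF, ← hp',
        Co.coord_p hF, add_zero]
    · rw [show k = ⟨a, hA⟩ * ⟨b, hB⟩ from Subtype.ext e, map_mul, hχa, one_mul, hfix, coord_add,
        Co.coord_f hF, ← hp', Co.coord_p hF, add_zero]
  -- the generators
  obtain ⟨P, hP⟩ : ∃ P : Set G, P = {x | ∃ hx : x ∈ Subgroup.centralizer ({a, b} : Set G),
      Φ₀ ⟨x, hx⟩ = 1 ∧ hermForm 4 M.F 2 (δ ⟨x, hx⟩) (δ ⟨x, hx⟩) = 0} := ⟨_, rfl⟩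
  have hPE : P ⊆ E := fun x hx => by
    rw [hP] at hx; obtain ⟨h1, h2, -⟩ := hx; exact (memE x).2 ⟨h1, h2⟩
  have hPV : ∀ v ∈ Subgroup.closure ({a, b} : Set G), v ∈ P := fun v hv => by
    rw [hP]
    refine ⟨hEK (hVE hv), ((memE v).1 (hVE hv)).2, ?_⟩
    rw [hδV ⟨v, hEK (hVE hv)⟩ hv]; exact CfsgLib.Unitary.herm_zero_left _
  have hPdec : ∀ x ∈ P, x ∈ Subgroup.closure ({a, b} : Set G) ∨ ∃ y m v : G, y ∈ nbr D a ∧
      y ∈ nbr D b ∧ m ∈ nbr D a ∧ m ∈ nbr D b ∧ Commute y m ∧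
      v ∈ Subgroup.closure ({a, b} : Set G) ∧ y * m ∈ E ∧ x = y * m * v := by
    intro x hx
    rw [hP] at hx
    obtain ⟨hxK, hx1, hxi⟩ := hx
    by_cases h0 : δ ⟨x, hxK⟩ = 0
    · exact Or.inl (hδ0 _ hx1 h0)
    right
    obtain ⟨T, hT, hww, hTk, hTd⟩ := exists_twist hF Co hxi
    obtain ⟨v, hv⟩ : ∃ v, lift4 g (δ ⟨x, hxK⟩) = v := ⟨_, rfl⟩
    rw [hv] at hT hww
    have hvp : PSU62.hm v p = 0 := by rw [← hv, ← hp']; exact Co.lift_perp _
    have hvv : PSU62.hm v v = 0 := by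
      rw [Co.hm_coord hF (hp' ▸ hvp) (hp' ▸ hvp), ← hv, Co.coord_lift hF]; exact hxi
    have hcv : coord g v = δ ⟨x, hxK⟩ := by rw [← hv, Co.coord_lift hF]
    replace hT : T.1 = PSU62.tv hF v * PSU62.tv hF (v + p) := by rw [hT, hp']
    replace hww : PSU62.hm (v + p) (v + p) = 0 := hp' ▸ hww
    have hwp : PSU62.hm (v + p) p = 0 := by rw [PSU62.hm_addL, hvp, hpp, add_zero]
    have hcw : coord g (v + p) = δ ⟨x, hxK⟩ := by
      rw [coord_add, hcv, ← hp', Co.coord_p hF, add_zero]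
    obtain ⟨y, hya, hyb, hy, hyχ⟩ := hlift v hvv hvp (hcv ▸ h0)
    obtain ⟨m, hma, hmb, hm, hmχ⟩ := hlift (v + p) hww hwp (hcw ▸ h0)
    have hym : Commute y m := by
      have hv0 : v ≠ 0 := fun h => h0 (by rw [← hcv, h]; exact funext fun i => PSU62.hm_zeroL _)
      have hw0 : v + p ≠ 0 := fun h => h0 (by rw [← hcw, h]; exact funext fun i => PSU62.hm_zeroL _)
      rw [M.comm _ hya _ hma, M.perp_congr (M.iso _ hya).1 hvv (M.iso _ hya).2 hv0 hy]
      refine PSU62.hm_flip hF ?_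
      rw [M.perp_congr (M.iso _ hma).1 hww (M.iso _ hma).2 hw0 hm, PSU62.hm_addR hF, hvv, hvp,
        add_zero]
    obtain ⟨z, hz⟩ : ∃ z : ↥(Subgroup.centralizer ({a, b} : Set G)),
        z = ⟨y, hSK y hya hyb⟩ * ⟨m, hSK m hma hmb⟩ := ⟨_, rfl⟩
    have hzT : χ z = T := by
      refine Subtype.ext ?_
      rw [hz, map_mul, Subgroup.coe_mul, hyχ, hmχ, hT]
    have hz1 : Φ₀ z = 1 := by rw [hΦχ, hzT, hTk]
    have hzd : δ z = δ ⟨x, hxK⟩ := by rw [hδ, hzT, hTd]
    have hzi : Φ₀ z⁻¹ = 1 := by rw [map_inv, hz1, inv_one]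
    have hv' : (z⁻¹ * ⟨x, hxK⟩ : ↥(Subgroup.centralizer ({a, b} : Set G))).1 ∈
        Subgroup.closure ({a, b} : Set G) := by
      refine hδ0 _ (by rw [map_mul, hzi, hx1, one_mul]) ?_
      have e := hδmul z (z⁻¹ * ⟨x, hxK⟩) hz1
      rw [mul_inv_cancel_left, hzd, eq_comm, add_eq_left] at e
      exact e
    refine ⟨y, m, _, hya, hyb, hma, hmb, hym, hv', (memE _).2 ⟨mul_mem (hSK y hya hyb)
      (hSK m hma hmb), ?_⟩, ?_⟩
    · rw [← hz1, hz]; rfl
    · rw [hz]; simp [mul_assoc]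
  have hsqV : ∀ v ∈ Subgroup.closure ({a, b} : Set G), v * v = 1 := by
    intro v hv
    rcases (pair_mem_V hD ha hb.1 hab).1 hv with e | e | e | e <;> rw [e]
    · exact one_mul 1
    · exact tt_mul_self hD ha
    · exact tt_mul_self hD hb.1
    · rw [mul_assoc, ← mul_assoc b, ← hab.eq, mul_assoc a b b, tt_mul_self hD hb.1, mul_one,
        tt_mul_self hD ha]
  have hPsq : ∀ x ∈ P, x * x = 1 := by
    intro x hx
    rcases hPdec x hx with h | ⟨y, m, v, hya, hyb, hma, hmb, hym, hv, -, rfl⟩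
    · exact hsqV x h
    · have hc : Commute (y * m) v :=
        (hVc v hv _ (mul_mem (hSK y hya hyb) (hSK m hma hmb))).symm
      rw [← pow_two, hc.mul_pow, hym.mul_pow, pow_two, pow_two, pow_two, tt_mul_self hD hya.1,
        tt_mul_self hD hma.1, hsqV v hv, mul_one, mul_one]
  have hPconj : ∀ c ∈ C, ∀ x ∈ P, c * x * c⁻¹ ∈ P := by
    intro c hc x hx
    have hSc : ∀ y, y ∈ nbr D a → y ∈ nbr D b →
        c * y * c⁻¹ ∈ nbr D a ∧ c * y * c⁻¹ ∈ nbr D b := by
      intro y hya hyb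
      have h1 := nbr_conj hG c hya
      have h2 := nbr_conj hG c hyb
      rcases hfact c hc with ⟨e1, e2⟩ | ⟨e1, e2⟩ <;> rw [e1] at h1 <;> rw [e2] at h2
      exacts [⟨h1, h2⟩, ⟨h2, h1⟩]
    have hVconj : ∀ v ∈ Subgroup.closure ({a, b} : Set G),
        c * v * c⁻¹ ∈ Subgroup.closure ({a, b} : Set G) := by
      intro v hv
      induction hv using Subgroup.closure_induction with
      | mem y hy =>
        rcases hfact c hc with ⟨e1, e2⟩ | ⟨e1, e2⟩ <;> rcases hy with rfl | rfl <;>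
          first
            | (rw [e1]; exact Subgroup.subset_closure (by simp))
            | (rw [e2]; exact Subgroup.subset_closure (by simp))
      | one => simp
      | mul y z _ _ h1 h2 => simpa [mul_assoc] using mul_mem h1 h2
      | inv y _ h1 => simpa [mul_assoc] using inv_mem h1
    rcases hPdec x hx with h | ⟨y, m, v, hya, hyb, hma, hmb, -, hv, hymE, rfl⟩
    · exact hPV _ (hVconj x h)
    · obtain ⟨hya', hyb'⟩ := hSc y hya hyb
      obtain ⟨hma', hmb'⟩ := hSc m hma hmb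
      have hiso : ∀ z, z ∈ nbr D a → z ∈ nbr D b →
          hermForm 4 M.F 2 (coord g (M.pt z)) (coord g (M.pt z)) = 0 := fun z hza hzb => by
        rw [← Co.hm_coord hF (hperp z hza hzb) (hperp z hza hzb)]; exact (M.iso z hza).1
      obtain ⟨hK', h1⟩ := (memE _).1 (hEnorm c hc _ hymE)
      obtain ⟨z, hz⟩ : ∃ z : ↥(Subgroup.centralizer ({a, b} : Set G)),
          z = ⟨_, hSK _ hya' hyb'⟩ * ⟨_, hSK _ hma' hmb'⟩ := ⟨_, rfl⟩
      have hze : (z : G) = c * (y * m) * c⁻¹ := by rw [hz, Subgroup.coe_mul]; group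
      have hz1 : Φ₀ z = 1 := by rw [show z = ⟨_, hK'⟩ from Subtype.ext hze, h1]
      have htv : tv4 hF (coord g (M.pt (c * y * c⁻¹))) = tv4 hF (coord g (M.pt (c * m * c⁻¹))) := by
        rw [← hΦy _ hya' hyb', ← hΦy _ hma' hmb', eq_comm]
        have e : Φ₀ ⟨_, hSK _ hma' hmb'⟩ * Φ₀ ⟨_, hSK _ hma' hmb'⟩ = 1 := by
          rw [← map_mul, show (⟨_, hSK _ hma' hmb'⟩ * ⟨_, hSK _ hma' hmb'⟩ :
            ↥(Subgroup.centralizer ({a, b} : Set G))) = 1 from
              Subtype.ext (tt_mul_self hD hma'.1), map_one]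
        rw [hz, map_mul] at hz1
        exact mul_right_cancel (e.trans hz1.symm)
      obtain ⟨k, -, hk⟩ := tv4_inj hF (hiso _ hma' hmb') (hiso _ hya' hyb')
        (fun h => M.pt_not_smul hma' hb hmb'.2.1 _
          (Co.eq_smul hF (hperp _ hma' hmb') h)) htv.symm
      rw [hP]
      refine ⟨hconjK c hc _ (mul_mem (mul_mem (hSK y hya hyb) (hSK m hma hmb)) (hEK (hVE hv))),
        ((memE _).1 (hEnorm c hc _ (mul_mem hymE (hVE hv)))).2, ?_⟩
      have hw := hVconj v hv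
      rw [show (⟨c * (y * m * v) * c⁻¹, hconjK c hc _ (mul_mem (mul_mem (hSK y hya hyb) (hSK m hma hmb))
        (hEK (hVE hv)))⟩ : ↥(Subgroup.centralizer ({a, b} : Set G))) =
          z * ⟨_, hEK (hVE hw)⟩ from Subtype.ext (by rw [Subgroup.coe_mul, hze]; group),
        hδmul _ _ hz1, hδV ⟨_, hEK (hVE hw)⟩ hw, add_zero, hδ]
      refine delta_pair hF Co (v := M.pt (c * y * c⁻¹)) (w := M.pt (c * m * c⁻¹)) (M.iso _ hya').1
        (M.iso _ hma').1 (hperp _ hya' hyb') (hperp _ hma' hmb') hk _ ?_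
      rw [hz, map_mul, Subgroup.coe_mul, hχn ⟨_, hSK _ hya' hyb'⟩ hya' (hperp _ hya' hyb'),
        hχn ⟨_, hSK _ hma' hmb'⟩ hma' (hperp _ hma' hmb')]
  -- commutators of generators
  have hPcomm : ∀ x ∈ P, ∀ y ∈ P, ⁅x, y⁆ = 1 ∨ ⁅x, y⁆ = a * b := by
    have hpre : ∀ x ∈ P, ∀ y ∈ P, ¬ Commute x y → ⁅x, y⁆ = b ∨ ⁅x, y⁆ = a * b := by
      intro x hx y hy hncm
      have hx' := hx; have hy' := hy
      rw [hP] at hx' hy'
      obtain ⟨hxK, hx1, hxi⟩ := hx'
      obtain ⟨hyK, hy1, hyi⟩ := hy'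
      have hV : ⁅x, y⁆ ∈ Subgroup.closure ({a, b} : Set G) := by
        rw [commutatorElement_def,
          show x * y * x⁻¹ * y⁻¹ = x * x * ((x⁻¹ * y) * (x⁻¹ * y)) * (y⁻¹ * y⁻¹) by group]
        exact mul_mem (mul_mem (hpow x (hPE hx)) (hpow _ (mul_mem (inv_mem (hPE hx)) (hPE hy))))
          (hpow _ (inv_mem (hPE hy)))
      rcases (pair_mem_V hD ha hb.1 hab).1 hV with e | e | e | e
      · exact absurd (commutatorElement_eq_one_iff_commute.1 e) hncm
      · exfalso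
        have hχc : Commute (χ ⟨x, hxK⟩) (χ ⟨y, hyK⟩) := by
          rw [← commutatorElement_eq_one_iff_commute, ← map_commutatorElement]
          exact (hχk _).2 (Or.inr (by rw [commutatorElement_def] at e ⊢; exact e))
        have hform := commute_form hF Co ((hΦχ _).symm.trans hx1) ((hΦχ _).symm.trans hy1) hχc
        rw [← hδ, ← hδ] at hform
        have hxy : x * y ∈ P := by
          rw [hP]
          refine ⟨mul_mem hxK hyK, ?_, ?_⟩
          · rw [show (⟨x * y, _⟩ : ↥(Subgroup.centralizer ({a, b} : Set G))) =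
              ⟨x, hxK⟩ * ⟨y, hyK⟩ from rfl, map_mul, hx1, hy1, one_mul]
          · rw [show (⟨x * y, _⟩ : ↥(Subgroup.centralizer ({a, b} : Set G))) =
              ⟨x, hxK⟩ * ⟨y, hyK⟩ from rfl, hδmul _ _ hx1, CfsgLib.Unitary.herm_add_left,
              CfsgLib.Unitary.herm_add_right (PSU62.card_sq hF),
              CfsgLib.Unitary.herm_add_right (PSU62.card_sq hF), hxi, hyi, hform, add_zero,
              zero_add, F4.add_self hF]
        refine hncm ?_
        have h1 := hPsq _ hxy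
        show x * y = y * x
        calc x * y = (x * y)⁻¹ := (inv_eq_of_mul_eq_one_right h1).symm
          _ = y * x := by
            rw [mul_inv_rev, inv_eq_of_mul_eq_one_right (hPsq x hx),
              inv_eq_of_mul_eq_one_right (hPsq y hy)]
      · exact Or.inl e
      · exact Or.inr e
    intro x hx y hy
    by_cases hc : Commute x y
    · exact Or.inl (commutatorElement_eq_one_iff_commute.2 hc)
    · refine Or.inr ((hpre x hx y hy hc).resolve_left fun e => ?_)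
      have hc' : ¬ Commute (g₀ * x * g₀⁻¹) (g₀ * y * g₀⁻¹) := fun h => hc (commute_conj_iff'.1 h)
      have e' : ⁅g₀ * x * g₀⁻¹, g₀ * y * g₀⁻¹⁆ = a := by
        rw [← hgb, ← e, commutatorElement_def, commutatorElement_def]; group
      rcases hpre _ (hPconj g₀ hgC x hx) _ (hPconj g₀ hgC y hy) hc' with h | h <;> rw [e'] at h
      · exact hne h
      · exact tt_ne_one hD hb.1 (mul_eq_left.1 h.symm)
  -- they generate
  have hgen : E ≤ Subgroup.closure P := by
    intro x hx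
    obtain ⟨hxK, hx1⟩ := (memE x).1 hx
    have key : ∃ z : ↥(Subgroup.centralizer ({a, b} : Set G)),
        Φ₀ z = 1 ∧ (z : G) ∈ Subgroup.closure P ∧ δ z = δ ⟨x, hxK⟩ := by
      refine add_closure hF (P := fun u => ∃ z : ↥(Subgroup.centralizer ({a, b} : Set G)),
        Φ₀ z = 1 ∧ (z : G) ∈ Subgroup.closure P ∧ δ z = u) ⟨1, map_one _, one_mem _, ?_⟩ ?_ ?_ _
      · rw [hδ, map_one, delta_one hF Co]
      · rintro u₁ u₂ ⟨z₁, h1, h2, rfl⟩ ⟨z₂, g1, g2, rfl⟩
        exact ⟨z₁ * z₂, by rw [map_mul, h1, g1, one_mul], mul_mem h2 g2, hδmul _ _ h1⟩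
      · intro u hu
        obtain ⟨T, -, -, hTk, hTd⟩ := exists_twist hF Co hu
        obtain ⟨z, rfl⟩ := hχs T
        have hz1 : Φ₀ z = 1 := (hΦχ z).trans hTk
        refine ⟨z, hz1, Subgroup.subset_closure ?_, (hδ z).trans hTd⟩
        rw [hP]
        exact ⟨z.2, hz1, by rw [show (⟨(z : G), z.2⟩ : ↥(Subgroup.centralizer ({a, b} : Set G))) = z
          from rfl, hδ, hTd]; exact hu⟩
    obtain ⟨z, hz1, hzP, hzd⟩ := key
    have hv : ((z⁻¹ * ⟨x, hxK⟩ : ↥(Subgroup.centralizer ({a, b} : Set G))) : G) ∈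
        Subgroup.closure ({a, b} : Set G) := by
      refine hδ0 _ (by rw [map_mul, map_inv, hz1, hx1, inv_one, one_mul]) ?_
      have e := hδmul z (z⁻¹ * ⟨x, hxK⟩) hz1
      rw [mul_inv_cancel_left, hzd, eq_comm, add_eq_left] at e
      exact e
    have := mul_mem hzP (Subgroup.subset_closure (hPV _ hv))
    simpa using this
  have hclE : Subgroup.closure P ≤ E := (Subgroup.closure_le _).2 hPE
  obtain ⟨Z, hZ⟩ : ∃ Z, Z = Subgroup.zpowers (a * b) := ⟨_, rfl⟩
  have habsq : (a * b) * (a * b) = 1 :=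
    hsqV _ (mul_mem (Subgroup.subset_closure (by simp)) (Subgroup.subset_closure (by simp)))
  have memZ : ∀ z, z ∈ Z ↔ z = 1 ∨ z = a * b := by
    intro z
    rw [hZ]
    constructor
    · intro h
      obtain ⟨k, rfl⟩ := Subgroup.mem_zpowers_iff.1 h
      rcases Int.even_or_odd k with ⟨j, rfl⟩ | ⟨j, rfl⟩
      · left; rw [zpow_add, ← (Commute.refl (a * b)).mul_zpow, habsq, one_zpow]
      · right
        rw [zpow_add, zpow_one, two_mul, zpow_add, ← (Commute.refl (a * b)).mul_zpow, habsq,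
          one_zpow, one_mul]
    · rintro (rfl | rfl)
      exacts [one_mem _, Subgroup.mem_zpowers _]
  have hZc : ∀ z ∈ Z, ∀ k ∈ E, Commute z k := by
    intro z hz k hk
    rcases (memZ z).1 hz with rfl | rfl
    · exact Commute.one_left k
    · exact hVc _ (mul_mem (Subgroup.subset_closure (by simp)) (Subgroup.subset_closure (by simp)))
        k (hEK hk)
  have hcomm : ∀ x ∈ E, ∀ y ∈ E, ⁅x, y⁆ ∈ Z := by
    have step : ∀ x ∈ P, ∀ y ∈ Subgroup.closure P, ⁅x, y⁆ ∈ Z := by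
      intro x hx y hy
      induction hy using Subgroup.closure_induction with
      | mem y hy => exact (memZ _).2 (hPcomm x hx y hy)
      | one => rw [commutatorElement_one_right]; exact one_mem _
      | mul y z hy hz h1 h2 =>
        rw [show ⁅x, y * z⁆ = ⁅x, y⁆ * (y * ⁅x, z⁆ * y⁻¹) by
          simp only [commutatorElement_def]; group, ← (hZc _ h2 y (hclE hy)).eq,
          mul_inv_cancel_right]
        exact mul_mem h1 h2
      | inv y hy h1 =>
        rw [show ⁅x, y⁻¹⁆ = y⁻¹ * ⁅x, y⁆⁻¹ * y by simp only [commutatorElement_def]; group,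
          ← (hZc _ (inv_mem h1) y⁻¹ (inv_mem (hclE hy))).eq, inv_mul_cancel_right]
        exact inv_mem h1
    intro x hx y hy
    have hx' := hgen hx
    clear hx
    induction hx' using Subgroup.closure_induction with
    | mem x hx => exact step x hx y (hgen hy)
    | one => rw [commutatorElement_one_left]; exact one_mem _
    | mul x z hx hz h1 h2 =>
      rw [show ⁅x * z, y⁆ = x * ⁅z, y⁆ * x⁻¹ * ⁅x, y⁆ by
        simp only [commutatorElement_def]; group, ← (hZc _ h2 x (hclE hx)).eq, mul_inv_cancel_right]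
      exact mul_mem h2 h1
    | inv x hx h1 =>
      rw [show ⁅x⁻¹, y⁆ = x⁻¹ * ⁅x, y⁆⁻¹ * x by simp only [commutatorElement_def]; group,
        ← (hZc _ (inv_mem h1) x⁻¹ (inv_mem (hclE hx))).eq, inv_mul_cancel_right]
      exact inv_mem h1
  have hsq : ∀ x ∈ E, x * x ∈ Z := by
    intro x hx
    have hx' := hgen hx
    clear hx
    induction hx' using Subgroup.closure_induction with
    | mem x hx => rw [hPsq x hx]; exact one_mem _
    | one => rw [one_mul]; exact one_mem _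
    | mul x y hx hy h1 h2 =>
      have hc := hcomm y (hclE hy) x (hclE hx)
      rw [show x * y * (x * y) = x * (⁅y, x⁆ * x) * (y * y) by
        simp only [commutatorElement_def]; group, (hZc _ hc x (hclE hx)).eq, ← mul_assoc x x]
      exact mul_mem (mul_mem h1 hc) h2
    | inv x _ h1 => rw [← mul_inv_rev]; exact inv_mem h1
  -- the self centralizing property
  have hself : C ⊓ Subgroup.centralizer (E : Set G) ≤ E := by
    rintro c ⟨hc, hcE⟩
    have hcm : ∀ x ∈ E, Commute x c := fun x hx => Subgroup.mem_centralizer_iff.1 hcE x hx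
    have hcK : c ∈ Subgroup.centralizer ({a, b} : Set G) :=
      mem_centralizer_pair.2 ⟨(hcm a haE).symm, (hcm b hbE).symm⟩
    refine (memE c).2 ⟨hcK, ?_⟩
    rw [hΦχ]
    refine res_eq_one_of_centralizes hF Co fun B hB' => ?_
    obtain ⟨k, rfl⟩ := hχs B
    have h : Commute (⟨c, hcK⟩ : ↥(Subgroup.centralizer ({a, b} : Set G))) k :=
      Subtype.ext (hcm k ((memE _).2 ⟨k.2, (hΦχ k).trans hB'⟩)).symm.eq
    exact h.map χ
  -- the action
  obtain ⟨Kc, hKc⟩ : ∃ Kc, Kc = (Subgroup.centralizer ({a, b} : Set G)).subgroupOf C := ⟨_, rfl⟩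
  haveI hKn : Kc.Normal := hKc ▸ Subgroup.normal_of_index_eq_two hindex
  obtain ⟨θ, hθ⟩ : ∃ θ : ↥Kc →* ↥(SU 4 M.F 2), ∀ (k : ↥Kc) (h : ((k : ↥C) : G) ∈
      Subgroup.centralizer ({a, b} : Set G)), θ k = Φ₀ ⟨((k : ↥C) : G), h⟩ := by
    refine ⟨MonoidHom.mk' (fun k => Φ₀ ⟨((k : ↥C) : G), (hKc ▸ k.2 : (k : ↥C) ∈
      (Subgroup.centralizer ({a, b} : Set G)).subgroupOf C)⟩) fun k l => ?_, fun k h => rfl⟩
    rw [← map_mul]; rfl
  have hKmem : ∀ k : ↥Kc, ((k : ↥C) : G) ∈ Subgroup.centralizer ({a, b} : Set G) := fun k =>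
    (hKc ▸ k.2 : (k : ↥C) ∈ (Subgroup.centralizer ({a, b} : Set G)).subgroupOf C)
  have hθs : Function.Surjective θ := by
    intro u
    obtain ⟨k, rfl⟩ := hΦs u
    refine ⟨⟨⟨(k : G), hKC k.2⟩, ?_⟩, hθ _ k.2⟩
    rw [hKc, Subgroup.mem_subgroupOf]
    exact k.2
  obtain ⟨Ψ, hΨ⟩ := exists_inv_action Kc θ hθs fun x k hk => by
    rw [hθ _ (hKmem _)]
    have h1 : ((k : ↥C) : G) ∈ E := (memE _).2 ⟨hKmem k, (hθ k (hKmem k)).symm.trans hk⟩
    exact ((memE _).1 (hEnorm (x : G) x.2 _ h1)).2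
  have hΨk : Ψ.ker = E.subgroupOf C := by
    ext x
    rw [MonoidHom.mem_ker, Subgroup.mem_subgroupOf]
    constructor
    · intro hx
      have hfix : ∀ (k : G) (hk : k ∈ Subgroup.centralizer ({a, b} : Set G))
          (hk' : (x : G) * k * (x : G)⁻¹ ∈ Subgroup.centralizer ({a, b} : Set G)),
          Φ₀ ⟨_, hk'⟩ = Φ₀ ⟨k, hk⟩ := by
        intro k hk hk'
        obtain ⟨kk, hkk⟩ : ∃ kk : ↥Kc, ((kk : ↥C) : G) = k :=
          ⟨⟨⟨k, hKC hk⟩, by rw [hKc, Subgroup.mem_subgroupOf]; exact hk⟩, rfl⟩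
        have := hΨ x kk
        rw [hx, MulAut.one_apply] at this
        rw [hθ _ (hKmem kk), hθ _ (hKmem _)] at this
        calc Φ₀ ⟨_, hk'⟩ = Φ₀ ⟨_, hKmem ((MulAut.conjNormal x : MulAut ↥Kc) kk)⟩ :=
              congrArg Φ₀ (Subtype.ext (by simp [MulAut.conjNormal_apply, hkk]))
          _ = Φ₀ ⟨_, hKmem kk⟩ := this.symm
          _ = Φ₀ ⟨k, hk⟩ := congrArg Φ₀ (Subtype.ext hkk)
      by_cases hxK : (x : G) ∈ Subgroup.centralizer ({a, b} : Set G)
      · refine (memE _).2 ⟨hxK, ?_⟩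
        have hcen : Φ₀ ⟨x, hxK⟩ ∈ Subgroup.center ↥(SU 4 M.F 2) := by
          rw [Subgroup.mem_center_iff]
          intro u
          obtain ⟨k, rfl⟩ := hΦs u
          have := hfix k k.2 (hconjK x x.2 k k.2)
          rw [show (⟨(x : G) * k * (x : G)⁻¹, hconjK x x.2 k k.2⟩ :
            ↥(Subgroup.centralizer ({a, b} : Set G))) = ⟨x, hxK⟩ * k * ⟨x, hxK⟩⁻¹ from rfl,
            map_mul, map_mul, map_inv, mul_inv_eq_iff_eq_mul] at this
          exact this.symm
        rwa [center_SU_four hF, Subgroup.mem_bot] at hcen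
      · exfalso
        have hsplit : (x : G)⁻¹ * g₀ ∈ Subgroup.centralizer ({a, b} : Set G) := by
          rcases hfact x x.2 with ⟨e1, e2⟩ | ⟨e1, e2⟩
          · exact absurd ((memK _).2 ⟨e1, e2⟩) hxK
          · rw [memK]
            constructor
            · rw [show (x : G)⁻¹ * g₀ * a * ((x : G)⁻¹ * g₀)⁻¹ =
                (x : G)⁻¹ * (g₀ * a * g₀⁻¹) * x by group, hga, ← e1]
              group
            · rw [show (x : G)⁻¹ * g₀ * b * ((x : G)⁻¹ * g₀)⁻¹ =
                (x : G)⁻¹ * (g₀ * b * g₀⁻¹) * x by group, hgb, ← e2]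
              group
        refine hswap (Φ₀ ⟨_, hsplit⟩) fun y hya hyb => ?_
        have hya' : g₀ * y * g₀⁻¹ ∈ nbr D a := by
          have := nbr_conj hG g₀ hyb; rwa [hgb] at this
        have hyb' : g₀ * y * g₀⁻¹ ∈ nbr D b := by
          have := nbr_conj hG g₀ hya; rwa [hga] at this
        have hk : (x : G)⁻¹ * g₀ * y * ((x : G)⁻¹ * g₀)⁻¹ ∈
            Subgroup.centralizer ({a, b} : Set G) :=
          mul_mem (mul_mem hsplit (hSK y hya hyb)) (inv_mem hsplit)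
        rw [← hΦy _ hya' hyb', ← hΦy _ hya hyb, ← map_mul, ← map_inv, ← map_mul]
        calc Φ₀ ⟨_, hSK _ hya' hyb'⟩ = Φ₀ ⟨_, hconjK x x.2 _ hk⟩ :=
              congrArg Φ₀ (Subtype.ext (show g₀ * y * g₀⁻¹ = _ by group))
          _ = Φ₀ ⟨_, hk⟩ := hfix _ hk _
          _ = _ := rfl
    · intro hxE
      obtain ⟨hxK, h1⟩ := (memE _).1 hxE
      ext u
      obtain ⟨k, rfl⟩ := hθs u
      rw [hΨ, MulAut.one_apply, hθ _ (hKmem _), hθ k (hKmem k),
        show (⟨_, hKmem ((MulAut.conjNormal x : MulAut ↥Kc) k)⟩ :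
          ↥(Subgroup.centralizer ({a, b} : Set G))) = ⟨x, hxK⟩ * ⟨_, hKmem k⟩ * ⟨x, hxK⟩⁻¹ from
            Subtype.ext (by simp [MulAut.conjNormal_apply]), map_mul, map_mul, map_inv, h1, one_mul,
        inv_one, mul_one]
  have hquot : ∃ (F : Type) (_ : Field F) (_ : Fintype F), Fintype.card F = 4 ∧
      ∃ Φ : ↥C →* MulAut (PSU 4 F 2), Function.Surjective Φ ∧ Φ.ker = E.subgroupOf C ∧
        Nat.card (MulAut (PSU 4 F 2)) = 51840 := by
    obtain ⟨e⟩ := su4_equiv_psu4 hF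
    obtain ⟨Φ, hΦ⟩ : ∃ Φ : ↥C →* MulAut (PSU 4 M.F 2), Φ = (MulAut.congr e).toMonoidHom.comp Ψ :=
      ⟨_, rfl⟩
    have hk : Φ.ker = E.subgroupOf C := by
      ext x
      rw [← hΨk, hΦ, MonoidHom.mem_ker, MonoidHom.mem_ker]
      exact (MulAut.congr e).map_eq_one_iff
    refine ⟨M.F, inferInstance, inferInstance, hF, Φ, ?_, hk, card_mulAut_psu4 hF⟩
    rw [← MonoidHom.range_eq_top]
    haveI : Finite (MulAut (PSU 4 M.F 2)) :=
      Finite.of_injective (fun e => (e : PSU 4 M.F 2 → PSU 4 M.F 2)) DFunLike.coe_injective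
    refine Subgroup.eq_top_of_card_eq _ ?_
    rw [card_mulAut_psu4 hF]
    have h1 := Subgroup.card_eq_card_quotient_mul_card_subgroup Φ.ker
    have hEC : E ≤ C := hEK.trans hKC
    rw [Nat.card_congr (QuotientGroup.quotientKerEquivRange Φ).toEquiv, hk,
      Nat.card_congr (Subgroup.subgroupOfEquivOfLe hEC).toEquiv, hcardE] at h1
    have h2 := Subgroup.card_mul_index ((Subgroup.centralizer ({a, b} : Set G)).subgroupOf C)
    rw [hindex, Nat.card_congr (Subgroup.subgroupOfEquivOfLe hKC).toEquiv] at h2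
    have h3 := card_centralizer_pair hG hp h22 ha hb
    omega
  have hmax : ∀ N : Subgroup ↥C, N.Normal → IsPGroup 2 N → N ≤ E.subgroupOf C := by
    intro N hN hN2
    haveI := hN
    have hin : N ⊓ Kc ≤ E.subgroupOf C := by
      obtain ⟨L, hL⟩ : ∃ L, L = ((N ⊓ Kc).subgroupOf Kc).map θ := ⟨_, rfl⟩
      haveI : L.Normal := hL ▸ (inferInstance : ((N ⊓ Kc).subgroupOf Kc).Normal).map θ hθs
      have h2 : IsPGroup 2 ↥((N ⊓ Kc).subgroupOf Kc) :=
        ((hN2.to_le inf_le_left).of_equiv (Subgroup.subgroupOfEquivOfLe inf_le_right).symm)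
      have hL1 := normal_twoGroup_su4_eq_bot hF L (hL ▸ h2.map θ)
      intro n hn
      rw [Subgroup.mem_subgroupOf]
      refine (memE _).2 ⟨hKmem ⟨n, hn.2⟩, ?_⟩
      have hm : θ ⟨n, hn.2⟩ ∈ L := hL ▸ ⟨_, hn, rfl⟩
      rw [hL1, Subgroup.mem_bot, hθ _ (hKmem ⟨n, hn.2⟩)] at hm
      exact hm
    intro n hn
    rw [← hΨk, MonoidHom.mem_ker]
    refine MulEquiv.ext fun u => ?_
    obtain ⟨k, rfl⟩ := hθs u
    rw [hΨ, MulAut.one_apply, ← mul_inv_eq_one, ← map_inv, ← map_mul]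
    have hm : n * (k : ↥C) * n⁻¹ * (k : ↥C)⁻¹ ∈ N ⊓ Kc := by
      refine Subgroup.mem_inf.2 ⟨?_, Kc.mul_mem (hKn.conj_mem _ k.2 n) (Kc.inv_mem k.2)⟩
      rw [show n * (k : ↥C) * n⁻¹ * (k : ↥C)⁻¹ = n * ((k : ↥C) * n⁻¹ * (k : ↥C)⁻¹) by group]
      exact mul_mem hn (hN.conj_mem _ (inv_mem hn) _)
    obtain ⟨h', h1⟩ := (memE _).1 (Subgroup.mem_subgroupOf.1 (hin hm))
    rw [hθ _ (hKmem _), ← h1]
    exact congrArg Φ₀ (Subtype.ext (by simp [MulAut.conjNormal_apply, mul_assoc]))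
  -- the complement
  have hsplit : ∃ M' : Subgroup G, M' ≤ E ∧ a ∉ M' ∧ (∀ x ∈ E, x ∈ M' ∨ x * a ∈ M') ∧
      Cfsg.IsExtraspecial 2 ↥M' ∧ Nat.card ↥M' = 2 ^ 9 := by
    have haZ : a ∉ Z := fun h => ((memZ a).1 h).elim (tt_ne_one hD ha)
      fun e => tt_ne_one hD hb.1 (mul_eq_left.1 e.symm)
    have habE : a * b ∈ E := mul_mem haE hbE
    obtain ⟨M', ⟨hME, hZM, haM⟩, hMmax⟩ :=
      Set.Finite.exists_maximal (Set.toFinite {M' : Subgroup G | M' ≤ E ∧ Z ≤ M' ∧ a ∉ M'})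
        ⟨Z, hZ ▸ Subgroup.zpowers_le.2 habE, le_rfl, haZ⟩
    have hcover : ∀ x ∈ E, x ∈ M' ∨ x * a ∈ M' := by
      intro x hx
      by_contra hcon
      push Not at hcon
      have hxm : ∀ m ∈ M', x * m * x⁻¹ ∈ M' := fun m hm => by
        rw [show x * m * x⁻¹ = ⁅x, m⁆ * m by simp only [commutatorElement_def]; group]
        exact mul_mem (hZM (hcomm x hx m (hME hm))) hm
      let S : Subgroup G :=
        { carrier := {z | z ∈ M' ∨ z * x ∈ M'}
          one_mem' := Or.inl (one_mem _)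
          inv_mem' := by
            rintro z (hz | hz)
            · exact Or.inl (inv_mem hz)
            · refine Or.inr ?_
              rw [show z⁻¹ * x = x * ((z * x)⁻¹ * (x * x)) * x⁻¹ * 1 by group, mul_one]
              exact hxm _ (mul_mem (inv_mem hz) (hZM (hsq x hx)))
          mul_mem' := by
            rintro y z (hy | hy) (hz | hz)
            · exact Or.inl (mul_mem hy hz)
            · exact Or.inr (by rw [mul_assoc]; exact mul_mem hy hz)
            · refine Or.inr ?_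
              rw [show y * z * x = y * x * (x * ((x * x)⁻¹ * z * (x * x)) * x⁻¹) by group]
              exact mul_mem hy (hxm _ (mul_mem (mul_mem (inv_mem (hZM (hsq x hx))) hz)
                (hZM (hsq x hx))))
            · refine Or.inl ?_
              rw [show y * z = y * x * (x * ((x * x)⁻¹ * (z * x)) * x⁻¹) by group]
              exact mul_mem hy (hxm _ (mul_mem (inv_mem (hZM (hsq x hx))) hz)) }
      have hSE : S ≤ E := by
        rintro z (hz | hz)
        · exact hME hz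
        · have := mul_mem (hME hz) (inv_mem hx); rwa [mul_inv_cancel_right] at this
      have hxS : x ∈ S := Or.inr (hZM (hsq x hx))
      by_cases haS : a ∈ S
      · rcases haS with h | h
        · exact haM h
        · refine hcon.2 ?_
          rwa [(hVc a (Subgroup.subset_closure (by simp)) x (hEK hx)).eq] at h
      · exact hcon.1 ((hMmax (y := S) ⟨hSE, hZM.trans fun z hz => Or.inl hz, haS⟩
          fun z hz => Or.inl hz) hxS)
    have hcard : Nat.card ↥M' = 2 ^ 9 := by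
      have h1 := Subgroup.card_mul_index (M'.subgroupOf E)
      have h2 : (M'.subgroupOf E).index = 2 := by
        rw [Subgroup.index_eq_two_iff]
        refine ⟨⟨a, haE⟩, fun x => ?_⟩
        simp only [Subgroup.mem_subgroupOf, Subgroup.coe_mul]
        rcases hcover x x.2 with h | h
        · exact Or.inr ⟨h, fun h' => haM (by
            have := mul_mem (inv_mem h) h'; rwa [inv_mul_cancel_left] at this)⟩
        · exact Or.inl ⟨h, fun h' => haM (by
            have := mul_mem (inv_mem h') h; rwa [inv_mul_cancel_left] at this)⟩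
      rw [h2, Nat.card_congr (Subgroup.subgroupOfEquivOfLe hME).toEquiv, hcardE] at h1
      omega
    have hbM : b ∉ M' := fun h => haM (by
      have := mul_mem (hZM ((memZ (a * b)).2 (Or.inr rfl))) h
      rwa [mul_assoc, tt_mul_self hD hb.1, mul_one] at this)
    have hcen : ∀ z : ↥M', z ∈ Subgroup.center ↥M' ↔ (z : G) = 1 ∨ (z : G) = a * b := by
      intro z
      constructor
      · intro hz
        obtain ⟨hzK, hz1⟩ := (memE _).1 (hME z.2)
        have hV : (z : G) ∈ Subgroup.closure ({a, b} : Set G) := by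
          refine hsmall ⟨z, hzK⟩ (hp' ▸ ker_center hF Co ((hΦχ _).symm.trans hz1) fun B hB' => ?_)
          obtain ⟨k, rfl⟩ := hχs B
          have hkE : (k : G) ∈ E := (memE _).2 ⟨k.2, (hΦχ k).trans hB'⟩
          have hza : Commute (z : G) a := (hVc a (Subgroup.subset_closure (by simp)) z hzK).symm
          have hzk : Commute (z : G) (k : G) := by
            rcases hcover k hkE with h | h
            · exact (congrArg Subtype.val (Subgroup.mem_center_iff.1 hz ⟨_, h⟩)).symm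
            · have h' : Commute (z : G) ((k : G) * a) :=
                (congrArg Subtype.val (Subgroup.mem_center_iff.1 hz ⟨_, h⟩)).symm
              have := h'.mul_right hza
              rwa [mul_assoc, tt_mul_self hD ha, mul_one] at this
          have hzk' : Commute (⟨(z : G), hzK⟩ : ↥(Subgroup.centralizer ({a, b} : Set G))) k :=
            Subtype.ext hzk.eq
          exact hzk'.map χ
        rcases (pair_mem_V hD ha hb.1 hab).1 hV with e | e | e | e
        · exact Or.inl e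
        · exact absurd (e ▸ z.2) haM
        · exact absurd (e ▸ z.2) hbM
        · exact Or.inr e
      · intro h
        rw [Subgroup.mem_center_iff]
        exact fun m => Subtype.ext (hZc _ ((memZ _).2 h) m (hME m.2)).eq.symm
    haveI : Fact (Nat.Prime 2) := ⟨Nat.prime_two⟩
    refine ⟨M', hME, haM, hcover, CfsgLib.PGroup.isExtraspecial_of (hE2.to_le hME) ?_ ?_ ?_ ?_, hcard⟩
    · have hset : (Subgroup.center ↥M' : Set ↥M') = {1, ⟨a * b, hZM ((memZ _).2 (Or.inr rfl))⟩} := by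
        ext z
        rw [SetLike.mem_coe, hcen, Set.mem_insert_iff, Set.mem_singleton_iff]
        exact or_congr ⟨fun h => Subtype.ext h, fun h => by rw [h]; rfl⟩
          ⟨fun h => Subtype.ext h, fun h => by rw [h]⟩
      rw [← SetLike.coe_sort_coe, Nat.card_coe_set_eq, hset, Set.ncard_pair]
      intro h
      have h' : a * b = 1 := (congrArg Subtype.val h).symm
      exact hne (by rw [← tt_inv hD hb.1]; exact eq_inv_of_mul_eq_one_left h')
    · by_contra hcon
      push Not at hcon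
      have htop : Subgroup.center ↥M' = ⊤ :=
        eq_top_iff.2 fun z _ => Subgroup.mem_center_iff.2 fun w => hcon w z
      have : Nat.card ↥M' ≤ 2 := by
        rw [← Subgroup.card_top (G := ↥M'), ← htop]
        have hsub : (Subgroup.center ↥M' : Set ↥M') ⊆ {1, ⟨a * b, hZM ((memZ _).2 (Or.inr rfl))⟩} :=
          fun z hz => ((hcen z).1 hz).elim (fun h => Or.inl (Subtype.ext h))
            fun h => Or.inr (Subtype.ext h)
        rw [← SetLike.coe_sort_coe, Nat.card_coe_set_eq]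
        exact (Set.ncard_le_ncard hsub (Set.toFinite _)).trans
          ((Set.ncard_insert_le _ _).trans (by rw [Set.ncard_singleton]))
      rw [hcard] at this
      norm_num at this
    · intro x y
      rw [hcen]
      exact (memZ _).1 (hcomm x (hME x.2) y (hME y.2))
    · intro x
      rw [hcen, SubmonoidClass.coe_pow, pow_two]
      exact (memZ _).1 (hsq x (hME x.2))
  refine ⟨E, ⟨hKC, hindex, hcenter, hVE, hEK, hΨk ▸ MonoidHom.normal_ker Ψ, hcardE,
    fun x hx => ?_, fun x hx y hy => (memZ _).1 (hcomm x hx y hy), hself, hmax, hquot, hsplit⟩⟩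
  rw [pow_two]; exact (memZ _).1 (hsq x hx)

end m22

end CfsgLib.ThreeTransp.Pair25
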