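import Mathlib
import Cfsg.Prelude.Def_FischerSpaces
import Cfsg.Agent.Eq.Def_FischerSpaces
import Cfsg.Agent.ThreeTransp.ClassBasic
import Cfsg.Agent.ThreeTransp.WidthOne

/-!
When commuting members are twins, a member normalises a Sylow 3-subgroup complementing the 2-core.
-/

set_option autoImplicit false

namespace CfsgLib.ThreeTransp

open Cfsg

variable {G : Type*} [Group G]

theorem eq_one_of_two_three {x : G} {a b : ℕ} (h1 : x ^ 2 ^ a = 1) (h2 : x ^ 3 ^ b = 1) :
    x = 1 := by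
  have := Nat.dvd_gcd (orderOf_dvd_of_pow_eq_one h1) (orderOf_dvd_of_pow_eq_one h2)
  rw [Nat.Coprime.gcd_eq_one (Nat.Coprime.pow a b (by norm_num)), Nat.dvd_one,
    orderOf_eq_one_iff] at this
  exact this

theorem eq_one_of_mem_two_three {A B : Subgroup G} (hA : IsPGroup 2 ↥A) (hB : IsPGroup 3 ↥B)
    {x : G} (ha : x ∈ A) (hb : x ∈ B) : x = 1 := by
  obtain ⟨i, hi⟩ := hA ⟨x, ha⟩
  obtain ⟨j, hj⟩ := hB ⟨x, hb⟩
  exact eq_one_of_two_three (a := i) (b := j) (by simpa using congrArg Subtype.val hi)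
    (by simpa using congrArg Subtype.val hj)

theorem mem_of_pow_mem_of_pow_eq_one {H : Subgroup G} {x : G} {a b : ℕ}
    (h1 : x ^ 2 ^ a ∈ H) (h2 : x ^ 3 ^ b = 1) : x ∈ H := by
  have hco : Nat.Coprime (2 ^ a) (3 ^ b) := Nat.Coprime.pow a b (by norm_num)
  have hb := Nat.gcd_eq_gcd_ab (2 ^ a) (3 ^ b)
  rw [hco.gcd_eq_one] at hb
  rw [← zpow_one x, show (1 : ℤ) = _ from hb, zpow_add, zpow_mul, zpow_mul, zpow_natCast,
    zpow_natCast, h2, one_zpow, mul_one]
  exact Subgroup.zpow_mem _ h1 _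

/-- A commuting-implies-twins class: a member normalises a Sylow 3-subgroup supplementing the
2-core. -/
theorem exists_normalized_sylow_three [Finite G] {D : Set G} (hG : IsThreeTranspositionGroup D)
    (hs : SingleClass D) (htw : ∀ a ∈ D, ∀ b ∈ D, Commute a b → AreTwins D a b) {d b₀ : G}
    (hd : d ∈ D) (hb₀ : b₀ ∈ D) (hdb : ¬ Commute d b₀) :
    ∃ P : Sylow 3 G, d ∈ Subgroup.normalizer (P : Set G) ∧
      Subgroup.zpowers d ⊔ (P : Subgroup G) ⊔ Cfsg.pCore 2 G = ⊤ := by
  classical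
  haveI : Fact (Nat.Prime 2) := ⟨Nat.prime_two⟩
  haveI : Fact (Nat.Prime 3) := ⟨Nat.prime_three⟩
  have hD := hG.1
  have hQ : IsPGroup 2 ↥(Cfsg.pCore 2 G) := Constrained.isPGroup_pCore
  let f := QuotientGroup.mk' (Cfsg.pCore 2 G)
  have hf : Function.Surjective f := QuotientGroup.mk'_surjective _
  have hker : ∀ z, f z = 1 ↔ z ∈ Cfsg.pCore 2 G := fun z => QuotientGroup.eq_one_iff z
  -- two members have the same image exactly when they commute
  have hcube : ∀ {a b : G}, a ∈ D → b ∈ D → ¬ Commute a b → (a * b) ^ 3 = 1 := by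
    intro a b ha hb h
    refine (hD.2 a ha b hb).resolve_left fun h' => h ?_
    show a * b = b * a
    rw [pow_two] at h'
    rw [eq_inv_of_mul_eq_one_left h', mul_inv_rev, tt_inv hD ha, tt_inv hD hb]
  have hne : ∀ {a b : G}, a ∈ D → b ∈ D → ¬ Commute a b → f a ≠ f b := by
    intro a b ha hb h e
    have hm : a * b ∈ Cfsg.pCore 2 G := by
      rw [← hker, map_mul, e, ← map_mul, tt_mul_self hD hb, map_one]
    obtain ⟨i, hi⟩ := hQ ⟨a * b, hm⟩
    have h1 := eq_one_of_two_three (a := i) (b := 1) (by simpa using congrArg Subtype.val hi)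
      (by rw [pow_one]; exact hcube ha hb h)
    exact h ((eq_inv_of_mul_eq_one_left h1).trans (tt_inv hD hb) ▸ Commute.refl b)
  have heq : ∀ {a b : G}, a ∈ D → b ∈ D → Commute a b → f a = f b := by
    intro a b ha hb h
    have := (hker _).2 (twins_mul_mem_pCore hG (htw a ha b hb h))
    rw [map_mul] at this
    rw [eq_inv_of_mul_eq_one_left this, ← map_inv, tt_inv hD hb]
  have hne1 : ∀ a ∈ D, f a ≠ 1 := by
    intro a ha h1
    have hz : ∀ z ∈ D, f z = 1 := fun z hz => by
      obtain ⟨g, hg⟩ := hs a ha z hz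
      rw [← hg, map_mul, map_mul, h1, mul_one, ← map_mul, mul_inv_cancel, map_one]
    exact hne hd hb₀ hdb ((hz d hd).trans (hz b₀ hb₀).symm)
  have hT : IsThreeTranspositionGroup (f '' D) := by
    refine ⟨⟨?_, ?_⟩, ?_, ?_⟩
    · rintro _ ⟨x, hx, rfl⟩
      exact orderOf_eq_prime (by rw [pow_two, ← map_mul, tt_mul_self hD hx, map_one]) (hne1 x hx)
    · rintro _ ⟨x, hx, rfl⟩ _ ⟨y, hy, rfl⟩
      rcases hD.2 x hx y hy with h | h
      · exact Or.inl (by rw [← map_mul, ← map_pow, h, map_one])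
      · exact Or.inr (by rw [← map_mul, ← map_pow, h, map_one])
    · rintro g _ ⟨x, hx, rfl⟩
      obtain ⟨g, rfl⟩ := hf g
      exact ⟨g * x * g⁻¹, hG.2.1 g x hx, by simp⟩
    · rw [← MonoidHom.map_closure, hG.2.2, Subgroup.map_top_of_surjective _ hf]
  have hw : WidthOne (f '' D) := by
    rintro _ ⟨x, hx, rfl⟩ _ ⟨y, hy, rfl⟩ hc
    by_cases h : Commute x y
    · exact heq hx hy h
    · exfalso
      have h2' : f (x * y) ^ 2 = 1 := by
        rw [map_mul, hc.mul_pow, pow_two, pow_two, ← map_mul, ← map_mul, tt_mul_self hD hx,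
          tt_mul_self hD hy, map_one, mul_one]
      have h3' : f (x * y) ^ 3 = 1 := by rw [← map_pow, hcube hx hy h, map_one]
      rw [pow_succ, h2', one_mul, map_mul] at h3'
      exact hne hx hy h (by rw [eq_inv_of_mul_eq_one_left h3', ← map_inv, tt_inv hD hy])
  obtain ⟨Pb, hPb⟩ : ∃ Pb, Cfsg.pCore 3 (G ⧸ Cfsg.pCore 2 G) = Pb := ⟨_, rfl⟩
  have hPb3 : IsPGroup 3 ↥Pb := hPb ▸ Constrained.isPGroup_pCore
  haveI hPbn : Pb.Normal := hPb ▸ inferInstance
  have hprod : ∀ {a b : G}, a ∈ D → b ∈ D → f (a * b) ∈ Pb := fun {a b} ha hb => by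
    rw [map_mul, ← hPb]; exact hw.mul_mem_pCore hT ⟨a, ha, rfl⟩ ⟨b, hb, rfl⟩
  have hinj : ∀ {A : Subgroup G}, IsPGroup 3 ↥A → ∀ x ∈ A, ∀ y ∈ A, f x = f y → x = y := by
    intro A hA x hx y hy h
    have hm : x⁻¹ * y ∈ Cfsg.pCore 2 G := by rw [← hker, map_mul, map_inv, h, inv_mul_cancel]
    exact inv_mul_eq_one.1 (eq_one_of_mem_two_three hQ hA hm (A.mul_mem (A.inv_mem hx) hy))
  have hdd := tt_mul_self hD hd
  have hdi := tt_inv hD hd
  -- the candidate subgroups
  let S : Set (Subgroup G) := {R | IsPGroup 3 ↥R ∧ d ∈ Subgroup.normalizer (R : Set G) ∧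
    R.map f ≤ Pb ∧ d * b₀ ∈ R}
  have norm_zp : ∀ {u : G}, d * u * d⁻¹ = u⁻¹ ∨ d * u * d⁻¹ = u →
      d ∈ Subgroup.normalizer ((Subgroup.zpowers u : Subgroup G) : Set G) := by
    intro u hu
    rw [Subgroup.mem_normalizer_iff]
    intro x
    have key : ∀ y : G, y ∈ Subgroup.zpowers u → d * y * d⁻¹ ∈ Subgroup.zpowers u := by
      rintro _ ⟨n, rfl⟩
      show d * u ^ n * d⁻¹ ∈ _
      rw [← conj_zpow]
      rcases hu with hu | hu <;> rw [hu]
      · exact Subgroup.zpow_mem _ (Subgroup.inv_mem _ (Subgroup.mem_zpowers u)) n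
      · exact Subgroup.zpow_mem _ (Subgroup.mem_zpowers u) n
    refine ⟨key x, fun h => ?_⟩
    have := key _ h
    rwa [show d * (d * x * d⁻¹) * d⁻¹ = x by
      rw [hdi]; simp only [mul_assoc, tt_cancel_left hD hd, hdd, mul_one]] at this
  have three_zp : ∀ {u : G} {k : ℕ}, u ^ 3 ^ k = 1 → IsPGroup 3 ↥(Subgroup.zpowers u) := by
    intro u k h
    obtain ⟨j, -, hj⟩ := (Nat.dvd_prime_pow Nat.prime_three).1 (orderOf_dvd_of_pow_eq_one h)
    exact IsPGroup.of_card (n := j) (by rw [Nat.card_zpowers, hj])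
  have hu₀ : Subgroup.zpowers (d * b₀) ∈ S := by
    refine ⟨three_zp (k := 1) (by rw [pow_one]; exact hcube hd hb₀ hdb), norm_zp (Or.inl ?_), ?_,
      Subgroup.mem_zpowers _⟩
    · rw [hdi, mul_inv_rev, hdi, tt_inv hD hb₀, ← mul_assoc d d b₀, hdd, one_mul]
    · rw [MonoidHom.map_zpowers, Subgroup.zpowers_le]; exact hprod hd hb₀
  obtain ⟨R, hRS, hmax⟩ := (Set.toFinite S).exists_maximal ⟨_, hu₀⟩
  obtain ⟨hR3, hdR, hRle, hu₀R⟩ := hRS
  have grow : ∀ u : G, u ∈ Subgroup.normalizer (R : Set G) → (∃ k : ℕ, u ^ 3 ^ k = 1) →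
      (d * u * d⁻¹ = u⁻¹ ∨ d * u * d⁻¹ = u) → f u ∈ Pb → f u ∈ R.map f := by
    intro u hu hk hcases hmem
    obtain ⟨k, hk⟩ := hk
    by_contra hnot
    have hle : Subgroup.zpowers u ≤ Subgroup.normalizer (R : Set G) := Subgroup.zpowers_le.2 hu
    have hnew : Subgroup.zpowers u ⊔ R ∈ S := by
      refine ⟨(three_zp hk).to_sup_of_normal_right' hR3 hle, ?_, ?_, Subgroup.mem_sup_right hu₀R⟩
      · have h1 := norm_zp hcases
        rw [Subgroup.mem_normalizer_iff] at h1 ⊢
        have hdR' := hdR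
        rw [Subgroup.mem_normalizer_iff] at hdR'
        have key : ∀ y ∈ Subgroup.zpowers u ⊔ R, d * y * d⁻¹ ∈ Subgroup.zpowers u ⊔ R := by
          intro y hy
          have hc : Subgroup.zpowers u ⊔ R ≤
              (Subgroup.zpowers u ⊔ R).comap (MulAut.conj d).toMonoidHom :=
            sup_le (fun z hz => Subgroup.mem_sup_left ((h1 z).1 hz))
              (fun z hz => Subgroup.mem_sup_right ((hdR' z).1 hz))
          exact hc hy
        intro y
        refine ⟨key y, fun h => ?_⟩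
        have := key _ h
        rwa [show d * (d * y * d⁻¹) * d⁻¹ = y by
          rw [hdi]; simp only [mul_assoc, tt_cancel_left hD hd, hdd, mul_one]] at this
      · rw [Subgroup.map_sup, MonoidHom.map_zpowers]
        exact sup_le (Subgroup.zpowers_le.2 hmem) hRle
    exact hnot ⟨u, hmax hnew le_sup_right (Subgroup.mem_sup_left (Subgroup.mem_zpowers u)), rfl⟩
  have hRP : R.map f = Pb := by
    refine le_antisymm hRle ?_
    by_contra hcon
    -- the normalizer grows in the 3-group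
    have hnt : (R.map f).subgroupOf Pb < ⊤ := by
      rw [lt_top_iff_ne_top, Ne, Subgroup.subgroupOf_eq_top]; exact hcon
    haveI : Group.IsNilpotent ↥Pb := hPb3.isNilpotent
    obtain ⟨y, hyN, hyR⟩ := SetLike.exists_of_lt
      (Group.normalizerCondition_of_isNilpotent _ hnt)
    rw [Subgroup.mem_normalizer_iff] at hyN
    have hy1 : ∀ z ∈ R.map f, (y : G ⧸ Cfsg.pCore 2 G) * z * (y : G ⧸ Cfsg.pCore 2 G)⁻¹ ∈ R.map f :=
      fun z hz => (hyN ⟨z, hRle hz⟩).1 hz
    obtain ⟨g, hg⟩ := hf (y : G ⧸ Cfsg.pCore 2 G)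
    obtain ⟨L, hL⟩ : ∃ L, (R.map f).comap f = L := ⟨_, rfl⟩
    have same : ∀ A : Subgroup G, IsPGroup 3 ↥A → R ≤ A → A ≤ L → A = R := by
      intro A hA hRA hAL
      refine le_antisymm (fun a ha => ?_) hRA
      obtain ⟨r, hr, hfr⟩ : f a ∈ R.map f := by
        have := hAL ha; rw [← hL] at this; exact this
      rwa [← hinj hA r (hRA hr) a ha hfr]
    have hRL : R ≤ L := hL ▸ Subgroup.le_comap_map f R
    obtain ⟨R', hR'⟩ : ∃ R', R.map (MulAut.conj g).toMonoidHom = R' := ⟨_, rfl⟩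
    have hR'L : R' ≤ L := by
      rw [← hR', ← hL]
      rintro _ ⟨r, hr, rfl⟩
      show f (g * r * g⁻¹) ∈ R.map f
      rw [map_mul, map_mul, map_inv, hg]
      exact hy1 _ ⟨r, hr, rfl⟩
    obtain ⟨T, hT'⟩ := (hR3.of_equiv (Subgroup.subgroupOfEquivOfLe hRL).symm).exists_le_sylow
    have hR'3 : IsPGroup 3 ↥R' := hR' ▸ hR3.map _
    obtain ⟨T', hT''⟩ := (hR'3.of_equiv (Subgroup.subgroupOfEquivOfLe hR'L).symm).exists_le_sylow
    obtain ⟨l, hl⟩ := MulAction.exists_smul_eq ↥L T' T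
    have hTR : ((T : Subgroup ↥L).map L.subtype) = R :=
      same _ (T.isPGroup'.map _)
        (fun r hr => ⟨⟨r, hRL hr⟩, hT' (Subgroup.mem_subgroupOf.2 hr), rfl⟩)
        (Subgroup.map_subtype_le _)
    obtain ⟨m, hm⟩ : ∃ m, (l : G) * g = m := ⟨_, rfl⟩
    have hfm : f m ∈ Pb ∧ f m ∉ R.map f := by
      obtain ⟨r, hr, hfr⟩ : f (l : G) ∈ R.map f := by
        exact (SetLike.ext_iff.1 hL (l : G)).2 l.2
      have e : f m = f r * (y : G ⧸ Cfsg.pCore 2 G) := by rw [← hm, map_mul, hg, hfr]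
      refine ⟨e ▸ Subgroup.mul_mem _ (hRle ⟨r, hr, rfl⟩) y.2, fun h => hyR ?_⟩
      rw [e] at h
      exact Subgroup.mem_subgroupOf.2 ((Subgroup.mul_mem_cancel_left _ (Subgroup.mem_map_of_mem f hr)).1 h)
    have hmN : m ∈ Subgroup.normalizer (R : Set G) := by
      have himg : R.map (MulAut.conj m).toMonoidHom ≤ R := by
        rintro _ ⟨r, hr, rfl⟩
        rw [← hTR]
        have h1 : g * r * g⁻¹ ∈ R' := hR' ▸ ⟨r, hr, rfl⟩
        refine ⟨l * ⟨_, hR'L h1⟩ * l⁻¹, ?_, ?_⟩
        · rw [SetLike.mem_coe, ← hl, Sylow.coe_subgroup_smul]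
          exact ⟨_, hT'' (Subgroup.mem_subgroupOf.2 h1), rfl⟩
        · show (l : G) * (g * r * g⁻¹) * (l : G)⁻¹ = m * r * m⁻¹
          rw [← hm]; simp only [mul_assoc, mul_inv_rev]
      have heq' := Subgroup.eq_of_le_of_card_ge himg (Subgroup.card_map_of_injective (MulAut.conj m).injective).ge
      rw [Subgroup.mem_normalizer_iff]
      intro x
      constructor
      · exact fun hx => heq'.le ⟨x, hx, rfl⟩
      · intro hx
        obtain ⟨x', hx', e⟩ := heq'.ge hx
        have : x' = x := (MulAut.conj m).injective e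
        exact this ▸ hx'
    have hdN := hdR
    obtain ⟨b, hb⟩ : ∃ b, m * d * m⁻¹ = b := ⟨_, rfl⟩
    have hbD : b ∈ D := hb ▸ hG.2.1 m d hd
    have hbN : b ∈ Subgroup.normalizer (R : Set G) :=
      hb ▸ Subgroup.mul_mem _ (Subgroup.mul_mem _ hmN hdN) (Subgroup.inv_mem _ hmN)
    have hdbinv : d * (d * b) * d⁻¹ = (d * b)⁻¹ := by
      rw [hdi, mul_inv_rev, hdi, tt_inv hD hbD, ← mul_assoc d d b, hdd, one_mul]
    by_cases hcase : f (d * b) ∈ R.map f
    swap
    · refine hcase (grow _ (Subgroup.mul_mem _ hdN hbN) ?_ (Or.inl hdbinv) (hprod hd hbD))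
      by_cases hc : Commute d b
      · exact absurd (by rw [map_mul, heq hd hbD hc, ← map_mul, tt_mul_self hD hbD, map_one]
                         exact Subgroup.one_mem _) hcase
      · exact ⟨1, by rw [pow_one]; exact hcube hd hbD hc⟩
    obtain ⟨r, hr, hfr⟩ := hcase
    have hRn : ∀ {z s : G}, z ∈ Subgroup.normalizer (R : Set G) → s ∈ R → z * s * z⁻¹ ∈ R :=
      fun {z s} hz hs => (Subgroup.mem_normalizer_iff.1 hz s).1 hs
    -- the involution `d * r` of `⟨d⟩ R` over the image of `b`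
    have hxx : d * r * (d * r) = 1 := by
      refine eq_one_of_mem_two_three hQ hR3 ?_ ?_
      · rw [← hker, map_mul, map_mul, hfr, map_mul, ← mul_assoc (f d) (f d), ← map_mul f d d, hdd,
          map_one, one_mul, ← map_mul, tt_mul_self hD hbD, map_one]
      · rw [show d * r * (d * r) = d * r * d⁻¹ * r by rw [hdi]; simp only [mul_assoc]]
        exact R.mul_mem (hRn hdN hr) hr
    have hodd : Odd (orderOf (d * (d * r))) := by
      rw [← mul_assoc, hdd, one_mul]
      obtain ⟨k, hk⟩ := hR3 ⟨r, hr⟩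
      have hk' : r ^ 3 ^ k = 1 := by simpa using congrArg Subtype.val hk
      exact Odd.of_dvd_nat ((by decide : Odd 3).pow) (orderOf_dvd_of_pow_eq_one hk')
    obtain ⟨h, hh, hhd⟩ := CfsgLib.OddProducts.exists_conj_of_odd hdd hxx hodd
    rw [← mul_assoc, hdd, one_mul] at hh
    have hhR : h ∈ R := Subgroup.zpowers_le.2 hr hh
    have hxD : d * r ∈ D := by
      have := hG.2.1 h⁻¹ d hd
      rwa [show h⁻¹ * d * h⁻¹⁻¹ = d * r by
        conv_lhs => rw [← hhd]
        simp only [mul_assoc, inv_inv, inv_mul_cancel_left, inv_mul_cancel, mul_one]] at this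
    obtain ⟨x, hx⟩ : ∃ x, d * r = x := ⟨_, rfl⟩
    rw [hx] at hxD
    have hRN : R ≤ Subgroup.normalizer (R : Set G) := Subgroup.le_normalizer
    have hxN : x ∈ Subgroup.normalizer (R : Set G) := hx ▸ Subgroup.mul_mem _ hdN (hRN hr)
    have hfx : f x = f b := by
      rw [← hx, map_mul, hfr, ← map_mul, ← mul_assoc, hdd, one_mul]
    obtain ⟨q, hq⟩ : ∃ q, x * b = q := ⟨_, rfl⟩
    have hqQ : q ∈ Cfsg.pCore 2 G := by
      rw [← hker, ← hq, map_mul, hfx, ← map_mul, tt_mul_self hD hbD, map_one]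
    have hqN : q ∈ Subgroup.normalizer (R : Set G) := hq ▸ Subgroup.mul_mem _ hxN hbN
    have hqR : ∀ s ∈ R, Commute q s := by
      intro s hs
      have h1 : q * s * q⁻¹ * s⁻¹ = 1 := by
        refine eq_one_of_mem_two_three hQ hR3 ?_ (R.mul_mem (hRn hqN hs) (R.inv_mem hs))
        rw [mul_assoc q s q⁻¹, mul_assoc q (s * q⁻¹) s⁻¹]
        exact Subgroup.mul_mem _ hqQ
          ((inferInstance : (Cfsg.pCore 2 G).Normal).conj_mem _ (Subgroup.inv_mem _ hqQ) s)
      exact mul_inv_eq_iff_eq_mul.1 (mul_inv_eq_one.1 h1)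
    -- a member of `⟨d⟩ R` with another image
    obtain ⟨e, heD, re, hre, he, hex⟩ : ∃ e ∈ D, ∃ re ∈ R, e = d * re ∧ f e ≠ f x := by
      by_cases h1 : f d = f x
      · refine ⟨b₀, hb₀, d * b₀, hu₀R, by rw [← mul_assoc, hdd, one_mul], fun h2 => ?_⟩
        exact hne hd hb₀ hdb (h1.trans h2.symm)
      · exact ⟨d, hd, 1, R.one_mem, (mul_one d).symm, h1⟩
    have hexR : e * x ∈ R := by
      rw [he, ← hx, show d * re * (d * r) = d * re * d⁻¹ * r by rw [hdi]; simp only [mul_assoc]]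
      exact R.mul_mem (hRn hdN hre) hr
    have hne_ex : ¬ Commute e x := fun hc => hex (heq heD hxD hc)
    have hne_eb : ¬ Commute e b := fun hc => hex ((heq heD hbD hc).trans hfx.symm)
    have hq1 : q = 1 := by
      have h1 : e * b = e * x * q := by
        rw [← hq, mul_assoc e x, ← mul_assoc x x b, tt_mul_self hD hxD, one_mul]
      have h2 := hcube heD hbD hne_eb
      rw [h1, (hqR _ hexR).symm.mul_pow, hcube heD hxD hne_ex, one_mul] at h2
      obtain ⟨i, hi⟩ := hQ ⟨q, hqQ⟩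
      exact eq_one_of_two_three (a := i) (b := 1) (by simpa using congrArg Subtype.val hi)
        (by rw [pow_one]; exact h2)
    have hbx : b = x := by
      have h1 : x * b = 1 := hq.trans hq1
      exact (eq_inv_of_mul_eq_one_right h1).trans (tt_inv hD hxD)
    -- so some element over `f m` centralises `d`
    obtain ⟨m', hm'⟩ : ∃ m', h * m = m' := ⟨_, rfl⟩
    have hm'd : Commute m' d := by
      show m' * d = d * m'
      rw [← mul_inv_eq_iff_eq_mul, ← hm', mul_inv_rev,
        show h * m * d * (m⁻¹ * h⁻¹) = h * (m * d * m⁻¹) * h⁻¹ by simp only [mul_assoc], hb, hbx,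
        ← hx, hhd]
    have hm'N : m' ∈ Subgroup.normalizer (R : Set G) := hm' ▸ Subgroup.mul_mem _ (hRN hhR) hmN
    have hfm' : f m' ∈ Pb ∧ f m' ∉ R.map f := by
      rw [← hm', map_mul]
      exact ⟨Subgroup.mul_mem _ (hRle ⟨h, hhR, rfl⟩) hfm.1,
        fun h' => hfm.2 ((Subgroup.mul_mem_cancel_left _ (Subgroup.mem_map_of_mem f hhR)).1 h')⟩
    obtain ⟨j, hj⟩ := hPb3 ⟨f m', hfm'.1⟩
    have hj' : f m' ^ 3 ^ j = 1 := by simpa using congrArg Subtype.val hj
    obtain ⟨i, hi⟩ := hQ ⟨m' ^ 3 ^ j, (hker _).1 (by rw [map_pow, hj'])⟩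
    have hi' : (m' ^ 3 ^ j) ^ 2 ^ i = 1 := by simpa using congrArg Subtype.val hi
    have hu := grow (m' ^ 2 ^ i) (Subgroup.pow_mem _ hm'N _)
      ⟨j, by rw [← pow_mul, mul_comm, pow_mul]; exact hi'⟩
      (Or.inr (by rw [← (hm'd.pow_left _).eq, mul_inv_cancel_right]))
      (by rw [map_pow]; exact Subgroup.pow_mem _ hfm'.1 _)
    rw [map_pow] at hu
    exact hfm'.2 (mem_of_pow_mem_of_pow_eq_one hu hj')
  obtain ⟨T, hRT⟩ := hR3.exists_le_sylow
  have hTR : (T : Subgroup G) = R := by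
    refine le_antisymm (fun t ht => ?_) hRT
    have hp := (T.isPGroup'.map f).to_sup_of_normal_right hPb3
    obtain ⟨j, hj⟩ := hp ⟨f t, Subgroup.mem_sup_left ⟨t, ht, rfl⟩⟩
    have hft : f t ∈ Pb := by
      by_contra hft
      have hcl : ∀ z : G, f z ∈ Pb ∨ f (z * d) ∈ Pb := by
        intro z
        have hz : z ∈ Subgroup.closure D := hG.2.2 ▸ Subgroup.mem_top z
        induction hz using Subgroup.closure_induction_left with
        | one => exact Or.inl (by rw [map_one]; exact Subgroup.one_mem _)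
        | mul_left a ha z _ ih =>
          rcases ih with ih | ih
          · right
            rw [show a * z * d = (a * z * a⁻¹) * (a * d) by
              simp only [mul_assoc, inv_mul_cancel_left], map_mul]
            refine Subgroup.mul_mem _ ?_ (hprod ha hd)
            rw [map_mul, map_mul, map_inv]
            exact hPbn.conj_mem _ ih (f a)
          · left
            rw [show a * z = (a * (z * d) * a⁻¹) * (a * d) by
              simp only [mul_assoc, inv_mul_cancel_left, hdd, mul_one], map_mul]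
            refine Subgroup.mul_mem _ ?_ (hprod ha hd)
            rw [map_mul f (a * (z * d)), map_mul f a, map_inv]
            exact hPbn.conj_mem _ ih (f a)
        | inv_mul_cancel a ha z _ ih =>
          rw [tt_inv hD ha]
          rcases ih with ih | ih
          · right
            rw [show a * z * d = (a * z * a⁻¹) * (a * d) by
              simp only [mul_assoc, inv_mul_cancel_left], map_mul]
            refine Subgroup.mul_mem _ ?_ (hprod ha hd)
            rw [map_mul, map_mul, map_inv]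
            exact hPbn.conj_mem _ ih (f a)
          · left
            rw [show a * z = (a * (z * d) * a⁻¹) * (a * d) by
              simp only [mul_assoc, inv_mul_cancel_left, hdd, mul_one], map_mul]
            refine Subgroup.mul_mem _ ?_ (hprod ha hd)
            rw [map_mul f (a * (z * d)), map_mul f a, map_inv]
            exact hPbn.conj_mem _ ih (f a)
      have h1 := (hcl t).resolve_left hft
      rw [map_mul] at h1
      have hdm : f d ∈ (T : Subgroup G).map f ⊔ Pb := by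
        have := Subgroup.mul_mem _ (Subgroup.inv_mem _ (Subgroup.mem_sup_left (T := Pb)
          (Subgroup.mem_map_of_mem f ht))) (Subgroup.mem_sup_right h1)
        rwa [inv_mul_cancel_left] at this
      obtain ⟨k, hk⟩ := hp ⟨f d, hdm⟩
      exact hne1 d hd (eq_one_of_two_three (a := 1) (b := k)
        (by rw [pow_one, pow_two, ← map_mul, hdd, map_one]) (by simpa using congrArg Subtype.val hk))
    rw [← hRP] at hft
    obtain ⟨r, hr, hfr⟩ := hft
    rwa [← hinj T.isPGroup' r (hRT hr) t ht hfr]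
  refine ⟨T, by rw [show ((T : Set G)) = (R : Set G) from congrArg SetLike.coe hTR]; exact hdR, ?_⟩
  rw [eq_top_iff, ← hG.2.2]
  refine (Subgroup.closure_le _).2 fun x hx => ?_
  obtain ⟨r, hr, hfr⟩ : f (x * d) ∈ R.map f := hRP ▸ hprod hx hd
  have hm : r⁻¹ * (x * d) ∈ Cfsg.pCore 2 G := by rw [← hker, map_mul, map_inv, hfr, inv_mul_cancel]
  rw [show x = r * (r⁻¹ * (x * d)) * d by
    simp only [mul_assoc, mul_inv_cancel_left, hdd, mul_one]]
  exact Subgroup.mul_mem _ (Subgroup.mul_mem _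
    (Subgroup.mem_sup_left (Subgroup.mem_sup_right (hTR.symm ▸ hr))) (Subgroup.mem_sup_right hm))
    (Subgroup.mem_sup_left (Subgroup.mem_sup_left (Subgroup.mem_zpowers d)))

end CfsgLib.ThreeTransp
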