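import Mathlib
import Cfsg.Prelude.Def_FischerSpaces
import Cfsg.Agent.Eq.Def_FischerSpaces
import Cfsg.Agent.ThreeTransp.Planes

/-! The involutions of the points of a Fischer space are automorphisms and 3-transpositions. -/

set_option autoImplicit false

namespace CfsgLib.ThreeTransp

open Cfsg

variable {X : Type*} {L : Set (Set X)}

/-- The value of the point map on a line through the point. -/
theorem lineMap_eq (hP : LineSystem.IsPartialLinear L) {x y z : X} (hl : ({x, y, z} : Set X) ∈ L)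
    (hxy : x ≠ y) (hzx : z ≠ x) (hzy : z ≠ y) : LineSystem.lineMap L x y = z := by
  have h : ∃ w : X, w ≠ x ∧ w ≠ y ∧ x ≠ y ∧ ({x, y, w} : Set X) ∈ L := ⟨z, hzx, hzy, hxy, hl⟩
  simp only [LineSystem.lineMap, dif_pos h]
  obtain ⟨h1, h2, -, h4⟩ := h.choose_spec
  have he := hP _ h4 _ hl x y hxy (by simp) (by simp) (by simp) (by simp)
  have hm : h.choose ∈ ({x, y, z} : Set X) := he ▸ (by simp)
  simp only [Set.mem_insert_iff, Set.mem_singleton_iff] at hm
  tauto

theorem exists_triple (h3 : ∀ l ∈ L, l.ncard = 3) {l : Set X} (hl : l ∈ L) {x y : X}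
    (hx : x ∈ l) (hy : y ∈ l) (hxy : x ≠ y) : ∃ z, z ≠ x ∧ z ≠ y ∧ l = {x, y, z} := by
  obtain ⟨a, b, c, hab, hac, hbc, rfl⟩ := Set.ncard_eq_three.1 (h3 l hl)
  simp only [Set.mem_insert_iff, Set.mem_singleton_iff] at hx hy
  rcases hx with rfl | rfl | rfl <;> rcases hy with rfl | rfl | rfl
  all_goals
    first
      | exact absurd rfl hxy
      | exact ⟨a, hab, hac, by ext; simp <;> tauto⟩
      | exact ⟨a, hac, hab, by ext; simp <;> tauto⟩
      | exact ⟨b, hab.symm, hbc, by ext; simp <;> tauto⟩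
      | exact ⟨b, hbc, hab.symm, by ext; simp <;> tauto⟩
      | exact ⟨c, hac.symm, hbc.symm, by ext; simp <;> tauto⟩
      | exact ⟨c, hbc.symm, hac.symm, by ext; simp <;> tauto⟩

/-- A point not collinear with `x` is fixed. -/
theorem lineMap_of_not_collinear {x y : X} (h : ¬ LineSystem.Collinear L x y) :
    LineSystem.lineMap L x y = y := by
  have h' : ¬ ∃ w : X, w ≠ x ∧ w ≠ y ∧ x ≠ y ∧ ({x, y, w} : Set X) ∈ L := by
    rintro ⟨w, -, -, hxy, hl⟩
    exact h ⟨hxy, _, hl, by simp, by simp⟩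
  simp only [LineSystem.lineMap, dif_neg h']

theorem lineMap_self (x : X) : LineSystem.lineMap L x x = x :=
  lineMap_of_not_collinear fun h => h.1 rfl

theorem lineMap_involutive (hP : LineSystem.IsPartialLinear L) (h3 : ∀ l ∈ L, l.ncard = 3) (x : X) :
    Function.Involutive (LineSystem.lineMap L x) := by
  intro y
  by_cases hc : LineSystem.Collinear L x y
  · obtain ⟨hxy, l, hl, hxl, hyl⟩ := hc
    obtain ⟨z, hzx, hzy, rfl⟩ := exists_triple h3 hl hxl hyl hxy
    rw [lineMap_eq hP hl hxy hzx hzy]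
    exact lineMap_eq hP (by rwa [Set.pair_comm z y]) hzx.symm hxy.symm hzy.symm
  · rw [lineMap_of_not_collinear hc, lineMap_of_not_collinear hc]

theorem span_subspace (S : Set X) : LineSystem.IsSubspace L (LineSystem.span L S) := by
  intro l hl x hx y hy hxy hxl hyl
  refine Set.subset_sInter fun T hT => ?_
  exact hT.2 l hl x (hx T hT) y (hy T hT) hxy hxl hyl

theorem subset_span (S : Set X) : S ⊆ LineSystem.span L S := Set.subset_sInter fun _ hT => hT.1

/-- The point maps preserve the lines of a subspace isomorphic to a model with this property. -/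
theorem plane_aut {Y : Type*} (M : Set (Set Y)) (τ : Y → Y → Y)
    (hM1 : ∀ p q, τ p q = q → p ≠ q → ∀ m ∈ M, p ∈ m → q ∈ m → False)
    (hM2 : ∀ p q, τ p q ≠ q → p ≠ q ∧ τ p q ≠ p ∧ ({p, q, τ p q} : Set Y) ∈ M)
    (hM3 : ∀ p, ∀ m ∈ M, τ p '' m ∈ M)
    (hP : LineSystem.IsPartialLinear L) {S : Set X} (hS : LineSystem.IsSubspace L S)
    (hiso : LineSystem.Isomorphic (LineSystem.restrict L S) M) {x : X} (hx : x ∈ S) {n : Set X}
    (hn : n ∈ L) (hnS : n ⊆ S) : LineSystem.lineMap L x '' n ∈ L := by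
  obtain ⟨e, he⟩ := hiso
  have hback : ∀ m ∈ M, ∃ l ∈ L, l ⊆ S ∧ e.symm '' m = {s : S | (s : X) ∈ l} := by
    intro m hm
    have : e.symm '' m ∈ LineSystem.restrict L S := by
      rw [he, Equiv.image_symm_eq_preimage, Set.image_preimage_eq _ e.surjective]
      exact hm
    exact this
  set p := e ⟨x, hx⟩ with hp
  have key : ∀ s : S, LineSystem.lineMap L x s = (e.symm (τ p (e s)) : X) := by
    intro s
    by_cases hq : τ p (e s) = e s
    · rw [hq, e.symm_apply_apply]
      refine lineMap_of_not_collinear fun ⟨hne, l, hl, hxl, hsl⟩ => ?_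
      refine hM1 _ _ hq (fun h => hne (congrArg Subtype.val (e.injective h))) _
        ((he {t : S | (t : X) ∈ l}).1 ⟨l, hl, hS l hl x hx s s.2 hne hxl hsl, rfl⟩)
        ⟨⟨x, hx⟩, hxl, rfl⟩ ⟨s, hsl, rfl⟩
    · obtain ⟨h1, h2, h3⟩ := hM2 _ _ hq
      obtain ⟨l, hl, hlS, hle⟩ := hback _ h3
      have hl' : l = {x, (s : X), (e.symm (τ p (e s)) : X)} := by
        have : l = Subtype.val '' {t : S | (t : X) ∈ l} := by
          ext w
          exact ⟨fun hw => ⟨⟨w, hlS hw⟩, hw, rfl⟩, fun ⟨t, ht, he⟩ => he ▸ ht⟩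
        rw [this, ← hle]
        simp only [Set.image_insert_eq, Set.image_singleton, hp, Equiv.symm_apply_apply]
      refine lineMap_eq hP (hl' ▸ hl) (fun h => h1 ?_) (fun h => h2 ?_) (fun h => hq ?_)
      · rw [hp, show (⟨x, hx⟩ : S) = s from Subtype.ext h]
      · exact e.symm_apply_eq.1 (Subtype.ext h : e.symm (τ p (e s)) = ⟨x, hx⟩)
      · exact e.symm_apply_eq.1 (Subtype.ext h : e.symm (τ p (e s)) = s)
  obtain ⟨l, hl, hlS, hle⟩ :=
    hback _ (hM3 p _ ((he {t : S | (t : X) ∈ n}).1 ⟨n, hn, hnS, rfl⟩))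
  convert hl using 1
  ext w
  constructor
  · rintro ⟨y, hy, rfl⟩
    rw [key ⟨y, hnS hy⟩]
    have : e.symm (τ p (e ⟨y, hnS hy⟩)) ∈ {s : S | (s : X) ∈ l} :=
      hle ▸ ⟨_, ⟨_, ⟨⟨y, hnS hy⟩, hy, rfl⟩, rfl⟩, rfl⟩
    exact this
  · intro hw
    have : (⟨w, hlS hw⟩ : S) ∈ e.symm '' (τ p '' (e '' {t : S | (t : X) ∈ n})) := hle ▸ hw
    obtain ⟨_, ⟨_, ⟨t, ht, rfl⟩, rfl⟩, h⟩ := this
    exact ⟨t, ht, by rw [key t, h]⟩

/-- The point maps of the dual affine plane. -/
def dualMap (p q : DualAffinePoint) : DualAffinePoint :=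
  ⟨q.1.map (sw p).toEmbedding, by rw [Finset.card_map]; exact q.2⟩

theorem dualMap_fix : ∀ p q : DualAffinePoint, dualMap p q = q → p ≠ q →
    ∀ i : Fin 4, i ∈ p.1 ∨ i ∈ q.1 := by decide

theorem dualMap_line : ∀ p q : DualAffinePoint, dualMap p q ≠ q → p ≠ q ∧ dualMap p q ≠ p ∧
    ∃ i : Fin 4, ∀ s : DualAffinePoint, (s = p ∨ s = q ∨ s = dualMap p q) ↔ i ∉ s.1 := by decide

theorem dualMap_aut : ∀ (p : DualAffinePoint) (i : Fin 4) (s : DualAffinePoint),
    ((∃ t : DualAffinePoint, i ∉ t.1 ∧ dualMap p t = s) ↔ sw p i ∉ s.1) := by decide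

theorem affine_fix : ∀ p q : Fin 2 → ZMod 3, -p - q = q → p = q := by decide

theorem affine_line : ∀ p q : Fin 2 → ZMod 3, -p - q ≠ q → p ≠ q ∧ -p - q ≠ p ∧
    ∀ x, ((x = p ∨ x = q ∨ x = -p - q) ↔ ∃ c : ZMod 3, x = p + c • (q - p)) := by decide

/-- The point maps of a Fischer space are automorphisms. -/
theorem lineMap_maps_lines (hL : IsFischerSpace L) (x : X) {n : Set X} (hn : n ∈ L) :
    LineSystem.lineMap L x '' n ∈ L := by
  obtain ⟨hP, h3, hplane⟩ := hL
  by_cases hc : ∃ y ∈ n, LineSystem.Collinear L x y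
  · obtain ⟨y, hy, hxy, l, hl, hxl, hyl⟩ := hc
    by_cases hxn : x ∈ n
    · convert hn using 1
      apply Set.Subset.antisymm
      · rintro _ ⟨w, hw, rfl⟩
        by_cases hxw : x = w
        · rw [← hxw, lineMap_self]; exact hxn
        · obtain ⟨z, hzx, hzw, he⟩ := exists_triple h3 hn hxn hw hxw
          subst he
          rw [lineMap_eq hP hn hxw hzx hzw]
          simp
      · intro w hw
        by_cases hxw : x = w
        · exact ⟨x, hxn, by rw [lineMap_self, hxw]⟩
        · obtain ⟨z, hzx, hzw, he⟩ := exists_triple h3 hn hxn hw hxw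
          subst he
          exact ⟨z, by simp, lineMap_eq hP (by rwa [Set.pair_comm z w]) hzx.symm (Ne.symm hxw)
            hzw.symm⟩
    · have hln : l ≠ n := fun h => hxn (h ▸ hxl)
      have hS := span_subspace (L := L) (l ∪ n)
      have hxS := subset_span (L := L) (l ∪ n) (Or.inl hxl)
      have hnS : n ⊆ LineSystem.span L (l ∪ n) :=
        (Set.subset_union_right).trans (subset_span _)
      rcases hplane l hl n hn hln ⟨y, hyl, hy⟩ with h | h
      · refine plane_aut dualAffinePlaneTwo dualMap ?_ ?_ ?_ hP hS h hxS hn hnS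
        · rintro p q hpq hne m ⟨i, rfl⟩ hp hq
          exact (dualMap_fix p q hpq hne i).elim hp hq
        · intro p q hpq
          obtain ⟨h1, h2, i, hi⟩ := dualMap_line p q hpq
          exact ⟨h1, h2, i, Set.ext fun s => hi s⟩
        · rintro p _ ⟨i, rfl⟩
          exact ⟨sw p i, Set.ext fun s => dualMap_aut p i s⟩
      · refine plane_aut affinePlaneThree (fun p q => -p - q) ?_ ?_ ?_ hP hS h hxS hn hnS
        · intro p q hpq hne _ _ _ _
          exact hne (affine_fix p q hpq)
        · intro p q hpq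
          obtain ⟨h1, h2, hi⟩ := affine_line p q hpq
          exact ⟨h1, h2, p, q - p, sub_ne_zero.2 h1.symm, Set.ext fun s => hi s⟩
        · rintro p _ ⟨v, w, hw, rfl⟩
          refine ⟨-p - v, -w, neg_ne_zero.2 hw, Set.ext fun s => ⟨?_, ?_⟩⟩
          · rintro ⟨_, ⟨c, rfl⟩, rfl⟩
            exact ⟨c, by module⟩
          · rintro ⟨c, rfl⟩
            exact ⟨v + c • w, ⟨c, rfl⟩, by module⟩
  · push_neg at hc
    convert hn using 1
    exact (Set.image_congr fun y hy => lineMap_of_not_collinear (hc y hy)).trans (Set.image_id n)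

/-- The point maps as permutations. -/
noncomputable def pointPerm (hL : IsFischerSpace L) (x : X) : Equiv.Perm X :=
  (lineMap_involutive hL.1 hL.2.1 x).toPerm _

theorem pointPerm_coe (hL : IsFischerSpace L) (x : X) :
    ⇑(pointPerm hL x) = LineSystem.lineMap L x := rfl

theorem pointPerm_isIso (hL : IsFischerSpace L) (x : X) :
    LineSystem.IsIso L L (pointPerm hL x) := by
  intro l
  rw [pointPerm_coe]
  refine ⟨lineMap_maps_lines hL x, fun h => ?_⟩
  have := lineMap_maps_lines hL x h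
  rwa [← Set.image_comp, (lineMap_involutive hL.1 hL.2.1 x).comp_self, Set.image_id] at this

theorem collinear_map (hL : IsFischerSpace L) (x : X) {y w : X}
    (h : LineSystem.Collinear L y w) :
    LineSystem.Collinear L (LineSystem.lineMap L x y) (LineSystem.lineMap L x w) := by
  obtain ⟨hne, l, hl, hyl, hwl⟩ := h
  exact ⟨fun h => hne ((lineMap_involutive hL.1 hL.2.1 x).injective h), _,
    lineMap_maps_lines hL x hl, ⟨y, hyl, rfl⟩, ⟨w, hwl, rfl⟩⟩

/-- Conjugation of a point map by a point map. -/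
theorem lineMap_conj (hL : IsFischerSpace L) (x y w : X) :
    LineSystem.lineMap L x (LineSystem.lineMap L y w) =
      LineSystem.lineMap L (LineSystem.lineMap L x y) (LineSystem.lineMap L x w) := by
  have hinv := lineMap_involutive hL.1 hL.2.1 x
  by_cases hc : LineSystem.Collinear L y w
  · obtain ⟨hne, l, hl, hyl, hwl⟩ := hc
    obtain ⟨z, hzy, hzw, rfl⟩ := exists_triple hL.2.1 hl hyl hwl hne
    rw [lineMap_eq hL.1 hl hne hzy hzw]
    have him := lineMap_maps_lines hL x hl
    rw [Set.image_insert_eq, Set.image_insert_eq, Set.image_singleton] at him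
    exact (lineMap_eq hL.1 him (fun h => hne (hinv.injective h))
      (fun h => hzy (hinv.injective h)) (fun h => hzw (hinv.injective h))).symm
  · rw [lineMap_of_not_collinear hc]
    refine (lineMap_of_not_collinear fun h => ?_).symm
    revert h
    intro h
    have := collinear_map hL x h
    rw [hinv y, hinv w] at this
    exact hc this

theorem pointPerm_conj (hL : IsFischerSpace L) (x y : X) :
    pointPerm hL x * pointPerm hL y * pointPerm hL x =
      pointPerm hL (LineSystem.lineMap L x y) := by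
  ext w
  show LineSystem.lineMap L x (LineSystem.lineMap L y (LineSystem.lineMap L x w)) =
    LineSystem.lineMap L _ w
  rw [lineMap_conj hL x y, lineMap_involutive hL.1 hL.2.1 x w]

theorem pointPerm_sq (hL : IsFischerSpace L) (x : X) : pointPerm hL x * pointPerm hL x = 1 :=
  Equiv.ext fun w => lineMap_involutive hL.1 hL.2.1 x w

/-- Two point maps have product of order at most three. -/
theorem pointPerm_three (hL : IsFischerSpace L) (x y : X) :
    (pointPerm hL x * pointPerm hL y) ^ 2 = 1 ∨ (pointPerm hL x * pointPerm hL y) ^ 3 = 1 := by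
  have e := pointPerm_conj hL x y
  by_cases hc : LineSystem.Collinear L x y
  · right
    obtain ⟨hne, l, hl, hxl, hyl⟩ := hc
    obtain ⟨z, hzx, hzy, rfl⟩ := exists_triple hL.2.1 hl hxl hyl hne
    rw [lineMap_eq hL.1 hl hne hzx hzy] at e
    have e' := pointPerm_conj hL y x
    rw [lineMap_eq hL.1 (by rwa [Set.insert_comm y x]) hne.symm hzy hzx] at e'
    calc (pointPerm hL x * pointPerm hL y) ^ 3
        = (pointPerm hL x * pointPerm hL y * pointPerm hL x) *
          (pointPerm hL y * pointPerm hL x * pointPerm hL y) := by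
          simp only [pow_succ, pow_zero, one_mul, mul_assoc]
      _ = 1 := by rw [e, e', pointPerm_sq]
  · left
    rw [lineMap_of_not_collinear hc] at e
    calc (pointPerm hL x * pointPerm hL y) ^ 2
        = (pointPerm hL x * pointPerm hL y * pointPerm hL x) * pointPerm hL y := by
          simp only [pow_succ, pow_zero, one_mul, mul_assoc]
      _ = 1 := by rw [e, pointPerm_sq]

theorem pointPerm_orderOf (hL : IsFischerSpace L) (hnd : LineSystem.IsNondegenerate L) (x : X) :
    orderOf (pointPerm hL x) = 2 := by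
  refine orderOf_eq_prime (by rw [pow_two]; exact pointPerm_sq hL x) fun h => ?_
  obtain ⟨l, hl, hxl⟩ := hnd x
  obtain ⟨a, b, c, hab, hac, hbc, he⟩ := Set.ncard_eq_three.1 (hL.2.1 l hl)
  have : ∃ y ∈ l, x ≠ y := by
    by_cases h : x = a
    · exact ⟨b, by simp [he], h ▸ hab⟩
    · exact ⟨a, by simp [he], h⟩
  obtain ⟨y, hyl, hne⟩ := this
  obtain ⟨z, hzx, hzy, rfl⟩ := exists_triple hL.2.1 hl hxl hyl hne
  apply hzy
  rw [← lineMap_eq hL.1 hl hne hzx hzy, ← pointPerm_coe hL, h]
  rfl

end CfsgLib.ThreeTransp
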