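import Mathlib
import Cfsg.Agent.ThreeTransp.PSU62Order
import Cfsg.Agent.ThreeTransp.U6Inv53
import Cfsg.Agent.Classical.Unitary.Order

/-!
A Sylow 2-subgroup of `PSU(6, 2)` in coordinates, and three of its elementary abelian subgroups,
each generated by transvections at pairwise orthogonal points.
-/

set_option autoImplicit false

namespace CfsgLib.ThreeTransp.U6Sylow94

open Cfsg PSU62 Matrix CfsgLib.Unitary

variable {F : Type} [Field F] [Fintype F]

/-- Elements generated by transvections at the points of a pairwise orthogonal set. -/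
def Flat (hF : Fintype.card F = 4) (X : Set (PSU 6 F 2)) : Prop :=
  ∃ W : Set (Fin 6 → F), (∀ v ∈ W, ∀ u ∈ W, hm v u = 0) ∧ X ⊆ Subgroup.closure (tp hF '' W)

/-- Coordinates on a pair of subgroups by the unipotent matrices. -/
def Coords (S E : Subgroup (PSU 6 F 2)) : Prop :=
  ∃ k : (Fin 6 → F) → (Fin 3 → Bool) → PSU 6 F 2, (∀ p x, k p x ∈ S) ∧
    (∀ s ∈ S, ∃ p x, s = k p x) ∧ (∀ p x, k p x ∈ E ↔ parA p = 1) ∧
    (∀ p x p' x' q y q' y', k p x * k p' x' = k q y * k q' y' ↔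
      parK p x * parK p' x' = parK q y * parK q' y') ∧
    (∀ p x p' x', k p x * k p' x' = 1 ↔ parK p x * parK p' x' = 1)

/-- The rank one parts of a square-zero self-adjoint map, with vectors in its range. -/
theorem selfNil_range_sum (hF : Fintype.card F = 4) :
    ∀ (n : ℕ) {N : (Fin 6 → F) → Fin 6 → F} (h : SelfNil N),
      6 ≤ n + Module.finrank F ↥(LinearMap.ker (U6Inv53.linMap h)) →
      ∃ l : List (Fin 6 → F), (∀ v ∈ l, ∃ x, v = N x) ∧ ∀ y, N y = (l.map fun v => hm y v • v).sum := by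
  intro n
  induction n with
  | zero =>
    intro N h hn
    have htop : LinearMap.ker (U6Inv53.linMap h) = ⊤ := by
      refine Submodule.eq_top_of_finrank_eq ?_
      have := Submodule.finrank_le (LinearMap.ker (U6Inv53.linMap h))
      rw [Module.finrank_fin_fun] at this ⊢
      omega
    refine ⟨[], by simp, fun y => ?_⟩
    have : y ∈ LinearMap.ker (U6Inv53.linMap h) := by rw [htop]; trivial
    exact (LinearMap.mem_ker.1 this : U6Inv53.linMap h y = 0).trans (by simp)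
  | succ n ih =>
    intro N h hn
    by_cases h0 : ∀ u, N u = 0
    · exact ⟨[], by simp, fun y => by simp [h0]⟩
    push Not at h0
    obtain ⟨x, hx⟩ := h.exists_raw hF h0
    obtain ⟨h', hx0, hv0⟩ := h.peel_selfNil hF hx
    have hlt : Module.finrank F ↥(LinearMap.ker (U6Inv53.linMap h)) <
        Module.finrank F ↥(LinearMap.ker (U6Inv53.linMap h')) := by
      refine Submodule.finrank_lt_finrank_of_lt ⟨fun z hz' => ?_, fun hle => ?_⟩
      · have hz : N z = 0 := LinearMap.mem_ker.1 hz'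
        refine LinearMap.mem_ker.2 (show peel N (N x) z = 0 from ?_)
        rw [peel, hz, show hm z (N x) = 0 by rw [← h.adj, hz, hm_zeroL], zero_smul, zero_add]
      · have hN : N x = 0 := LinearMap.mem_ker.1 (hle (LinearMap.mem_ker.2 hx0))
        rw [hN, hm_zeroL] at hx
        exact zero_ne_one hx
    obtain ⟨l, hl, hsum⟩ := ih h' (by omega)
    refine ⟨N x :: l, List.forall_mem_cons.2 ⟨⟨x, rfl⟩, fun v hv => ?_⟩, fun y => ?_⟩
    · obtain ⟨y, rfl⟩ := hl v hv
      exact ⟨y + hm y (N x) • x, by rw [h.map_add, h.map_smul]; rfl⟩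
    · rw [U6Inv53.eq_add_of_peel hF N (N x), hsum, List.map_cons, List.sum_cons, add_comm]

/-- A set of elements whose nilpotent parts multiply to zero is generated by transvections at
pairwise orthogonal points. -/
theorem flat_of_mul_zero (hF : Fintype.card F = 4) (X : Set (SU 6 F 2))
    (h : ∀ g ∈ X, ∀ g' ∈ X, ∀ y, nil g (nil g' y) = 0) :
    Flat hF (QuotientGroup.mk '' X : Set (PSU 6 F 2)) := by
  have hsq : ∀ g ∈ X, g * g = 1 := fun g hg => by
    refine sv_ext fun y => ?_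
    rw [sv_mul, sv_one]
    have h0 := h g hg g hg y
    simp only [nil, sv_add] at h0
    have h1 : sv g (sv g y) + y + (sv g y + sv g y) = 0 := by rw [← h0]; abel
    rw [vec_add_self hF, add_zero] at h1
    calc sv g (sv g y) = (sv g (sv g y) + y) + y := by rw [add_assoc, vec_add_self hF, add_zero]
      _ = y := by rw [h1, zero_add]
  refine ⟨{v | ∃ g ∈ X, ∃ y, v = nil g y}, ?_, ?_⟩
  · rintro _ ⟨g, hg, y, rfl⟩ _ ⟨g', hg', y', rfl⟩
    rw [(nil_selfNil hF (hsq g hg)).adj, h g hg g' hg', hm_zeroR hF]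
  · rintro _ ⟨g, hg, rfl⟩
    obtain ⟨l, hl, hsum⟩ := selfNil_range_sum hF 6 (nil_selfNil hF (hsq g hg)) (by omega)
    have horth : ∀ v ∈ l, ∀ u ∈ l, hm v u = 0 := fun v hv u hu => by
      obtain ⟨y, rfl⟩ := hl v hv
      obtain ⟨y', rfl⟩ := hl u hu
      rw [(nil_selfNil hF (hsq g hg)).adj, h g hg g hg, hm_zeroR hF]
    have hg' : g = (l.map (tv hF)).prod := by
      refine sv_ext fun y => ?_
      rw [sv_prod_orth hF l horth, ← hsum, nil, add_left_comm, vec_add_self hF, add_zero]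
    rw [hg', ← U6Inv53.tp_prod]
    refine list_prod_mem fun a ha => ?_
    obtain ⟨v, hv, rfl⟩ := List.mem_map.1 ha
    obtain ⟨y, hy⟩ := hl v hv
    exact Subgroup.subset_closure ⟨v, ⟨g, hg, y, hy⟩, rfl⟩

/-- Every parameter set gives an element. -/
theorem exists_parK (hF : Fintype.card F = 4) {w : F} (hw3 : w ^ 3 = 1) (hws : w + w ^ 2 = 1)
    (p : Fin 6 → F) (x : Fin 3 → Bool) : ∃ g : SU 6 F 2, hypMat hF w g = parK p x := by
  obtain ⟨N, hN⟩ : ∃ N, hypP w * parK p x * hypPi hF w = N := ⟨_, rfl⟩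
  have hdet : (N.submatrix idxEquiv.symm idxEquiv.symm).det = 1 := by
    rw [Matrix.det_submatrix_equiv_self, ← hN, Matrix.det_mul, Matrix.det_mul, parK_det, mul_one,
      ← Matrix.det_mul, mul_hypPi hF hw3 hws, Matrix.det_one]
  have hgram : Nᵀ * N.map (F4.sqHom hF) = 1 := by
    have h1 : (hypP w * hypPi hF w)ᵀ * (hypP w * hypPi hF w).map (F4.sqHom hF) = 1 := by
      rw [mul_hypPi hF hw3 hws, Matrix.transpose_one,
        Matrix.map_one _ (map_zero _) (map_one _), Matrix.one_mul]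
    rw [← hN]
    simp only [Matrix.transpose_mul, Matrix.map_mul, Matrix.mul_assoc] at h1 ⊢
    rw [← Matrix.mul_assoc (hypP w)ᵀ, hypP_gram hF hw3 hws] at h1 ⊢
    rw [← Matrix.mul_assoc hypJ, ← Matrix.mul_assoc (parK p x)ᵀ, ← Matrix.mul_assoc (parK p x)ᵀ,
      parK_gram]
    exact h1
  have hM : (N.submatrix idxEquiv.symm idxEquiv.symm)ᵀ *
      (N.submatrix idxEquiv.symm idxEquiv.symm).map (F4.sqHom hF) = 1 := by
    rw [Matrix.transpose_submatrix, ← Matrix.submatrix_map, Matrix.submatrix_mul_equiv, hgram,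
      Matrix.submatrix_one_equiv]
  refine ⟨suOfMat hF _ hdet hM, ?_⟩
  have : mat (suOfMat hF _ hdet hM) = N.submatrix idxEquiv.symm idxEquiv.symm := rfl
  rw [hypMat, this, Matrix.submatrix_submatrix, Equiv.symm_comp_self, Matrix.submatrix_id_id, ← hN]
  calc _ = (hypPi hF w * hypP w) * parK p x * (hypPi hF w * hypP w) := by
        simp only [Matrix.mul_assoc]
    _ = parK p x := by rw [hypPi_mul hF hw3 hws, Matrix.one_mul, Matrix.mul_one]

/-- Nilpotent parts multiply to zero when those of the matrices in the hyperbolic basis do. -/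
theorem nil_nil_of_hypMat (hF : Fintype.card F = 4) {w : F} (hw3 : w ^ 3 = 1) (hws : w + w ^ 2 = 1)
    {g g' : SU 6 F 2} (h : (hypMat hF w g + 1) * (hypMat hF w g' + 1) = 0) (y : Fin 6 → F) :
    nil g (nil g' y) = 0 := by
  have e : ∀ k : SU 6 F 2, nil k = fun y => (mat k + 1) *ᵥ y := fun k => funext fun y => by
    rw [Matrix.add_mulVec, Matrix.one_mulVec]; rfl
  have hz : (mat g + 1) * (mat g' + 1) = 0 := by
    have hh : ∀ k : SU 6 F 2, hypMat hF w k + 1 =
        hypPi hF w * ((mat k + 1).submatrix idxEquiv idxEquiv) * hypP w := fun k => by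
      rw [hypMat, Matrix.submatrix_add]
      simp only [Pi.add_apply, Matrix.submatrix_one_equiv, Matrix.mul_add, Matrix.add_mul,
        Matrix.mul_one, hypPi_mul hF hw3 hws]
    rw [hh, hh] at h
    have h' : ((mat g + 1).submatrix idxEquiv idxEquiv) * ((mat g' + 1).submatrix idxEquiv idxEquiv) = 0 := by
      have := congrArg (fun M => hypP w * M * hypPi hF w) h
      simp only [Matrix.mul_zero, Matrix.zero_mul] at this
      simp only [← Matrix.mul_assoc, mul_hypPi hF hw3 hws, Matrix.one_mul] at this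
      simp only [Matrix.mul_assoc, mul_hypPi hF hw3 hws, Matrix.mul_one] at this
      exact this
    rw [Matrix.submatrix_mul_equiv] at h'
    have := congrArg (fun M => M.submatrix idxEquiv.symm idxEquiv.symm) h'
    simpa [Matrix.submatrix_submatrix] using this
  rw [e, e]
  show (mat g + 1) *ᵥ ((mat g' + 1) *ᵥ y) = 0
  rw [Matrix.mulVec_mulVec, hz, Matrix.zero_mulVec]

set_option maxHeartbeats 1600000 in
/-- A Sylow 2-subgroup with three flat elementary abelian subgroups. -/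
theorem exists_sylow_parts (hF : Fintype.card F = 4) :
    ∃ S E P Q : Subgroup (PSU 6 F 2), Odd S.index ∧ Nat.card S = 2 ^ 15 ∧ E ≤ S ∧ P ≤ S ∧ Q ≤ S ∧
      Flat hF (E : Set (PSU 6 F 2)) ∧ Flat hF (P : Set (PSU 6 F 2)) ∧ Flat hF (Q : Set (PSU 6 F 2)) ∧
      Nat.card E = 2 ^ 9 ∧
      (∀ s ∈ S, ∀ e ∈ E, s * e * s⁻¹ ∈ E) ∧
      (∀ q ∈ Q, ∀ p ∈ P, (q * p) * (q * p) ∈ P ⊓ Q) ∧
      (∀ p ∈ P, ∀ q ∈ Q, p * q ∈ E → q ∈ P ∧ p * q = 1) ∧
      (∀ s ∈ S, ∃ e ∈ E, ∃ p ∈ P, ∃ q ∈ Q, s = e * (p * q)) ∧ Coords S E := by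
  classical
  obtain ⟨w, hw0, hw1, hw3, hws⟩ := F4.exists_omega hF
  haveI : Finite (SU 6 F 2) := Finite.of_injective (fun g => mat g) fun _ _ h => mat_inj h
  haveI : Fact (Nat.Prime 2) := ⟨Nat.prime_two⟩
  haveI : Fact (Nat.Prime 3) := ⟨Nat.prime_three⟩
  have hp : ∀ (g : SU 6 F 2) (n : ℕ), hypMat hF w (g ^ n) = hypMat hF w g ^ n := fun g n => by
    induction n with
    | zero => rw [pow_zero, pow_zero, hypMat_one hF hw3 hws]
    | succ n ih => rw [pow_succ, pow_succ, hypMat_mul hF hw3 hws, ih]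
  obtain ⟨U, hU⟩ : ∃ U : Subgroup (SU 6 F 2), ∀ g, g ∈ U ↔ IsUniTri (hypMat hF w g) := by
    refine ⟨{ carrier := {g | IsUniTri (hypMat hF w g)}
              one_mem' := fun i j _ => by rw [hypMat_one hF hw3 hws]
              mul_mem' := fun {a b} ha hb => by
                show IsUniTri _
                rw [hypMat_mul hF hw3 hws]; exact ha.mul hb
              inv_mem' := fun {a} ha => ?_ }, fun g => Iff.rfl⟩
    have h8 : a ^ 8 = 1 := hypMat_inj hF hw3 hws (by
      rw [hp, (show IsUniTri _ from ha).pow_eight hF, hypMat_one hF hw3 hws])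
    show IsUniTri (hypMat hF w a⁻¹)
    rw [inv_eq_of_mul_eq_one_right (show a * a ^ 7 = 1 by rw [← pow_succ']; exact h8), hp]
    have hpw : ∀ n : ℕ, IsUniTri (hypMat hF w a ^ n) := fun n => by
      induction n with
      | zero => rw [pow_zero]; exact fun i j _ => rfl
      | succ n ih => rw [pow_succ]; exact ih.mul ha
    exact hpw 7
  have hU2 : IsPGroup 2 U := fun g => ⟨3, Subtype.ext (hypMat_inj hF hw3 hws (by
    rw [SubmonoidClass.coe_pow, hp, show (2 : ℕ) ^ 3 = 8 from rfl, ((hU _).1 g.2).pow_eight hF,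
      OneMemClass.coe_one, hypMat_one hF hw3 hws]))⟩
  choose k hk using exists_parK hF hw3 hws
  have hkU : ∀ p x, k p x ∈ U := fun p x => (hU _).2 (by rw [hk]; exact parK_uniTri p x)
  have hcard : Nat.card (PSU 6 F 2) = 9196830720 := by
    have hc := CfsgLib.Unitary.card_PSU (card_sq hF) (n := 6) (q := 2) (F := F) (by norm_num)
    norm_num [Finset.prod_range_succ, Nat.even_iff] at hc
    rw [Nat.card_eq_fintype_card]
    omega
  -- the projection is injective on `U`
  obtain ⟨π, hπ⟩ : ∃ π : SU 6 F 2 →* PSU 6 F 2, ∀ g, π g = QuotientGroup.mk g :=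
    ⟨QuotientGroup.mk' _, fun _ => rfl⟩
  have hinj : ∀ g ∈ U, π g = 1 → g = 1 := by
    intro g hg h1
    rw [hπ, QuotientGroup.eq_one_iff] at h1
    obtain ⟨j, hj⟩ := hU2 ⟨g, hg⟩
    have h3 : orderOf g ∣ 3 := orderOf_dvd_of_pow_eq_one (center_cube hF h1)
    have h2 : orderOf g ∣ 2 ^ j := orderOf_dvd_of_pow_eq_one (by simpa using congrArg Subtype.val hj)
    exact orderOf_eq_one_iff.1 (Nat.eq_one_of_dvd_coprimes (Nat.Coprime.pow_right j (by norm_num)) h3 h2)
  have hinj2 : ∀ g ∈ U, ∀ g' ∈ U, π g = π g' → g = g' := fun g hg g' hg' h =>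
    inv_mul_eq_one.1 (hinj _ (mul_mem (inv_mem hg) hg') (by rw [map_mul, map_inv, h, inv_mul_cancel]))
  obtain ⟨S, hSdef⟩ : ∃ S, U.map π = S := ⟨_, rfl⟩
  have hScard : Nat.card S = Nat.card U := by
    rw [← hSdef]
    refine (Nat.card_congr (Equiv.ofBijective (fun g : ↥U => (⟨π g, g, g.2, rfl⟩ : ↥(U.map π)))
      ⟨fun a b h => Subtype.ext (hinj2 _ a.2 _ b.2 (congrArg Subtype.val h :)), fun b => ?_⟩)).symm
    obtain ⟨g, hg, he⟩ := b.2
    exact ⟨⟨g, hg⟩, Subtype.ext he⟩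
  have hkinj : Function.Injective fun px : (Fin 6 → F) × (Fin 3 → Bool) =>
      (⟨k px.1 px.2, hkU _ _⟩ : ↥U) := fun a b e => by
    have e' : k a.1 a.2 = k b.1 b.2 := congrArg Subtype.val e
    have := parK_inj hF ((hk _ _).symm.trans ((congrArg (hypMat hF w) e').trans (hk _ _)))
    exact Prod.ext this.1 this.2
  have hpar : Nat.card ((Fin 6 → F) × (Fin 3 → Bool)) = 2 ^ 15 := by
    rw [Nat.card_eq_fintype_card, Fintype.card_prod, Fintype.card_fun, Fintype.card_fun, hF,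
      Fintype.card_bool, Fintype.card_fin, Fintype.card_fin]
    norm_num
  have hS15 : Nat.card U = 2 ^ 15 := by
    have hle := Nat.card_le_card_of_injective _ hkinj
    rw [hpar] at hle
    obtain ⟨j, hj⟩ := hU2.exists_card_eq
    have hd := Subgroup.card_subgroup_dvd_card S
    rw [hScard, hcard, hj] at hd
    rw [hj] at hle ⊢
    have : j < 16 := by
      by_contra h
      have := (pow_dvd_pow 2 (by omega : 16 ≤ j)).trans hd
      norm_num at this
    have := (Nat.pow_le_pow_iff_right (by norm_num)).1 hle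
    congr 1
    omega
  have hsurj : ∀ g ∈ U, ∃ p x, g = k p x := fun g hg => by
    obtain ⟨⟨p, x⟩, hb⟩ := (Function.Injective.bijective_of_nat_card_le hkinj
      (by rw [hS15, hpar])).2 ⟨g, hg⟩
    exact ⟨p, x, (congrArg Subtype.val hb).symm⟩
  -- products
  have hTL : ∀ p p' x x', (hypMat hF w (k p x * k p' x')).toBlocks₁₁ = parA p * parA p' := by
    intro p p' x x'
    rw [hypMat_mul hF hw3 hws, hk, hk, parK, parK, Matrix.fromBlocks_multiply,
      Matrix.toBlocks_fromBlocks₁₁, Matrix.mul_zero, add_zero]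
  have hTLk : ∀ p x, (hypMat hF w (k p x)).toBlocks₁₁ = parA p := fun p x => by
    rw [hk, parK, Matrix.toBlocks_fromBlocks₁₁]
  have hA0 : ∀ p : Fin 6 → F, parA p = 1 → p 0 = 0 ∧ p 1 = 0 ∧ p 2 = 0 := fun p h =>
    ⟨by simpa [parA] using congrFun (congrFun h 0) 1, by simpa [parA] using congrFun (congrFun h 0) 2,
      by simpa [parA] using congrFun (congrFun h 1) 2⟩
  have hS0 : parS (0 : Fin 6 → F) (fun _ => false) = 0 := by
    ext i j; fin_cases i <;> fin_cases j <;> simp [parS]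
  have hP0 : ∀ a b c : F, parS (![a, b, c, 0, 0, 0]) (fun _ => false) = 0 := fun a b c => by
    ext i j; fin_cases i <;> fin_cases j <;> simp [parS]
  have h4 : ∀ x : F, x + x = 0 := F4.add_self hF
  -- the three subgroups in `SU`
  obtain ⟨E₀, hE₀⟩ : ∃ E₀ : Subgroup (SU 6 F 2),
      ∀ g, g ∈ E₀ ↔ g ∈ U ∧ (hypMat hF w g).toBlocks₁₁ = 1 := by
    refine ⟨{ carrier := {g | g ∈ U ∧ (hypMat hF w g).toBlocks₁₁ = 1}
              one_mem' := ⟨one_mem _, by rw [hypMat_one hF hw3 hws]; ext i j; simp [Matrix.toBlocks₁₁, Matrix.one_apply]⟩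
              mul_mem' := fun {a b} ha hb => ⟨mul_mem ha.1 hb.1, by
                obtain ⟨p, x, rfl⟩ := hsurj a ha.1
                obtain ⟨p', x', rfl⟩ := hsurj b hb.1
                rw [hTL, ← hTLk p x, ← hTLk p' x', ha.2, hb.2, Matrix.one_mul]⟩
              inv_mem' := fun {a} ha => ⟨inv_mem ha.1, by
                obtain ⟨p, x, rfl⟩ := hsurj a ha.1
                obtain ⟨p', x', e⟩ := hsurj _ (inv_mem ha.1)
                have h := hTL p p' x x'
                rw [← e, mul_inv_cancel, hypMat_one hF hw3 hws, ← hTLk p x, ha.2, Matrix.one_mul] at h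
                rw [e, hTLk, ← h]
                ext i j; simp [Matrix.toBlocks₁₁, Matrix.one_apply]⟩ },
      fun g => Iff.rfl⟩
  have mkSub : ∀ v : F → F → Fin 6 → F, v 0 0 = 0 →
      (∀ a b a' b', parK (v a b) (fun _ => false) * parK (v a' b') (fun _ => false) =
        parK (v (a + a') (b + b')) (fun _ => false)) →
      ∃ P₀ : Subgroup (SU 6 F 2), ∀ g, g ∈ P₀ ↔ ∃ a b, g = k (v a b) (fun _ => false) := by
    intro v hv hm'
    have hmul : ∀ a b a' b', k (v a b) (fun _ => false) * k (v a' b') (fun _ => false) =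
        k (v (a + a') (b + b')) (fun _ => false) := fun a b a' b' => hypMat_inj hF hw3 hws (by
      rw [hypMat_mul hF hw3 hws, hk, hk, hk, hm'])
    have hone : k (v 0 0) (fun _ => false) = 1 := hypMat_inj hF hw3 hws (by
      rw [hk, hv, hypMat_one hF hw3 hws, parK, hS0]
      have e1 : parA (0 : Fin 6 → F) = 1 := by ext i j; fin_cases i <;> fin_cases j <;> simp [parA]
      have e2 : parB (0 : Fin 6 → F) = 1 := by ext i j; fin_cases i <;> fin_cases j <;> simp [parB]
      rw [e1, e2, Matrix.mul_zero, Matrix.fromBlocks_one])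
    refine ⟨{ carrier := {g | ∃ a b, g = k (v a b) (fun _ => false)}
              one_mem' := ⟨0, 0, hone.symm⟩
              mul_mem' := ?_
              inv_mem' := ?_ }, fun g => Iff.rfl⟩
    · rintro _ _ ⟨a, b, rfl⟩ ⟨a', b', rfl⟩
      exact ⟨_, _, hmul a b a' b'⟩
    · rintro _ ⟨a, b, rfl⟩
      refine ⟨a, b, inv_eq_of_mul_eq_one_right ?_⟩
      rw [hmul, h4, h4, hone]
  have hPmul : ∀ a b a' b' : F, parK (![a, b, 0, 0, 0, 0]) (fun _ => false) *
      parK (![a', b', 0, 0, 0, 0]) (fun _ => false) =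
      parK (![a + a', b + b', 0, 0, 0, 0]) (fun _ => false) := fun a b a' b' => by
    simp only [parK, hP0, Matrix.mul_zero, Matrix.fromBlocks_multiply, Matrix.zero_mul, add_zero,
      zero_add]
    congr 1
    · ext i j; fin_cases i <;> fin_cases j <;> simp [parA, Matrix.mul_apply, Fin.sum_univ_three, add_comm]
    · ext i j; fin_cases i <;> fin_cases j <;>
        simp [parB, Matrix.mul_apply, Fin.sum_univ_three, F4.add_sq hF]
  have hQmul : ∀ b c b' c' : F, parK (![0, b, c, 0, 0, 0]) (fun _ => false) *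
      parK (![0, b', c', 0, 0, 0]) (fun _ => false) =
      parK (![0, b + b', c + c', 0, 0, 0]) (fun _ => false) := fun b c b' c' => by
    simp only [parK, hP0, Matrix.mul_zero, Matrix.fromBlocks_multiply, Matrix.zero_mul, add_zero,
      zero_add]
    congr 1
    · ext i j; fin_cases i <;> fin_cases j <;> simp [parA, Matrix.mul_apply, Fin.sum_univ_three, add_comm]
    · ext i j; fin_cases i <;> fin_cases j <;>
        simp [parB, Matrix.mul_apply, Fin.sum_univ_three, F4.add_sq hF]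
  obtain ⟨P₀, hP₀⟩ := mkSub (fun a b => ![a, b, 0, 0, 0, 0])
    (by ext i; fin_cases i <;> rfl) hPmul
  obtain ⟨Q₀, hQ₀⟩ := mkSub (fun b c => ![0, b, c, 0, 0, 0])
    (by ext i; fin_cases i <;> rfl) hQmul
  have hPU : P₀ ≤ U := fun g hg => by obtain ⟨a, b, rfl⟩ := (hP₀ g).1 hg; exact hkU _ _
  have hQU : Q₀ ≤ U := fun g hg => by obtain ⟨a, b, rfl⟩ := (hQ₀ g).1 hg; exact hkU _ _
  have hEU : E₀ ≤ U := fun g hg => ((hE₀ g).1 hg).1
  have flat : ∀ X : Subgroup (SU 6 F 2),
      (∀ g ∈ X, ∀ g' ∈ X, (hypMat hF w g + 1) * (hypMat hF w g' + 1) = 0) →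
      Flat hF ((X.map π : Subgroup _) : Set (PSU 6 F 2)) := fun X h => by
    have h' := flat_of_mul_zero hF (X : Set (SU 6 F 2))
      fun g hg g' hg' y => nil_nil_of_hypMat hF hw3 hws (h g hg g' hg') y
    rwa [show QuotientGroup.mk '' (X : Set (SU 6 F 2)) = ((X.map π : Subgroup _) : Set (PSU 6 F 2)) by
      rw [Subgroup.coe_map]; exact Set.image_congr fun g _ => (hπ g).symm] at h'
  refine ⟨S, E₀.map π, P₀.map π, Q₀.map π, ?_, by rw [hScard, hS15], hSdef ▸ Subgroup.map_mono hEU,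
    hSdef ▸ Subgroup.map_mono hPU, hSdef ▸ Subgroup.map_mono hQU, flat E₀ ?_, flat P₀ ?_, flat Q₀ ?_,
    ?_, ?_, ?_, ?_, ?_, ?_⟩
  · have h := S.card_mul_index
    rw [hScard, hS15, hcard] at h
    rw [show S.index = 280665 by omega]
    exact ⟨140332, rfl⟩
  · intro g hg g' hg'
    obtain ⟨hgU, hg1⟩ := (hE₀ g).1 hg
    obtain ⟨hgU', hg1'⟩ := (hE₀ g').1 hg'
    obtain ⟨p, x, rfl⟩ := hsurj g hgU
    obtain ⟨p', x', rfl⟩ := hsurj g' hgU'
    rw [hTLk] at hg1 hg1'
    obtain ⟨a0, a1, a2⟩ := hA0 p hg1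
    obtain ⟨b0, b1, b2⟩ := hA0 p' hg1'
    have eB : ∀ q : Fin 6 → F, q 0 = 0 → q 1 = 0 → q 2 = 0 → parB q = 1 := fun q c0 c1 c2 => by
      ext i j; fin_cases i <;> fin_cases j <;> simp [parB, c0, c1, c2]
    rw [hk, hk, parK, parK, hg1, hg1', eB p a0 a1 a2, eB p' b0 b1 b2, ← Matrix.fromBlocks_one,
      Matrix.fromBlocks_add, Matrix.fromBlocks_add, Matrix.fromBlocks_multiply]
    ext i j
    rcases i with i | i <;> rcases j with j | j <;>
      simp [Matrix.mul_apply, Matrix.add_apply, h4]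
  · intro g hg g' hg'
    obtain ⟨a, b, rfl⟩ := (hP₀ g).1 hg
    obtain ⟨a', b', rfl⟩ := (hP₀ g').1 hg'
    rw [hk, hk, parK, parK, hP0, hP0, Matrix.mul_zero, Matrix.mul_zero, ← Matrix.fromBlocks_one,
      Matrix.fromBlocks_add, Matrix.fromBlocks_add, Matrix.fromBlocks_multiply]
    ext i j
    rcases i with i | i <;> rcases j with j | j <;> fin_cases i <;> fin_cases j <;>
      simp [parA, parB, Matrix.mul_apply, Matrix.add_apply, Fin.sum_univ_three, h4]
  · intro g hg g' hg'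
    obtain ⟨a, b, rfl⟩ := (hQ₀ g).1 hg
    obtain ⟨a', b', rfl⟩ := (hQ₀ g').1 hg'
    rw [hk, hk, parK, parK, hP0, hP0, Matrix.mul_zero, Matrix.mul_zero, ← Matrix.fromBlocks_one,
      Matrix.fromBlocks_add, Matrix.fromBlocks_add, Matrix.fromBlocks_multiply]
    ext i j
    rcases i with i | i <;> rcases j with j | j <;> fin_cases i <;> fin_cases j <;>
      simp [parA, parB, Matrix.mul_apply, Matrix.add_apply, Fin.sum_univ_three, h4]
  · -- order of `E`
    have hq : ∀ q : (Fin 3 → F) × (Fin 3 → Bool), k ![0, 0, 0, q.1 0, q.1 1, q.1 2] q.2 ∈ E₀ :=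
      fun q => (hE₀ _).2 ⟨hkU _ _, by
        rw [hTLk]; ext i j; fin_cases i <;> fin_cases j <;> simp [parA]⟩
    have hc : Nat.card ↥(E₀.map π) = Nat.card ((Fin 3 → F) × (Fin 3 → Bool)) := by
      refine (Nat.card_congr (Equiv.ofBijective
        (fun q => (⟨π (k ![0, 0, 0, q.1 0, q.1 1, q.1 2] q.2), _, hq q, rfl⟩ : ↥(E₀.map π)))
        ⟨fun a b h => ?_, ?_⟩)).symm
      · have h' := hinj2 _ (hkU _ _) _ (hkU _ _) (congrArg Subtype.val h :)
        have := parK_inj hF ((hk _ _).symm.trans ((congrArg (hypMat hF w) h').trans (hk _ _)))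
        refine Prod.ext (funext fun i => ?_) this.2
        fin_cases i
        · exact congrFun this.1 3
        · exact congrFun this.1 4
        · exact congrFun this.1 5
      · rintro ⟨_, g, hg, rfl⟩
        obtain ⟨hgU, hg1⟩ := (hE₀ g).1 hg
        obtain ⟨p, x, rfl⟩ := hsurj g hgU
        rw [hTLk] at hg1
        obtain ⟨a0, a1, a2⟩ := hA0 p hg1
        refine ⟨(![p 3, p 4, p 5], x), Subtype.ext (congrArg (fun q => π (k q x)) ?_)⟩
        ext i; fin_cases i <;> simp [a0, a1, a2]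
    rw [hc, Nat.card_eq_fintype_card, Fintype.card_prod, Fintype.card_fun, Fintype.card_fun, hF,
      Fintype.card_bool, Fintype.card_fin]
    norm_num
  · -- normality
    rw [← hSdef]
    rintro _ ⟨s, hs, rfl⟩ _ ⟨e, he, rfl⟩
    refine ⟨s * e * s⁻¹, (hE₀ _).2 ⟨mul_mem (mul_mem hs (hEU he)) (inv_mem hs), ?_⟩,
      by rw [map_mul, map_mul, map_inv]⟩
    obtain ⟨p, x, hsk⟩ := hsurj s hs
    obtain ⟨p', x', hek⟩ := hsurj e (hEU he)
    obtain ⟨p'', x'', hsek⟩ := hsurj _ (mul_mem hs (hEU he))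
    obtain ⟨pi, xi, hik⟩ := hsurj _ (inv_mem hs)
    have he1 : parA p' = 1 := by rw [← hTLk p' x', ← hek]; exact ((hE₀ e).1 he).2
    have hse : parA p'' = parA p := by
      rw [← hTLk p'' x'', ← hsek, hsk, hek, hTL, he1, Matrix.mul_one]
    have hone := hTL p pi x xi
    rw [← hsk, ← hik, mul_inv_cancel, hypMat_one hF hw3 hws] at hone
    rw [hsek, hik, hTL, hse, ← hone]
    ext i j; simp [Matrix.toBlocks₁₁, Matrix.one_apply]
  · rintro _ ⟨q, hq, rfl⟩ _ ⟨p, hp', rfl⟩
    obtain ⟨b, c, rfl⟩ := (hQ₀ q).1 hq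
    obtain ⟨a, b', rfl⟩ := (hP₀ p).1 hp'
    have hz : k ![0, b, c, 0, 0, 0] (fun _ => false) * k ![a, b', 0, 0, 0, 0] (fun _ => false) *
        (k ![0, b, c, 0, 0, 0] (fun _ => false) * k ![a, b', 0, 0, 0, 0] (fun _ => false)) =
        k ![0, a * c, 0, 0, 0, 0] (fun _ => false) := by
      refine hypMat_inj hF hw3 hws ?_
      simp only [hypMat_mul hF hw3 hws, hk, parK, hP0, Matrix.mul_zero, Matrix.fromBlocks_multiply,
        Matrix.zero_mul, add_zero, zero_add]
      congr 1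
      · ext i j; fin_cases i <;> fin_cases j <;>
          simp [parA, Matrix.mul_apply, Fin.sum_univ_three, h4]
        linear_combination (b + b') * F4.two_eq_zero hF
      · ext i j; fin_cases i <;> fin_cases j <;>
          simp [parB, Matrix.mul_apply, Fin.sum_univ_three, h4]
        linear_combination (b ^ 2 + b' ^ 2 + a ^ 2 * c ^ 2) * F4.two_eq_zero hF
    rw [← map_mul, ← map_mul, hz]
    exact ⟨⟨_, (hP₀ _).2 ⟨0, a * c, rfl⟩, rfl⟩, ⟨_, (hQ₀ _).2 ⟨a * c, 0, rfl⟩, rfl⟩⟩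
  · rintro _ ⟨p, hp', rfl⟩ _ ⟨q, hq, rfl⟩ hpq
    obtain ⟨a, b, rfl⟩ := (hP₀ p).1 hp'
    obtain ⟨b', c, rfl⟩ := (hQ₀ q).1 hq
    obtain ⟨e, he, hee⟩ := hpq
    have hpqU := mul_mem (hkU ![a, b, 0, 0, 0, 0] (fun _ => false)) (hkU ![0, b', c, 0, 0, 0] (fun _ => false))
    have heq := hinj2 e (hEU he) _ hpqU (hee.trans (map_mul π _ _).symm)
    have h1 := ((hE₀ e).1 he).2
    rw [heq, hTL] at h1
    have ha : a = 0 := by simpa [parA, Matrix.mul_apply, Fin.sum_univ_three] using congrFun (congrFun h1 0) 1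
    have hc : c = 0 := by simpa [parA, Matrix.mul_apply, Fin.sum_univ_three] using congrFun (congrFun h1 1) 2
    have hb : b' + b = 0 := by
      simpa [parA, Matrix.mul_apply, Fin.sum_univ_three, ha] using congrFun (congrFun h1 0) 2
    subst ha hc
    refine ⟨⟨_, (hP₀ _).2 ⟨0, b', rfl⟩, rfl⟩, ?_⟩
    rw [← map_mul, show k ![0, b, 0, 0, 0, 0] (fun _ => false) * k ![0, b', 0, 0, 0, 0] (fun _ => false) =
      1 from hypMat_inj hF hw3 hws ?_, map_one]
    rw [hypMat_mul hF hw3 hws, hk, hk, hPmul, hypMat_one hF hw3 hws, h4, add_comm b b', hb]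
    simp only [parK, hP0, Matrix.mul_zero]
    rw [← Matrix.fromBlocks_one]
    congr 1 <;> ext i j <;> fin_cases i <;> fin_cases j <;> simp [parA, parB]
  · rw [← hSdef]
    rintro _ ⟨s, hs, rfl⟩
    obtain ⟨p, x, hsk⟩ := hsurj s hs
    obtain ⟨r, hr⟩ : ∃ r, k ![p 0, 0, 0, 0, 0, 0] (fun _ => false) *
        k ![0, p 1 + p 0 * p 2, p 2, 0, 0, 0] (fun _ => false) = r := ⟨_, rfl⟩
    have hrU : r ∈ U := hr ▸ mul_mem (hkU _ _) (hkU _ _)
    have hrA : (hypMat hF w r).toBlocks₁₁ = parA p := by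
      rw [← hr, hTL]
      ext i j; fin_cases i <;> fin_cases j <;> simp [parA, Matrix.mul_apply, Fin.sum_univ_three]
      linear_combination (p 0 * p 2) * F4.two_eq_zero hF
    refine ⟨π (s * r⁻¹), ⟨_, (hE₀ _).2 ⟨mul_mem hs (inv_mem hrU), ?_⟩, rfl⟩,
      π (k ![p 0, 0, 0, 0, 0, 0] (fun _ => false)), ⟨_, (hP₀ _).2 ⟨p 0, 0, rfl⟩, rfl⟩,
      π (k ![0, p 1 + p 0 * p 2, p 2, 0, 0, 0] (fun _ => false)),
      ⟨_, (hQ₀ _).2 ⟨_, _, rfl⟩, rfl⟩, by rw [← map_mul π (k _ _), hr, ← map_mul, inv_mul_cancel_right]⟩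
    obtain ⟨pr, xr, hrk⟩ := hsurj r hrU
    obtain ⟨pi, xi, hik⟩ := hsurj _ (inv_mem hrU)
    have hone := hTL pr pi xr xi
    rw [← hrk, ← hik, mul_inv_cancel, hypMat_one hF hw3 hws] at hone
    rw [hik, hsk, hTL, ← hrA, hrk, hTLk, ← hone]
    ext i j; simp [Matrix.toBlocks₁₁, Matrix.one_apply]
  · refine ⟨fun p x => π (k p x), fun p x => hSdef ▸ ⟨_, hkU p x, rfl⟩, ?_, ?_, ?_, ?_⟩
    · rw [← hSdef]
      rintro _ ⟨s, hs, rfl⟩
      obtain ⟨p, x, rfl⟩ := hsurj s hs
      exact ⟨p, x, rfl⟩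
    · intro p x
      constructor
      · rintro ⟨g, hg, he⟩
        rw [← hTLk p x, ← hinj2 g (hEU hg) _ (hkU p x) he]
        exact ((hE₀ g).1 hg).2
      · intro h
        exact ⟨_, (hE₀ _).2 ⟨hkU p x, by rw [hTLk, h]⟩, rfl⟩
    · intro p x p' x' q y q' y'
      show π (k p x) * π (k p' x') = π (k q y) * π (k q' y') ↔ _
      rw [← map_mul, ← map_mul]
      refine ⟨fun h => ?_, fun h => congrArg π (hypMat_inj hF hw3 hws ?_)⟩
      · have h' := congrArg (hypMat hF w)
          (hinj2 _ (mul_mem (hkU p x) (hkU p' x')) _ (mul_mem (hkU q y) (hkU q' y')) h)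
        rwa [hypMat_mul hF hw3 hws, hypMat_mul hF hw3 hws, hk, hk, hk, hk] at h'
      · rwa [hypMat_mul hF hw3 hws, hypMat_mul hF hw3 hws, hk, hk, hk, hk]
    · intro p x p' x'
      show π (k p x) * π (k p' x') = 1 ↔ _
      rw [← map_mul]
      refine ⟨fun h => ?_, fun h => ?_⟩
      · have h' := congrArg (hypMat hF w) (hinj _ (mul_mem (hkU p x) (hkU p' x')) h)
        rwa [hypMat_mul hF hw3 hws, hk, hk, hypMat_one hF hw3 hws] at h'
      · rw [show k p x * k p' x' = 1 from hypMat_inj hF hw3 hws (by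
          rw [hypMat_mul hF hw3 hws, hk, hk, hypMat_one hF hw3 hws]; exact h), map_one]

end CfsgLib.ThreeTransp.U6Sylow94
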