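import Mathlib
import Cfsg.Agent.ThreeTransp.CoverCount94
import Cfsg.Agent.ThreeTransp.U6Sylow94
import Cfsg.Agent.ThreeTransp.ExtLift58

/-!
A central extension of `PSU(6, 2)` by a group of order two in which an invariant set picks, linearly
on flat subgroups, one of the two lifts of every element, has its kernel outside the commutator
subgroup.
-/

set_option autoImplicit false

namespace CfsgLib.ThreeTransp.U6Sylow94

open Cfsg

universe u

variable {F : Type} [Field F] [Fintype F]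

theorem u6_no_split (hF : Fintype.card F = 4) {E : Type u} [Group E] [Finite E]
    (f : E →* PSU 6 F 2) (hf : Function.Surjective f) {z : E}
    (hk : ∀ k, f k = 1 ↔ k = 1 ∨ k = z) (hzc : ∀ g, Commute z g)
    (hlift : ∀ g, f g * f g = 1 → g * g = 1) (Ω : Set E)
    (hinv : ∀ g, ∀ x ∈ Ω, g * x * g⁻¹ ∈ Ω) (hzΩ : z ∈ Ω) (hsqΩ : ∀ g, g * g ∉ Ω)
    (hadd : ∀ X : Set (PSU 6 F 2), Flat hF X → ∀ x y : E, f x ∈ X → f y ∈ X → x ∉ Ω → y ∉ Ω → x * y ∉ Ω)
    (hone : ∀ X : Set (PSU 6 F 2), Flat hF X → ∀ x : E, f x ∈ X → x ∈ Ω → x * z ∉ Ω) :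
    z ∉ commutator E := by
  classical
  obtain ⟨S, T, P, Q, hSodd, -, hTS, hPS, hQS, hfT, hfP, hfQ, -, hnorm, hcomm, hint, hdec, -⟩ :=
    exists_sylow_parts hF
  have h1Ω : (1 : E) ∉ Ω := fun h => hsqΩ 1 (by rwa [one_mul])
  have hzz : z * z = 1 := hlift z (by rw [(hk z).2 (Or.inr rfl), one_mul])
  -- elements of exponent two
  have sqT : ∀ {X : Subgroup (PSU 6 F 2)}, Flat hF (X : Set (PSU 6 F 2)) → ∀ u ∈ X, u * u = 1 := by
    rintro X ⟨W, hW, hX⟩ u hu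
    have hc : ∀ a ∈ PSU62.tp hF '' W, ∀ b ∈ PSU62.tp hF '' W, Commute a b := by
      rintro _ ⟨v, hv, rfl⟩ _ ⟨v', hv', rfl⟩
      by_cases hv0 : v = 0
      · subst hv0
        rw [show PSU62.tp hF (0 : Fin 6 → F) = 1 from ?_]
        · exact Commute.one_left _
        rw [PSU62.tp, ← QuotientGroup.mk_one]
        refine congrArg _ (CfsgLib.Unitary.sv_ext fun y => ?_)
        rw [PSU62.sv_tv hF (hW 0 hv 0 hv), smul_zero, add_zero, CfsgLib.Unitary.sv_one]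
      by_cases hv0' : v' = 0
      · subst hv0'
        rw [show PSU62.tp hF (0 : Fin 6 → F) = 1 from ?_]
        · exact Commute.one_right _
        rw [PSU62.tp, ← QuotientGroup.mk_one]
        refine congrArg _ (CfsgLib.Unitary.sv_ext fun y => ?_)
        rw [PSU62.sv_tv hF (hW 0 hv' 0 hv'), smul_zero, add_zero, CfsgLib.Unitary.sv_one]
      exact (PSU62.tp_commute_iff hF (hW v hv v hv) (hW v' hv' v' hv') hv0 hv0').2 (hW v' hv' v hv)
    have hmem : u ∈ Subgroup.closure (PSU62.tp hF '' W) := hX hu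
    have hab : ∀ a ∈ Subgroup.closure (PSU62.tp hF '' W), ∀ b ∈ PSU62.tp hF '' W, Commute a b := fun a ha b hb => by
      induction ha using Subgroup.closure_induction with
      | mem a ha => exact hc a ha b hb
      | one => exact Commute.one_left b
      | mul a a' _ _ h h' => exact h.mul_left h'
      | inv a _ h => exact h.inv_left
    have main : u * u = 1 ∧ ∀ a ∈ Subgroup.closure (PSU62.tp hF '' W), Commute u a := by
      clear hu
      induction hmem using Subgroup.closure_induction with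
      | mem a ha =>
        obtain ⟨v, hv, rfl⟩ := ha
        exact ⟨ExtLift58.tp_mul_self hF (hW v hv v hv), fun b hb => (hab b hb _ ⟨v, hv, rfl⟩).symm⟩
      | one => exact ⟨one_mul 1, fun _ _ => Commute.one_left _⟩
      | mul a a' ha ha' h h' =>
        exact ⟨by rw [(h'.2 a ha).mul_mul_mul_comm, h.1, h'.1, one_mul],
          fun b hb => (h.2 b hb).mul_left (h'.2 b hb)⟩
      | inv a _ h => exact ⟨by rw [← mul_inv_rev, h.1, inv_one], fun b hb => (h.2 b hb).inv_left⟩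
    exact main.1
  -- the chosen lifts
  have part : ∀ X : Subgroup (PSU 6 F 2), Flat hF (X : Set (PSU 6 F 2)) →
      ∃ X₀ : Subgroup E, ∀ e, e ∈ X₀ ↔ f e ∈ X ∧ e ∉ Ω := fun X hX =>
    ⟨{ carrier := {e | f e ∈ X ∧ e ∉ Ω}
       one_mem' := ⟨by rw [map_one]; exact one_mem X, h1Ω⟩
       mul_mem' := fun {a b} ha hb => ⟨by rw [map_mul]; exact mul_mem ha.1 hb.1,
         hadd _ hX a b ha.1 hb.1 ha.2 hb.2⟩
       inv_mem' := fun {a} ha => by
         rw [inv_eq_of_mul_eq_one_right (hlift a (sqT hX _ ha.1))]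
         exact ha }, fun _ => Iff.rfl⟩
  obtain ⟨H, hH⟩ := part T hfT
  obtain ⟨P₀, hP₀⟩ := part P hfP
  obtain ⟨Q₀, hQ₀⟩ := part Q hfQ
  -- the lift in `Ω` can be moved out of it
  have choose' : ∀ {X : Subgroup (PSU 6 F 2)}, Flat hF (X : Set (PSU 6 F 2)) → ∀ u ∈ X,
      ∃ e, f e = u ∧ e ∉ Ω := by
    intro X hX u hu
    obtain ⟨e, he⟩ := hf u
    by_cases h : e ∈ Ω
    · exact ⟨e * z, by rw [map_mul, (hk z).2 (Or.inr rfl), mul_one, he],
        hone _ hX e (show f e ∈ (X : Set _) by rw [he]; exact hu) h⟩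
    · exact ⟨e, he, h⟩
  have uniq : ∀ {X : Subgroup (PSU 6 F 2)}, Flat hF (X : Set (PSU 6 F 2)) → ∀ a b : E,
      f a ∈ X → f a = f b → a ∉ Ω → b ∉ Ω → a = b := by
    intro X hX a b ha hab haΩ hbΩ
    have haa := hlift a (sqT hX _ ha)
    rcases (hk (a * b)).1 (by rw [map_mul, ← hab, sqT hX _ ha]) with h | h
    · exact (inv_eq_of_mul_eq_one_right haa).symm.trans (inv_eq_of_mul_eq_one_right h)
    · exact absurd hzΩ (h ▸ hadd _ hX a b ha (by rw [← hab]; exact ha) haΩ hbΩ)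
  -- the complement
  have hswap : ∀ q ∈ Q₀, ∀ p ∈ P₀, ∃ c ∈ Q₀, q * p = p * c := by
    intro q hq p hp
    obtain ⟨hqX, hqΩ⟩ := (hQ₀ q).1 hq
    obtain ⟨hpX, -⟩ := (hP₀ p).1 hp
    have hin := hcomm _ hqX _ hpX
    rw [← map_mul, ← map_mul] at hin
    refine ⟨q * ((q * p) * (q * p)), mul_mem hq ((hQ₀ _).2 ⟨hin.2, hsqΩ _⟩), ?_⟩
    have hp2 := hlift p (sqT hfP _ hpX)
    have hq2 := hlift q (sqT hfQ _ hqX)
    calc q * p = (p * p) * (q * p) := by rw [hp2, one_mul]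
      _ = p * (q * q * (p * (q * p))) := by rw [hq2, one_mul, mul_assoc]
      _ = _ := by simp only [mul_assoc]
  obtain ⟨L, hL⟩ : ∃ L : Subgroup E, ∀ e, e ∈ L ↔ ∃ p ∈ P₀, ∃ q ∈ Q₀, e = p * q := by
    refine ⟨{ carrier := {e | ∃ p ∈ P₀, ∃ q ∈ Q₀, e = p * q}
              one_mem' := ⟨1, one_mem _, 1, one_mem _, (one_mul 1).symm⟩
              mul_mem' := ?_
              inv_mem' := ?_ }, fun _ => Iff.rfl⟩
    · rintro _ _ ⟨p, hp, q, hq, rfl⟩ ⟨p', hp', q', hq', rfl⟩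
      obtain ⟨c, hc, e⟩ := hswap q hq p' hp'
      exact ⟨p * p', mul_mem hp hp', c * q', mul_mem hc hq', by
        rw [mul_assoc, ← mul_assoc q, e]; simp [mul_assoc]⟩
    · rintro _ ⟨p, hp, q, hq, rfl⟩
      obtain ⟨c, hc, e⟩ := hswap _ (inv_mem hq) _ (inv_mem hp)
      exact ⟨p⁻¹, inv_mem hp, c, hc, by rw [mul_inv_rev, e]⟩
  have hzX : ∀ X : Subgroup (PSU 6 F 2), f z ∈ X := fun X => by
    rw [(hk z).2 (Or.inr rfl)]; exact one_mem X
  refine Cover94.central_not_commutator_of_split (S := S.comap f) (A := T.comap f) (L := L) (H := H)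
    hzc ?_ (Subgroup.comap_mono hTS) ?_ ?_ (fun e he => Subgroup.mem_comap.2 ((hH e).1 he).1)
    (hzX T) (fun h => ((hH z).1 h).2 hzΩ) ?_ ?_ ?_
  · rwa [Subgroup.index_comap_of_surjective _ hf]
  · intro e he
    obtain ⟨p, hp, q, hq, rfl⟩ := (hL e).1 he
    rw [Subgroup.mem_comap, map_mul]
    exact mul_mem (hPS ((hP₀ p).1 hp).1) (hQS ((hQ₀ q).1 hq).1)
  · intro s hs
    obtain ⟨t, ht, p, hp, q, hq, e⟩ := hdec _ (Subgroup.mem_comap.1 hs)
    obtain ⟨p₀, hp1, hp2⟩ := choose' hfP p hp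
    obtain ⟨q₀, hq1, hq2⟩ := choose' hfQ q hq
    refine ⟨s * (p₀ * q₀)⁻¹, ?_, p₀ * q₀, (hL _).2 ⟨p₀, (hP₀ _).2 ⟨hp1 ▸ hp, hp2⟩, q₀,
      (hQ₀ _).2 ⟨hq1 ▸ hq, hq2⟩, rfl⟩, by simp [mul_assoc]⟩
    rw [Subgroup.mem_comap, map_mul, map_inv, map_mul, hp1, hq1, e, mul_inv_cancel_right]
    exact ht
  · intro a ha
    by_cases h : a ∈ Ω
    · exact Or.inr ((hH _).2 ⟨by rw [map_mul, (hk z).2 (Or.inr rfl), mul_one]; exact ha,
        hone _ hfT a ha h⟩)
    · exact Or.inl ((hH a).2 ⟨ha, h⟩)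
  · intro l hl h hh
    obtain ⟨p, hp, q, hq, rfl⟩ := (hL l).1 hl
    refine (hH _).2 ⟨?_, fun hΩ => ((hH h).1 hh).2 ?_⟩
    · rw [map_mul, map_mul, map_inv, map_mul]
      exact hnorm _ (mul_mem (hPS ((hP₀ p).1 hp).1) (hQS ((hQ₀ q).1 hq).1)) _ ((hH h).1 hh).1
    · simpa [mul_assoc] using hinv (p * q)⁻¹ _ hΩ
  · intro l hl hlT
    obtain ⟨p, hp, q, hq, rfl⟩ := (hL l).1 hl
    rw [Subgroup.mem_comap, map_mul] at hlT
    obtain ⟨hpX, hpΩ⟩ := (hP₀ p).1 hp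
    obtain ⟨hqX, hqΩ⟩ := (hQ₀ q).1 hq
    obtain ⟨hqP, h1⟩ := hint _ hpX _ hqX hlT
    have hpq : p = q := uniq hfP p q hpX (by
      rw [← mul_left_inj (f q), h1, sqT hfP _ hqP]) hpΩ hqΩ
    rw [hpq, hlift q (sqT hfP _ hqP)]
    exact one_mem H

end CfsgLib.ThreeTransp.U6Sylow94
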