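import Mathlib
import Cfsg.Agent.ThreeTransp.M22CoverBase94
import Cfsg.Agent.ThreeTransp.U6Split94

/-!
In a double cover of a group of type M(22) by an involution `d` the lifts conjugate to `d` in the
preimage of a base span are not the complement of a hyperplane: the preimage of the centralizer of
a member would split and the transfer to the kernel would not vanish.
-/

set_option autoImplicit false

namespace CfsgLib.ThreeTransp

open Cfsg PSU62

universe u v

variable {G : Type v} [Group G] [Finite G] {M : Type u} [Group M] [Finite M] {D : Set M} {d : G}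
variable {f : ↥(Subgroup.centralizer ({d} : Set G)) →* M}

theorem cover_no_hyperplane94 (hc : CoverData94 d f) (hG : IsThreeTranspositionGroup D)
    (hp : IsPrimitiveUnderConj D) (h22 : IsOfTypeM22 M D) {B₀ : Set M} (hB₀ : MaxClique53 D B₀)
    (hne₀ : B₀.Nonempty)
    (hsplit : ∀ x ∈ coverA94 f B₀, IsConj d (x * d) ↔ ¬ IsConj d x)
    (hadd : ∀ x ∈ coverA94 f B₀, ∀ y ∈ coverA94 f B₀, ¬ IsConj d x → ¬ IsConj d y →
      ¬ IsConj d (x * y)) : False := by
  classical
  have hD := hG.1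
  -- the hypothesis holds at every base
  have every : ∀ B, MaxClique53 D B → B.Nonempty →
      (∀ x ∈ coverA94 f B, IsConj d (x * d) ↔ ¬ IsConj d x) ∧
      ∀ x ∈ coverA94 f B, ∀ y ∈ coverA94 f B, ¬ IsConj d x → ¬ IsConj d y → ¬ IsConj d (x * y) := by
    intro B hB hne
    obtain ⟨c, hcC, hiff⟩ := cover_max_conj94 hc hG hp h22 hB₀ hne₀ (coverA94 f B)
      (Subgroup.map_subtype_le _) (coverA94_sq hc hG hp h22 hB) (coverA94_card hc hG hp h22 hB hne)
    have hin : ∀ x ∈ coverA94 f B, c * x * c⁻¹ ∈ coverA94 f B₀ := fun x hx =>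
      (hiff _).2 (by simpa [mul_assoc] using hx)
    have hcj : ∀ x : G, IsConj d (c * x * c⁻¹) ↔ IsConj d x := fun x =>
      ⟨fun h => h.trans (isConj_iff.2 ⟨c⁻¹, by simp [mul_assoc]⟩),
        fun h => h.trans (isConj_iff.2 ⟨c, rfl⟩)⟩
    refine ⟨fun x hx => ?_, fun x hx y hy h1 h2 => ?_⟩
    · have h := hsplit _ (hin x hx)
      rwa [show c * x * c⁻¹ * d = c * (x * d) * c⁻¹ by
        simp only [mul_assoc]
        rw [(Subgroup.mem_centralizer_singleton_iff.1 (inv_mem hcC) : c⁻¹ * d = d * c⁻¹)],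
        hcj, hcj] at h
    · rw [← hcj] at h1 h2 ⊢
      rw [show c * (x * y) * c⁻¹ = (c * x * c⁻¹) * (c * y * c⁻¹) by simp [mul_assoc]]
      exact hadd _ (hin x hx) _ (hin y hy) h1 h2
  -- a Sylow subgroup, its base, and a member commuting with none of it
  haveI : Fact (Nat.Prime 2) := ⟨Nat.prime_two⟩
  obtain ⟨T⟩ : Nonempty (Sylow 2 M) := inferInstance
  obtain ⟨B, hB, hne, hET, -, hTN, -⟩ := m22_sylow_base94 hG hp h22 T
  obtain ⟨hsplitB, haddB⟩ := every B hB hne
  have hcard := m22_base_profile hG hp h22 hB hne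
  obtain ⟨o, ho, -, hoB⟩ := Set.nonempty_of_ncard_ne_zero (by rw [hcard]; norm_num :
    {x | x ∈ D ∧ x ∉ B ∧ ∀ b ∈ B, ¬ Commute x b}.ncard ≠ 0)
  obtain ⟨F, _, _, hF, ψ, hψ, hψker, hψon, hψcomm⟩ := m22_nbr_hom94 hG hp h22 ho
  have hCo := m22_centralizer_eq hG hp h22 ho
  have oo : o * o = 1 := tt_mul_self hD ho
  have ho1 : o ≠ 1 := tt_ne_one hD ho
  -- bases through `o`
  have through : ∀ e : M, e * e = 1 → Commute e o →
      ∃ B', MaxClique53 D B' ∧ B'.Nonempty ∧ o ∈ B' ∧ e ∈ Subgroup.closure B' := by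
    intro e he heo
    obtain ⟨l, hlD, hlc, hlp⟩ : ∃ l : List M, (∀ a ∈ l, a ∈ D) ∧
        (∀ a ∈ l, ∀ b ∈ l, Commute a b) ∧ l.prod = e ∧ ∀ a ∈ l, Commute o a := by
      by_cases he1 : e = 1
      · exact ⟨[], by simp, by simp, by simp [he1], by simp⟩
      obtain ⟨m, -, h3, l, hnd, hlen, hm, hcc, hpr⟩ :=
        m22_involution_fact hG hp h22 (orderOf_eq_prime (p := 2) (by rw [pow_two]; exact he) he1)
      exact ⟨l, hm, hcc, hpr, commute_of_commute_prod hD ho l (by omega) hnd hm hcc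
        (by rw [hpr]; exact heo.symm)⟩
    obtain ⟨B', hB', hne', hsub⟩ := clique_extend94 (S := insert o {a | a ∈ l}) ⟨o, Set.mem_insert _ _⟩
      (Set.insert_subset ho hlD) (by
        intro x hx y hy
        rcases hx with rfl | hx <;> rcases hy with rfl | hy
        · exact Commute.refl _
        · exact hlp.2 y hy
        · exact (hlp.2 x hx).symm
        · exact hlc x hx y hy)
    exact ⟨B', hB', hne', hsub (Set.mem_insert _ _), hlp.1 ▸ list_prod_mem fun a ha =>
      Subgroup.subset_closure (hsub (Set.mem_insert_of_mem _ ha))⟩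
  have inA : ∀ (B' : Set M) (x : ↥(Subgroup.centralizer ({d} : Set G))),
      f x ∈ Subgroup.closure B' → (x : G) ∈ coverA94 f B' := fun B' x hx => mem_coverA94.2 ⟨x.2, hx⟩
  -- the lifts of `o`
  obtain ⟨o', ho'⟩ := hc.surj o
  obtain ⟨Bo, hBo, hneo, hoBo, -⟩ := through 1 (one_mul 1) (Commute.one_left o)
  obtain ⟨o₀, ho₀, ho₀n, ho₀d⟩ : ∃ o₀, f o₀ = o ∧ ¬ IsConj d (o₀ : G) ∧ IsConj d ((o₀ : G) * d) := by
    have hmem := inA Bo o' (ho' ▸ Subgroup.subset_closure hoBo)
    by_cases h : IsConj d (o' : G)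
    · have hn : ¬ IsConj d ((o' : G) * d) := fun h2 => ((every Bo hBo hneo).1 _ hmem).1 h2 h
      refine ⟨o' * ⟨d, hc.self_mem⟩, by rw [map_mul, hc.f_self, mul_one, ho'], hn, ?_⟩
      rw [Subgroup.coe_mul, mul_assoc, hc.sq, mul_one]; exact h
    · exact ⟨o', ho', h, ((every Bo hBo hneo).1 _ hmem).2 h⟩
  -- the preimage of the centralizer of `o` and its quotient
  obtain ⟨K, hK⟩ : ∃ K, (Subgroup.closure (nbr D o)).comap f = K := ⟨_, rfl⟩
  have hKmem : ∀ k : ↥K, f k ∈ Subgroup.closure (nbr D o) := fun k =>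
    SetLike.le_def.1 hK.ge k.2
  have hKo : ∀ k : ↥K, Commute (f k) o := fun k => commute_of_mem_closure_nbr (hKmem k)
  have hoK : o₀ ∈ K := by
    rw [← hK, Subgroup.mem_comap, ho₀, ← hCo]
    exact Subgroup.mem_centralizer_singleton_iff.2 rfl
  have hdK : (⟨d, hc.self_mem⟩ : ↥(Subgroup.centralizer ({d} : Set G))) ∈ K := by
    rw [← hK, Subgroup.mem_comap, hc.f_self]; exact one_mem _
  obtain ⟨g₀, hg₀⟩ : ∃ g₀ : ↥K →* ↥(Subgroup.closure (nbr D o)), ∀ k, (g₀ k : M) = f k :=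
    ⟨(f.comp K.subtype).codRestrict _ hKmem, fun _ => rfl⟩
  have ho₀c : ∀ k : ↥K, Commute (⟨o₀, hoK⟩ : ↥K) k := by
    intro k
    obtain ⟨X, hX⟩ : ∃ X : Subgroup ↥(Subgroup.centralizer ({d} : Set G)),
        Subgroup.centralizer {o₀} = X := ⟨_, rfl⟩
    have hle : Subgroup.closure (nbr D o) ≤ X.map f := by
      rw [Subgroup.closure_le]
      intro y hy
      obtain ⟨y', rfl⟩ := hc.surj y
      refine ⟨y', hX ▸ Subgroup.mem_centralizer_singleton_iff.2 ?_, rfl⟩
      exact (hc.commute_lifts (tt_mul_self hD hy.1) (by rw [ho₀]; exact oo)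
        (by rw [ho₀]; exact hy.2.2.symm)).eq
    obtain ⟨x, hx, hxe⟩ := hle (hKmem k)
    have hxo : Commute x o₀ := Subgroup.mem_centralizer_singleton_iff.1 (hX.symm ▸ hx)
    refine Subtype.ext ?_
    show o₀ * (k : ↥(Subgroup.centralizer ({d} : Set G))) = k * o₀
    rcases hc.lift_cases hxe with h | h <;> rw [h]
    · exact hxo.eq.symm
    · exact ((hxo.mul_left (hc.central o₀)).eq).symm
  obtain ⟨N, hN⟩ : ∃ N, Subgroup.zpowers (⟨o₀, hoK⟩ : ↥K) = N := ⟨_, rfl⟩
  have hNmem : ∀ k : ↥K, k ∈ N ↔ k = 1 ∨ k = ⟨o₀, hoK⟩ := by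
    intro k
    rw [← hN]
    refine ⟨fun h => ?_, ?_⟩
    · obtain ⟨n, rfl⟩ := Subgroup.mem_zpowers_iff.1 h
      have h2 : (⟨o₀, hoK⟩ : ↥K) ^ (2 : ℤ) = 1 := by
        rw [zpow_two]; exact Subtype.ext (hc.lift o₀ (by rw [ho₀]; exact oo))
      rcases Int.even_or_odd n with ⟨i, hi⟩ | ⟨i, hi⟩ <;> subst hi
      · left; rw [← two_mul, zpow_mul, h2, one_zpow]
      · right; rw [zpow_add_one, zpow_mul, h2, one_zpow, one_mul]
    · rintro (rfl | rfl)
      · exact one_mem _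
      · exact Subgroup.mem_zpowers _
  haveI : N.Normal := ⟨fun n hn g => by
    rcases (hNmem n).1 hn with rfl | rfl
    · simp
    · rw [← (ho₀c g).eq, mul_inv_cancel_right]; exact hn⟩
  obtain ⟨g, hg⟩ : ∃ g : ↥K ⧸ N →* PSU 6 F 2, ∀ k, g (QuotientGroup.mk k) = ψ (g₀ k) := by
    refine ⟨QuotientGroup.lift N (ψ.comp g₀) fun k hk => ?_, fun k => rfl⟩
    rw [MonoidHom.mem_ker, MonoidHom.comp_apply, hψker]
    rcases (hNmem k).1 hk with rfl | rfl
    · left; rw [map_one]; rfl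
    · right; rw [hg₀]; exact ho₀
  obtain ⟨z, hz⟩ : ∃ z, (QuotientGroup.mk (⟨⟨d, hc.self_mem⟩, hdK⟩ : ↥K) : ↥K ⧸ N) = z := ⟨_, rfl⟩
  have hgsurj : Function.Surjective g := by
    intro u
    obtain ⟨y, rfl⟩ := hψ u
    obtain ⟨k, hk⟩ := hc.surj (y : M)
    refine ⟨QuotientGroup.mk ⟨k, by rw [← hK, Subgroup.mem_comap, hk]; exact y.2⟩, ?_⟩
    rw [hg]
    exact congrArg ψ (Subtype.ext ((hg₀ _).trans hk))
  have hdo : ∀ k : ↥K, f k = o → (k : ↥(Subgroup.centralizer ({d} : Set G))) = o₀ ∨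
      (k : ↥(Subgroup.centralizer ({d} : Set G))) = o₀ * ⟨d, hc.self_mem⟩ :=
    fun k hk => hc.lift_cases (ho₀.trans hk.symm)
  have hgker : ∀ k, g k = 1 ↔ k = 1 ∨ k = z := by
    intro k
    obtain ⟨k, rfl⟩ := QuotientGroup.mk_surjective k
    rw [hg, hψker, hg₀, ← hz]
    constructor
    · rintro (h | h)
      · rcases (hc.ker _).1 h with h' | h'
        · left; rw [show k = 1 from Subtype.ext (Subtype.ext h')]; rfl
        · right; rw [show k = ⟨⟨d, hc.self_mem⟩, hdK⟩ from Subtype.ext (Subtype.ext h')]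
      · rcases hdo k h with h' | h'
        · left
          rw [show k = ⟨o₀, hoK⟩ from Subtype.ext h', QuotientGroup.eq_one_iff]
          exact (hNmem _).2 (Or.inr rfl)
        · right
          rw [show k = ⟨o₀, hoK⟩ * ⟨⟨d, hc.self_mem⟩, hdK⟩ from Subtype.ext h', QuotientGroup.mk_mul,
            (QuotientGroup.eq_one_iff _).2 ((hNmem ⟨o₀, hoK⟩).2 (Or.inr rfl)), one_mul]
    · rintro (h | h)
      · rw [QuotientGroup.eq_one_iff] at h
        rcases (hNmem k).1 h with rfl | rfl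
        · left; exact map_one f
        · right; exact ho₀
      · rw [QuotientGroup.eq] at h
        rcases (hNmem _).1 h with h' | h'
        · rw [inv_mul_eq_one] at h'
          left; rw [h']; exact hc.f_self
        · rw [inv_mul_eq_iff_eq_mul] at h'
          right
          have h2 := congrArg (fun x : ↥K => f x) h'
          simp only [Subgroup.coe_mul, map_mul, hc.f_self, ho₀] at h2
          have h3 : f k = o⁻¹ := eq_inv_of_mul_eq_one_left h2.symm
          rw [h3, tt_inv hD ho]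
  have hzc : ∀ k, Commute z k := by
    intro k
    obtain ⟨k, rfl⟩ := QuotientGroup.mk_surjective k
    rw [← hz]
    exact (show Commute (⟨⟨d, hc.self_mem⟩, hdK⟩ : ↥K) k from Subtype.ext (hc.central _).eq).map
      (QuotientGroup.mk' N)
  have hglift : ∀ k, g k * g k = 1 → k * k = 1 := by
    intro k hk
    obtain ⟨k, rfl⟩ := QuotientGroup.mk_surjective k
    rw [hg, ← map_mul, ← map_mul, hψker, hg₀] at hk
    rw [← QuotientGroup.mk_mul, QuotientGroup.eq_one_iff, hNmem]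
    rcases hk with h | h
    · rcases (hc.ker _).1 h with h' | h'
      · exact Or.inl (Subtype.ext (Subtype.ext h'))
      · exact absurd h' (hc.nosq _)
    · rcases hdo _ h with h' | h'
      · exact Or.inr (Subtype.ext h')
      · exact absurd ho₀d (by
          rw [show ((o₀ : G) * d) = ((k : ↥(Subgroup.centralizer ({d} : Set G))) : G) *
            ((k : ↥(Subgroup.centralizer ({d} : Set G))) : G) from (congrArg Subtype.val h').symm]
          exact hc.not_conj_sq _)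
  obtain ⟨Ω, hΩ⟩ : ∃ Ω : Set (↥K ⧸ N), ∀ x, x ∈ Ω ↔
      ∃ k : ↥K, QuotientGroup.mk k = x ∧ IsConj d ((k : ↥(Subgroup.centralizer ({d} : Set G))) : G) :=
    ⟨{x | _}, fun _ => Iff.rfl⟩
  have hrep : ∀ k : ↥K, (QuotientGroup.mk k : ↥K ⧸ N) ∈ Ω →
      IsConj d ((k : ↥(Subgroup.centralizer ({d} : Set G))) : G) ∨
        IsConj d (((k : ↥(Subgroup.centralizer ({d} : Set G))) : G) * (o₀ : G)) := by
    intro k h
    obtain ⟨k', he, hk'⟩ := (hΩ _).1 h
    rw [eq_comm, QuotientGroup.eq] at he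
    rcases (hNmem _).1 he with h' | h'
    · rw [inv_mul_eq_one] at h'
      rw [h']; exact Or.inl hk'
    · rw [inv_mul_eq_iff_eq_mul] at h'
      rw [h'] at hk'
      exact Or.inr hk'
  have hnot : ∀ (B' : Set M), MaxClique53 D B' → B'.Nonempty → o ∈ B' → ∀ k : ↥K,
      f k ∈ Subgroup.closure B' → ((QuotientGroup.mk k : ↥K ⧸ N) ∉ Ω ↔
        ¬ IsConj d ((k : ↥(Subgroup.centralizer ({d} : Set G))) : G)) := by
    intro B' hB' hne' hoB' k hk
    refine ⟨fun h h2 => h ((hΩ _).2 ⟨k, rfl, h2⟩), fun h h2 => ?_⟩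
    rcases hrep k h2 with h3 | h3
    · exact h h3
    · exact (every B' hB' hne').2 _ (inA B' _ hk) _
        (inA B' o₀ (ho₀ ▸ Subgroup.subset_closure hoB')) h ho₀n h3
  have hΩinv : ∀ u, ∀ x ∈ Ω, u * x * u⁻¹ ∈ Ω := by
    intro u x hx
    obtain ⟨u, rfl⟩ := QuotientGroup.mk_surjective u
    obtain ⟨k, rfl, hk⟩ := (hΩ x).1 hx
    refine (hΩ _).2 ⟨u * k * u⁻¹, by simp, hk.trans (isConj_iff.2
      ⟨((u : ↥(Subgroup.centralizer ({d} : Set G))) : G), by simp⟩)⟩
  have hΩsq : ∀ u, u * u ∉ Ω := by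
    intro u h
    obtain ⟨u, rfl⟩ := QuotientGroup.mk_surjective u
    rw [← QuotientGroup.mk_mul] at h
    rcases hrep _ h with h1 | h1
    · exact hc.not_conj_sq _ h1
    obtain ⟨y, hy⟩ : ∃ y : ↥(Subgroup.centralizer ({d} : Set G)),
        ((u * u : ↥K) : ↥(Subgroup.centralizer ({d} : Set G))) = y := ⟨_, rfl⟩
    rw [hy] at h1
    have hyo : Commute y o₀ :=
      hy ▸ (show Commute ((u * u : ↥K) : ↥(Subgroup.centralizer ({d} : Set G))) o₀ from
        congrArg Subtype.val (ho₀c (u * u)).eq.symm)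
    have hyy : y * y = 1 := by
      have h2 : (y * o₀) * (y * o₀) = 1 := by
        obtain ⟨c, hc'⟩ := isConj_iff.1 h1
        refine Subtype.ext ?_
        rw [Subgroup.coe_mul, Subgroup.coe_mul, ← hc',
          show c * d * c⁻¹ * (c * d * c⁻¹) = c * (d * d) * c⁻¹ by simp [mul_assoc], hc.sq]
        simp
      rwa [hyo.symm.mul_mul_mul_comm, hc.lift o₀ (by rw [ho₀]; exact oo), mul_one] at h2
    have he : f y * f y = 1 := by rw [← map_mul, hyy, map_one]
    obtain ⟨B', hB', hne', hoB', hmem⟩ := through _ he (hy ▸ hKo (u * u))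
    refine (every B' hB' hne').2 _ (inA B' y hmem) _
      (inA B' o₀ (ho₀ ▸ Subgroup.subset_closure hoB')) ?_ ho₀n h1
    rw [← hy]
    exact hc.not_conj_sq _
  have hflat : ∀ X : Set (PSU 6 F 2), U6Sylow94.Flat hF X → ∃ B', MaxClique53 D B' ∧ B'.Nonempty ∧
      o ∈ B' ∧ ∀ k : ↥K, g (QuotientGroup.mk k) ∈ X → f k ∈ Subgroup.closure B' := by
    rintro X ⟨W, hW, hX⟩
    obtain ⟨Y, hY⟩ : ∃ Y : Set ↥(Subgroup.closure (nbr D o)),
        {y : ↥(Subgroup.closure (nbr D o)) | (y : M) ∈ nbr D o ∧ ψ y ∈ PSU62.tp hF '' W} = Y := ⟨_, rfl⟩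
    have hYmem : ∀ y ∈ Y, (y : M) ∈ nbr D o ∧ ∃ v ∈ W, v ≠ 0 ∧ ψ y = PSU62.tp hF v := by
      intro y hy
      rw [← hY] at hy
      obtain ⟨hyn, v, hv, he⟩ := hy
      refine ⟨hyn, v, hv, fun h0 => ?_, he.symm⟩
      subst h0
      have h1 : ψ y = 1 := by
        rw [← he, PSU62.tp, ← QuotientGroup.mk_one]
        refine congrArg _ (CfsgLib.Unitary.sv_ext fun x => ?_)
        rw [PSU62.sv_tv hF (hW 0 hv 0 hv), smul_zero, add_zero, CfsgLib.Unitary.sv_one]
      rcases (hψker y).1 h1 with h | h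
      · exact tt_ne_one hD hyn.1 h
      · exact hyn.2.1 h
    obtain ⟨B', hB', hne', hsub⟩ := clique_extend94 (D := D)
      (S := insert o ((fun y : ↥(Subgroup.closure (nbr D o)) => (y : M)) '' Y)) ⟨o, Set.mem_insert _ _⟩
      (Set.insert_subset ho (by rintro _ ⟨y, hy, rfl⟩; exact (hYmem y hy).1.1)) (by
        intro x hx y hy
        rcases hx with rfl | ⟨x, hx, rfl⟩ <;> rcases hy with rfl | ⟨y, hy, rfl⟩
        · exact Commute.refl _
        · exact (hYmem y hy).1.2.2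
        · exact (hYmem x hx).1.2.2.symm
        · obtain ⟨hxn, v, hv, hv0, hxv⟩ := hYmem x hx
          obtain ⟨hyn, v', hv', hv0', hyv⟩ := hYmem y hy
          refine hψcomm x y hxn hyn ?_
          rw [hxv, hyv]
          exact (PSU62.tp_commute_iff hF (hW v hv v hv) (hW v' hv' v' hv') hv0 hv0').2
            (hW v' hv' v hv))
    refine ⟨B', hB', hne', hsub (Set.mem_insert _ _), fun k hk => ?_⟩
    rw [hg] at hk
    have hle : Subgroup.closure (PSU62.tp hF '' W) ≤ (Subgroup.closure Y).map ψ := by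
      rw [Subgroup.closure_le]
      rintro _ ⟨v, hv, rfl⟩
      by_cases hv0 : v = 0
      · subst hv0
        rw [show PSU62.tp hF (0 : Fin 6 → F) = 1 from ?_]
        · exact one_mem _
        rw [PSU62.tp, ← QuotientGroup.mk_one]
        refine congrArg _ (CfsgLib.Unitary.sv_ext fun x => ?_)
        rw [PSU62.sv_tv hF (hW 0 hv 0 hv), smul_zero, add_zero, CfsgLib.Unitary.sv_one]
      obtain ⟨y, hy, he⟩ := hψon v (hW v hv v hv) hv0
      exact ⟨y, Subgroup.subset_closure (hY ▸ ⟨hy, v, hv, he.symm⟩), he⟩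
    obtain ⟨s, hs, hse⟩ := hle (hX hk)
    have hsB : (s : M) ∈ Subgroup.closure B' := by
      have : Subgroup.closure Y ≤
          (Subgroup.closure B').comap (Subgroup.closure (nbr D o)).subtype := by
        rw [Subgroup.closure_le]
        exact fun y hy => Subgroup.subset_closure (hsub (Set.mem_insert_of_mem _ ⟨y, hy, rfl⟩))
      exact this hs
    rcases (hψker (s⁻¹ * g₀ k)).1 (by rw [map_mul, map_inv, hse, inv_mul_cancel]) with h | h <;>
      rw [Subgroup.coe_mul, Subgroup.coe_inv, hg₀, inv_mul_eq_iff_eq_mul] at h <;> rw [h]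
    · rw [mul_one]; exact hsB
    · exact mul_mem hsB (Subgroup.subset_closure (hsub (Set.mem_insert _ _)))
  have hnc : z ∉ commutator (↥K ⧸ N) := by
    refine U6Sylow94.u6_no_split hF g hgsurj hgker hzc hglift Ω hΩinv ?_ hΩsq ?_ ?_
    · exact (hΩ _).2 ⟨_, hz, IsConj.refl d⟩
    · intro X hX x y hx hy hxΩ hyΩ
      obtain ⟨B', hB', hne', hoB', hin⟩ := hflat X hX
      obtain ⟨x, rfl⟩ := QuotientGroup.mk_surjective x
      obtain ⟨y, rfl⟩ := QuotientGroup.mk_surjective y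
      rw [← QuotientGroup.mk_mul]
      have hxy : f (x * y : ↥K) ∈ Subgroup.closure B' := by
        rw [Subgroup.coe_mul, map_mul]; exact mul_mem (hin x hx) (hin y hy)
      rw [hnot B' hB' hne' hoB' _ hxy]
      rw [hnot B' hB' hne' hoB' _ (hin x hx)] at hxΩ
      rw [hnot B' hB' hne' hoB' _ (hin y hy)] at hyΩ
      exact (every B' hB' hne').2 _ (inA B' _ (hin x hx)) _ (inA B' _ (hin y hy)) hxΩ hyΩ
    · intro X hX x hx hxΩ
      obtain ⟨B', hB', hne', hoB', hin⟩ := hflat X hX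
      obtain ⟨x, rfl⟩ := QuotientGroup.mk_surjective x
      rw [← hz, ← QuotientGroup.mk_mul]
      have hxd : f (x * ⟨⟨d, hc.self_mem⟩, hdK⟩ : ↥K) ∈ Subgroup.closure B' := by
        rw [Subgroup.coe_mul, map_mul, hc.f_self, mul_one]; exact hin x hx
      have hxc : IsConj d ((x : ↥(Subgroup.centralizer ({d} : Set G))) : G) := by
        by_contra h
        exact ((hnot B' hB' hne' hoB' x (hin x hx)).2 h) hxΩ
      rw [hnot B' hB' hne' hoB' _ hxd]
      exact fun h => ((every B' hB' hne').1 _ (inA B' _ (hin x hx))).1 h hxc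
  -- the complement
  obtain ⟨Kc, hKc⟩ : ∃ Kc, ((commutator (↥K ⧸ N)).comap (QuotientGroup.mk' N)).map K.subtype = Kc :=
    ⟨_, rfl⟩
  have hdKc : (⟨d, hc.self_mem⟩ : ↥(Subgroup.centralizer ({d} : Set G))) ∉ Kc := by
    rw [← hKc]
    rintro ⟨k, hk, he⟩
    refine hnc ?_
    rw [← hz, show (⟨⟨d, hc.self_mem⟩, hdK⟩ : ↥K) = k from Subtype.ext he.symm]
    exact hk
  have hKconto : ∀ t ∈ Subgroup.closure (nbr D o), ∃ l ∈ Kc, f l = t := by
    intro t ht
    have hmap : (commutator (↥K ⧸ N)).map g = ⊤ := by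
      rw [commutator_def, Subgroup.map_commutator, Subgroup.map_top_of_surjective _ hgsurj,
        ← commutator_def, psu62_commutator94 hF]
    obtain ⟨x, hx, hxe⟩ : ψ ⟨t, ht⟩ ∈ (commutator (↥K ⧸ N)).map g := by
      rw [hmap]; exact Subgroup.mem_top _
    obtain ⟨k, rfl⟩ := QuotientGroup.mk_surjective x
    rw [hg] at hxe
    have hkc : (k : ↥(Subgroup.centralizer ({d} : Set G))) ∈ Kc := hKc ▸ ⟨k, hx, rfl⟩
    rcases (hψker ((⟨t, ht⟩ : ↥(Subgroup.closure (nbr D o)))⁻¹ * g₀ k)).1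
      (by rw [map_mul, map_inv, hxe, inv_mul_cancel]) with h | h <;>
      rw [Subgroup.coe_mul, Subgroup.coe_inv, hg₀, inv_mul_eq_iff_eq_mul] at h
    · exact ⟨k, hkc, by rw [h, mul_one]⟩
    · refine ⟨(k : ↥(Subgroup.centralizer ({d} : Set G))) * o₀, mul_mem hkc ?_, ?_⟩
      · rw [← hKc]
        refine ⟨⟨o₀, hoK⟩, ?_, rfl⟩
        show (QuotientGroup.mk (⟨o₀, hoK⟩ : ↥K) : ↥K ⧸ N) ∈ commutator _
        rw [(QuotientGroup.eq_one_iff _).2 ((hNmem _).2 (Or.inr rfl))]
        exact one_mem _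
      · rw [map_mul, h, ho₀, mul_assoc, oo, mul_one]
  -- the hyperplane
  obtain ⟨H, hH⟩ : ∃ H : Subgroup ↥(Subgroup.centralizer ({d} : Set G)),
      ∀ x, x ∈ H ↔ f x ∈ Subgroup.closure B ∧ ¬ IsConj d (x : G) :=
    ⟨{ carrier := {x | f x ∈ Subgroup.closure B ∧ ¬ IsConj d (x : G)}
       one_mem' := ⟨by rw [map_one]; exact one_mem _, fun h => hc.ne (isConj_one_left.1 h)⟩
       mul_mem' := fun {a b} ha hb => ⟨by rw [map_mul]; exact mul_mem ha.1 hb.1,
         haddB _ (inA B a ha.1) _ (inA B b hb.1) ha.2 hb.2⟩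
       inv_mem' := fun {a} ha => by
         rw [inv_eq_of_mul_eq_one_right (hc.lift a (m22_base_span94 hG hp h22 hB ha.1).1)]
         exact ha }, fun _ => Iff.rfl⟩
  refine Cover94.central_not_commutator_of_split (S := (T : Subgroup M).comap f)
    (A := (Subgroup.closure B).comap f) (L := Kc ⊓ (T : Subgroup M).comap f) (H := H)
    (z := (⟨d, hc.self_mem⟩ : ↥(Subgroup.centralizer ({d} : Set G)))) hc.central ?_
    (Subgroup.comap_mono hET) inf_le_right ?_ (fun x hx => Subgroup.mem_comap.2 ((hH x).1 hx).1)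
    (Subgroup.mem_comap.2 (by rw [hc.f_self]; exact one_mem _))
    (fun h => ((hH _).1 h).2 (IsConj.refl d)) ?_ ?_ ?_ (hc.perf.symm ▸ Subgroup.mem_top _)
  · rw [Subgroup.index_comap_of_surjective _ hc.surj]
    exact Nat.not_even_iff_odd.1 fun h => T.not_dvd_index (even_iff_two_dvd.1 h)
  · intro s hs
    have hst : f s ∈ (T : Subgroup M) := Subgroup.mem_comap.1 hs
    have htn := Subgroup.mem_set_normalizer_iff.1 (hTN hst)
    have hto : ∀ b ∈ B, ¬ Commute (f s * o * (f s)⁻¹) b := by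
      intro b hb h
      refine hoB _ ((htn ((f s)⁻¹ * b * f s)).2 (by simpa [mul_assoc] using hb)) ?_
      exact (commute_conj_iff' (g := f s)).1 (by simpa [mul_assoc] using h)
    obtain ⟨e, he, heo⟩ := m22_base_regular hG hp h22 hB hne ho hoB (hG.2.1 _ o ho) hto
    have ht' : e⁻¹ * f s ∈ Subgroup.closure (nbr D o) := by
      rw [← hCo, Subgroup.mem_centralizer_singleton_iff]
      calc e⁻¹ * f s * o = e⁻¹ * (f s * o * (f s)⁻¹) * f s := by simp [mul_assoc]
        _ = o * (e⁻¹ * f s) := by rw [← heo]; simp [mul_assoc]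
    obtain ⟨l, hl, hle⟩ := hKconto _ ht'
    refine ⟨s * l⁻¹, ?_, l, ⟨hl, ?_⟩, by simp⟩
    · rw [Subgroup.mem_comap, map_mul, map_inv, hle, mul_inv_rev, inv_inv, ← mul_assoc,
        mul_inv_cancel, one_mul]
      exact he
    · show f l ∈ (T : Subgroup M)
      rw [hle]; exact mul_mem (inv_mem (hET he)) hst
  · intro a ha
    by_cases h : IsConj d (a : G)
    · refine Or.inr ((hH _).2 ⟨by rw [map_mul, hc.f_self, mul_one]; exact Subgroup.mem_comap.1 ha, ?_⟩)
      exact fun h2 => (hsplitB _ (inA B a (Subgroup.mem_comap.1 ha))).1 h2 h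
    · exact Or.inl ((hH a).2 ⟨Subgroup.mem_comap.1 ha, h⟩)
  · intro l hl x hx
    obtain ⟨hxE, hxn⟩ := (hH x).1 hx
    have htn := Subgroup.mem_set_normalizer_iff.1 (hTN (Subgroup.mem_comap.1 hl.2))
    refine (hH _).2 ⟨?_, fun h => hxn (h.trans (isConj_iff.2
      ⟨((l : G))⁻¹, by simp [mul_assoc]⟩))⟩
    rw [map_mul, map_mul, map_inv]
    have : Subgroup.closure B ≤ (Subgroup.closure B).comap (MulAut.conj (f l)).toMonoidHom := by
      rw [Subgroup.closure_le]
      exact fun b hb => Subgroup.subset_closure ((htn b).1 hb)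
    exact this hxE
  · intro l hl hlA
    obtain ⟨k, -, he⟩ : l ∈ ((commutator (↥K ⧸ N)).comap (QuotientGroup.mk' N)).map K.subtype :=
      hKc ▸ hl.1
    have hco : Commute (f l) o := he ▸ hKo k
    have h1 := m22_base_free hG hp h22 hB (Subgroup.mem_comap.1 hlA) ho hoB hco
    rcases (hc.ker l).1 h1 with h | h
    · rw [show l = 1 from Subtype.ext h]; exact one_mem _
    · exact absurd hl.1 ((show l = ⟨d, hc.self_mem⟩ from Subtype.ext h) ▸ hdKc)

end CfsgLib.ThreeTransp
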