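import Mathlib

/-!
A transitive action on the 276 pair products of 24 commuting elements cannot have the stabilizer of
a pair fix a point of the pair: the preferred points would give a regular orientation of the
complete graph on 24 points.
-/

set_option autoImplicit false

namespace CfsgLib.ThreeTransp

universe u v

theorem triangular_contra94 {G : Type u} [Group G] [Finite G] {P : Type v} [Fintype P]
    [DecidableEq P] (hP : Fintype.card P = 24) (N : Subgroup G) (O : Set G) (v : P → G)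
    (hv : ∀ p, v p * v p = 1) (hvc : ∀ p q, Commute (v p) (v q))
    (hO : ∀ x, x ∈ O ↔ ∃ p q, p ≠ q ∧ v p * v q = x) (hcard : O.ncard = 276)
    (hinv : ∀ n ∈ N, ∀ x ∈ O, n * x * n⁻¹ ∈ O)
    (htr : ∀ x ∈ O, ∀ y ∈ O, ∃ n ∈ N, n * x * n⁻¹ = y)
    {i₀ i₁ : P} (hne : i₀ ≠ i₁)
    (h44 : {y | y ∈ O ∧ v i₀ * v i₁ * y ∈ O}.ncard ≤ 44)
    (hfix : ∀ n ∈ N, n * (v i₀ * v i₁) * n⁻¹ = v i₀ * v i₁ →
      ∀ q, q ≠ i₀ → ∃ r, r ≠ i₀ ∧ n * (v i₀ * v q) * n⁻¹ = v i₀ * v r) : False := by
  classical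
  -- pair products determine their pairs
  obtain ⟨π, hπ⟩ : ∃ π : Sym2 P → G, ∀ p q, π s(p, q) = v p * v q :=
    ⟨Sym2.lift ⟨fun p q => v p * v q, fun p q => (hvc p q).eq⟩, fun _ _ => rfl⟩
  have huniq : ∀ p q p' q', p ≠ q → p' ≠ q' → v p * v q = v p' * v q' →
      p = p' ∧ q = q' ∨ p = q' ∧ q = p' := by
    intro p q p' q' h1 h2 e
    have himg : π '' {z : Sym2 P | ¬ z.IsDiag} = O := by
      ext x
      rw [hO]
      constructor
      · rintro ⟨z, hz, rfl⟩
        induction z using Sym2.ind with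
        | _ a b => exact ⟨a, b, fun h => hz (Sym2.mk_isDiag_iff.2 h), (hπ a b).symm⟩
      · rintro ⟨a, b, hab, rfl⟩
        exact ⟨s(a, b), fun h => hab (Sym2.mk_isDiag_iff.1 h), hπ a b⟩
    have hsize : {z : Sym2 P | ¬ z.IsDiag}.ncard = 276 := by
      rw [← Nat.card_coe_set_eq, Nat.card_eq_fintype_card]
      refine (Fintype.card_congr (Equiv.refl _)).trans (Sym2.card_subtype_not_diag.trans ?_)
      rw [hP]; rfl
    have hinj : Set.InjOn π {z : Sym2 P | ¬ z.IsDiag} :=
      Set.injOn_of_ncard_image_eq (by rw [himg, hcard, hsize]) (Set.toFinite _)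
    have := hinj (fun h => h1 (Sym2.mk_isDiag_iff.1 h)) (fun h => h2 (Sym2.mk_isDiag_iff.1 h))
      (by rw [hπ, hπ, e] : π s(p, q) = π s(p', q'))
    exact Sym2.eq_iff.1 this
  -- adjacency is sharing a point
  have hcount : ∀ x ∈ O, {y | y ∈ O ∧ x * y ∈ O}.ncard ≤ 44 := by
    intro x hx
    obtain ⟨n, hn, e⟩ := htr x hx _ ((hO _).2 ⟨i₀, i₁, hne, rfl⟩)
    refine le_trans (Set.ncard_le_ncard_of_injOn (fun y => n * y * n⁻¹) ?_ ?_ (Set.toFinite _)) h44
    · rintro y ⟨hy, hxy⟩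
      refine ⟨hinv n hn y hy, ?_⟩
      rw [← e, show n * x * n⁻¹ * (n * y * n⁻¹) = n * (x * y) * n⁻¹ by simp [mul_assoc]]
      exact hinv n hn _ hxy
    · intro a _ b _ h
      simpa using h
  have hshare : ∀ p q r t, p ≠ q → r ≠ t → v p * v q * (v r * v t) ∈ O →
      (r = p ∨ r = q) ∨ (t = p ∨ t = q) := by
    intro p q r t hpq hrt hmem
    have hx := (hO _).2 ⟨p, q, hpq, rfl⟩
    obtain ⟨S, hS⟩ : ∃ S : Finset G,
        ((Finset.univ.filter fun s => s ≠ p ∧ s ≠ q).image fun s => v p * v s) ∪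
          ((Finset.univ.filter fun s => s ≠ p ∧ s ≠ q).image fun s => v q * v s) = S := ⟨_, rfl⟩
    have hf : (Finset.univ.filter fun s : P => s ≠ p ∧ s ≠ q).card = 22 := by
      rw [show (Finset.univ.filter fun s : P => s ≠ p ∧ s ≠ q) = (Finset.univ.erase q).erase p by
        ext s; simp, Finset.card_erase_of_mem (by simp [hpq]),
        Finset.card_erase_of_mem (Finset.mem_univ _), Finset.card_univ, hP]
    have hScard : S.card = 44 := by
      rw [← hS, Finset.card_union_of_disjoint, Finset.card_image_of_injOn,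
        Finset.card_image_of_injOn, hf]
      · intro a ha b hb h
        simp only [Finset.coe_filter, Finset.mem_univ, true_and, Set.mem_setOf_eq] at ha hb
        rcases huniq q a q b ha.2.symm hb.2.symm h with ⟨-, h'⟩ | ⟨h', -⟩
        · exact h'
        · exact absurd h'.symm hb.2
      · intro a ha b hb h
        simp only [Finset.coe_filter, Finset.mem_univ, true_and, Set.mem_setOf_eq] at ha hb
        rcases huniq p a p b ha.1.symm hb.1.symm h with ⟨-, h'⟩ | ⟨h', -⟩
        · exact h'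
        · exact absurd h'.symm hb.1
      · rw [Finset.disjoint_left]
        intro y h1 h2
        simp only [Finset.mem_image, Finset.mem_filter, Finset.mem_univ, true_and] at h1 h2
        obtain ⟨a, ⟨ha1, ha2⟩, rfl⟩ := h1
        obtain ⟨b, ⟨hb1, hb2⟩, e⟩ := h2
        rcases huniq q b p a hb2.symm ha1.symm e with ⟨h, -⟩ | ⟨-, h⟩
        · exact hpq h.symm
        · exact hb1 h
    have hsub : (S : Set G) ⊆ {y | y ∈ O ∧ v p * v q * y ∈ O} := by
      rw [← hS]
      intro y hy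
      simp only [Finset.coe_union, Finset.coe_image, Set.mem_union, Set.mem_image,
        Finset.mem_coe, Finset.mem_filter, Finset.mem_univ, true_and] at hy
      rcases hy with ⟨s, ⟨hs1, hs2⟩, rfl⟩ | ⟨s, ⟨hs1, hs2⟩, rfl⟩
      · refine ⟨(hO _).2 ⟨p, s, hs1.symm, rfl⟩, (hO _).2 ⟨q, s, hs2.symm, ?_⟩⟩
        rw [(hvc p q).eq, mul_assoc, ← mul_assoc (v p), hv, one_mul]
      · refine ⟨(hO _).2 ⟨q, s, hs2.symm, rfl⟩, (hO _).2 ⟨p, s, hs1.symm, ?_⟩⟩
        rw [mul_assoc, ← mul_assoc (v q), hv, one_mul]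
    have heq := Set.eq_of_subset_of_ncard_le hsub
      (by rw [Set.ncard_coe_finset, hScard]; exact hcount _ hx) (Set.toFinite _)
    have : v r * v t ∈ S := by
      rw [← Finset.mem_coe, heq]
      exact ⟨(hO _).2 ⟨r, t, hrt, rfl⟩, hmem⟩
    rw [← hS] at this
    simp only [Finset.mem_union, Finset.mem_image, Finset.mem_filter, Finset.mem_univ,
      true_and] at this
    rcases this with ⟨s, ⟨hs1, hs2⟩, e⟩ | ⟨s, ⟨hs1, hs2⟩, e⟩
    · rcases huniq p s r t hs1.symm hrt e with ⟨h, -⟩ | ⟨h, -⟩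
      · exact Or.inl (Or.inl h.symm)
      · exact Or.inr (Or.inl h.symm)
    · rcases huniq q s r t hs2.symm hrt e with ⟨h, -⟩ | ⟨h, -⟩
      · exact Or.inl (Or.inr h.symm)
      · exact Or.inr (Or.inr h.symm)
  -- stars
  obtain ⟨star, hstar⟩ : ∃ star : P → Set G, ∀ p x, x ∈ star p ↔ ∃ q, q ≠ p ∧ v p * v q = x :=
    ⟨fun p => {x | _}, fun _ _ => Iff.rfl⟩
  have hstarO : ∀ p x, x ∈ star p → x ∈ O := fun p x h => by
    obtain ⟨q, hq, rfl⟩ := (hstar p x).1 h
    exact (hO _).2 ⟨p, q, hq.symm, rfl⟩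
  have hstarmem : ∀ p q r, q ≠ r → (v q * v r ∈ star p ↔ p = q ∨ p = r) := by
    intro p q r hqr
    rw [hstar]
    constructor
    · rintro ⟨s, hs, e⟩
      rcases huniq p s q r hs.symm hqr e with ⟨h, -⟩ | ⟨h, -⟩
      · exact Or.inl h
      · exact Or.inr h
    · rintro (rfl | rfl)
      · exact ⟨r, hqr.symm, rfl⟩
      · exact ⟨q, hqr, (hvc p q).eq⟩
  have hstarcard : ∀ p, (star p).ncard = 23 := by
    intro p
    rw [show star p = (((Finset.univ.erase p).image fun q => v p * v q : Finset G) : Set G) by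
      ext x; simp [hstar], Set.ncard_coe_finset,
      Finset.card_image_of_injOn (f := fun q => v p * v q) (by
        intro a ha b hb h
        simp only [Finset.coe_erase, Set.mem_diff, Set.mem_singleton_iff] at ha hb
        rcases huniq p a p b (Ne.symm ha.2) (Ne.symm hb.2) h with ⟨-, h'⟩ | ⟨h', -⟩
        · exact h'
        · exact absurd h'.symm hb.2),
      Finset.card_erase_of_mem (Finset.mem_univ _), Finset.card_univ, hP]
  have hstarinj : ∀ p p', star p = star p' → p = p' := by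
    intro p p' h
    obtain ⟨q, hq⟩ : ∃ q, q ∉ ({p, p'} : Finset P) := by
      by_contra hcon
      push Not at hcon
      have := (Finset.card_le_card (s := Finset.univ) (fun x _ => hcon x)).trans (Finset.card_le_two (a := p) (b := p'))
      rw [Finset.card_univ, hP] at this
      omega
    simp only [Finset.mem_insert, Finset.mem_singleton, not_or] at hq
    have := (hstarmem p p q (Ne.symm hq.1)).2 (Or.inl rfl)
    rw [h, hstarmem p' p q (Ne.symm hq.1)] at this
    rcases this with h' | h'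
    · exact h'.symm
    · exact absurd h'.symm hq.2
  -- images of stars
  obtain ⟨act, hact⟩ : ∃ act : G → Set G → Set G, ∀ n S, act n S = (fun x => n * x * n⁻¹) '' S :=
    ⟨_, fun _ _ => rfl⟩
  have act_mul : ∀ m n S, act (m * n) S = act m (act n S) := by
    intro m n S
    rw [hact, hact, hact, Set.image_image]
    exact Set.image_congr fun x _ => by simp [mul_assoc]
  have act_one : ∀ S, act 1 S = S := fun S => by simp [hact]
  have act_inj : ∀ n, Function.Injective (act n) := fun n S T h => by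
    rw [← act_one S, ← act_one T, ← inv_mul_cancel n, act_mul, act_mul, h]
  have hline : ∀ n ∈ N, ∀ p, ∃ p', act n (star p) = star p' := by
    intro n hn p
    obtain ⟨T, hT⟩ : ∃ T, act n (star p) = T := ⟨_, rfl⟩
    rw [hT]
    have hTO : ∀ x ∈ T, x ∈ O := by
      rw [← hT, hact]
      rintro _ ⟨x, hx, rfl⟩
      exact hinv n hn x (hstarO p x hx)
    have hTadj : ∀ x ∈ T, ∀ y ∈ T, x ≠ y → x * y ∈ O := by
      rw [← hT, hact]
      rintro _ ⟨x, hx, rfl⟩ _ ⟨y, hy, rfl⟩ hxy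
      obtain ⟨a, ha, rfl⟩ := (hstar p x).1 hx
      obtain ⟨b, hb, rfl⟩ := (hstar p y).1 hy
      rw [show n * (v p * v a) * n⁻¹ * (n * (v p * v b) * n⁻¹) = n * (v a * v b) * n⁻¹ by
        rw [(hvc p a).eq]
        simp [mul_assoc, ← mul_assoc (v p) (v p), hv]]
      refine hinv n hn _ ((hO _).2 ⟨a, b, fun h => hxy (by rw [h]), rfl⟩)
    have hTc : T.ncard = 23 := by
      rw [← hT, hact, Set.ncard_image_of_injective _ (fun a b h => by simpa using h), hstarcard]
    obtain ⟨x₀, hx₀⟩ := Set.nonempty_of_ncard_ne_zero (s := T) (by rw [hTc]; norm_num)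
    obtain ⟨a, b, hab, rfl⟩ := (hO _).1 (hTO x₀ hx₀)
    by_contra hnot
    push Not at hnot
    have away : ∀ c, ∃ y ∈ T, y ∉ star c := by
      intro c
      by_contra h
      push Not at h
      exact hnot c (Set.eq_of_subset_of_ncard_le h (by rw [hstarcard, hTc]) (Set.toFinite _))
    have cases2 : ∀ y ∈ T, y ∈ star a ∨ y ∈ star b := by
      intro y hy
      obtain ⟨r, t, hrt, rfl⟩ := (hO _).1 (hTO y hy)
      by_cases he : v a * v b = v r * v t
      · rw [← he]; exact Or.inl ((hstarmem a a b hab).2 (Or.inl rfl))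
      rcases hshare a b r t hab hrt (hTadj _ hx₀ _ hy he) with (h | h) | (h | h) <;> subst h
      · exact Or.inl ((hstarmem _ _ t hrt).2 (Or.inl rfl))
      · exact Or.inr ((hstarmem _ _ t hrt).2 (Or.inl rfl))
      · exact Or.inl ((hstarmem _ r _ hrt).2 (Or.inr rfl))
      · exact Or.inr ((hstarmem _ r _ hrt).2 (Or.inr rfl))
    have hthird : ∀ y ∈ T, ∀ z ∈ T, y ∉ star b → z ∉ star a →
        ∃ c, c ≠ a ∧ c ≠ b ∧ y = v a * v c ∧ z = v b * v c := by
      intro y hy z hz hyb hza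
      obtain ⟨c, hc, rfl⟩ := (hstar a y).1 ((cases2 y hy).resolve_right hyb)
      obtain ⟨c', hc', rfl⟩ := (hstar b z).1 ((cases2 z hz).resolve_left hza)
      have hcb : c ≠ b := fun h => hyb ((hstarmem b a c hc.symm).2 (Or.inr h.symm))
      have hca' : c' ≠ a := fun h => hza ((hstarmem a b c' hc'.symm).2 (Or.inr h.symm))
      have hne2 : v a * v c ≠ v b * v c' := fun h => hyb (by
        rw [h]; exact (hstarmem b b c' hc'.symm).2 (Or.inl rfl))
      refine ⟨c, hc, hcb, rfl, ?_⟩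
      rcases hshare a c b c' hc.symm hc'.symm (hTadj _ hy _ hz hne2) with (h | h) | (h | h)
      · exact absurd h hab.symm
      · exact absurd h.symm hcb
      · exact absurd h hca'
      · rw [h]
    obtain ⟨y, hy, hyb⟩ := away b
    obtain ⟨z, hz, hza⟩ := away a
    obtain ⟨c, hca, hcb, hyc, hzc⟩ := hthird y hy z hz hyb hza
    have hsub : T ⊆ ({v a * v b, y, z} : Set G) := by
      intro w hw
      by_cases hwb : w ∈ star b
      · by_cases hwa : w ∈ star a
        · obtain ⟨c', hc', rfl⟩ := (hstar a w).1 hwa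
          rcases (hstarmem b a c' hc'.symm).1 hwb with h | h
          · exact absurd h hab.symm
          · left; rw [h]
        · right; right
          obtain ⟨c', -, -, hyc', hwc⟩ := hthird y hy w hw hyb hwa
          rw [hyc] at hyc'
          rw [hwc, hzc, mul_left_cancel hyc']
          rfl
      · right; left
        obtain ⟨c', -, -, hwc, hzc'⟩ := hthird w hw z hz hwb hza
        rw [hzc] at hzc'
        rw [hwc, hyc, mul_left_cancel hzc']
    have h1 := Set.ncard_le_ncard hsub (Set.toFinite _)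
    have h2 := Set.ncard_insert_le (v a * v b) ({y, z} : Set G)
    have h3 := Set.ncard_insert_le y ({z} : Set G)
    rw [Set.ncard_singleton] at h3
    rw [hTc] at h1
    omega
  -- the preferred point of a pair
  obtain ⟨x₀, hx₀e⟩ : ∃ x₀, v i₀ * v i₁ = x₀ := ⟨_, rfl⟩
  have hx₀ : x₀ ∈ O := hx₀e ▸ (hO _).2 ⟨i₀, i₁, hne, rfl⟩
  have hH : ∀ x : ↥O, ∃ p, ∀ n ∈ N, n * x₀ * n⁻¹ = x → act n (star i₀) = star p := by
    rintro ⟨x, hx⟩
    obtain ⟨n₀, hn₀, e₀⟩ := htr _ hx₀ _ hx
    obtain ⟨p, hp⟩ := hline n₀ hn₀ i₀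
    refine ⟨p, fun n hn e => ?_⟩
    rw [← hp, ← mul_inv_cancel_left n₀ n, act_mul]
    congr 1
    have hst : n₀⁻¹ * n * x₀ * (n₀⁻¹ * n)⁻¹ = x₀ := by
      rw [show n₀⁻¹ * n * x₀ * (n₀⁻¹ * n)⁻¹ = n₀⁻¹ * (n * x₀ * n⁻¹) * n₀ by simp [mul_assoc],
        e.trans e₀.symm]
      simp [mul_assoc]
    refine Set.eq_of_subset_of_ncard_le ?_ ?_ (Set.toFinite _)
    · rw [hact]
      rintro _ ⟨y, hy, rfl⟩
      obtain ⟨q, hq, rfl⟩ := (hstar i₀ y).1 hy
      obtain ⟨r, hr, e'⟩ := hfix _ (mul_mem (inv_mem hn₀) hn) (hx₀e.symm ▸ hst) q hq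
      exact (hstar i₀ _).2 ⟨r, hr, e'.symm⟩
    · rw [hact, Set.ncard_image_of_injective _ (fun a b h => by simpa using h)]
  choose H hH using hH
  have hHmem : ∀ x : ↥O, (x : G) ∈ star (H x) := by
    rintro ⟨x, hx⟩
    obtain ⟨n, hn, e⟩ := htr _ hx₀ _ hx
    rw [← hH ⟨x, hx⟩ n hn e, hact]
    exact ⟨x₀, hx₀e ▸ (hstarmem i₀ i₀ i₁ hne).2 (Or.inl rfl), e⟩
  have hL : ∀ x : ↥O, ∃ q, q ≠ H x ∧ v (H x) * v q = x := fun x => (hstar _ _).1 (hHmem x)
  choose L hL1 hL2 using hL
  obtain ⟨mv, hmv⟩ : ∃ mv : ↥N → ↥O → ↥O, ∀ m x, (mv m x : G) = (m : G) * x * (m : G)⁻¹ :=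
    ⟨fun m x => ⟨_, hinv m m.2 x x.2⟩, fun _ _ => rfl⟩
  have hHeq : ∀ (m : ↥N) (x : ↥O), act m (star (H x)) = star (H (mv m x)) := by
    intro m x
    obtain ⟨n, hn, e⟩ := htr _ hx₀ _ x.2
    rw [← hH x n hn e, ← act_mul]
    refine hH (mv m x) _ (mul_mem m.2 hn) ?_
    rw [hmv, ← e]; simp [mul_assoc]
  have hLeq : ∀ (m : ↥N) (x : ↥O), act m (star (L x)) = star (L (mv m x)) := by
    intro m x
    obtain ⟨p', hp'⟩ := hline m m.2 (L x)
    have hmem : (mv m x : G) ∈ star p' := by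
      rw [← hp', hact, hmv]
      exact ⟨(x : G), by rw [← hL2 x, hstarmem _ _ _ (hL1 x).symm]; exact Or.inr rfl, rfl⟩
    rw [← hL2 (mv m x), hstarmem _ _ _ (hL1 _).symm] at hmem
    rcases hmem with h | h
    · exact absurd (hstarinj _ _ (act_inj _ (hp'.trans (by rw [h, hHeq])))) (hL1 x)
    · rw [hp', h]
  -- weights
  obtain ⟨w, hw⟩ : ∃ w : P → ℕ, ∀ p, w p = {x : ↥O | H x = p}.ncard := ⟨_, fun _ => rfl⟩
  have hwle : ∀ (m : ↥N) p p', act m (star p) = star p' → w p ≤ w p' := by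
    intro m p p' h
    rw [hw, hw]
    refine Set.ncard_le_ncard_of_injOn (mv m) (fun x hx => hstarinj _ _ ?_)
      (fun a _ b _ e => Subtype.ext ?_) (Set.toFinite _)
    · rw [← hHeq, show H x = p from hx, h]
    · have := congrArg Subtype.val e
      rw [hmv, hmv] at this
      simpa using this
  have hweq : ∀ (m : ↥N) p p', act m (star p) = star p' → w p = w p' := by
    intro m p p' h
    refine le_antisymm (hwle m p p' h) (hwle m⁻¹ p' p ?_)
    rw [← h, ← act_mul, Subgroup.coe_inv, inv_mul_cancel, act_one]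
  have hmove : ∀ x y : ↥O, ∃ m : ↥N, mv m x = y := fun x y => by
    obtain ⟨n, hn, e⟩ := htr _ x.2 _ y.2
    exact ⟨⟨n, hn⟩, Subtype.ext (by rw [hmv]; exact e)⟩
  have hwH : ∀ x y : ↥O, w (H x) = w (H y) := fun x y => by
    obtain ⟨m, rfl⟩ := hmove x y
    exact hweq m _ _ (hHeq m x)
  have hwL : ∀ x y : ↥O, w (L x) = w (L y) := fun x y => by
    obtain ⟨m, rfl⟩ := hmove x y
    exact hweq m _ _ (hLeq m x)
  have hHpos : ∀ x : ↥O, 0 < w (H x) := fun x => by
    rw [hw]
    exact (Set.ncard_pos (Set.toFinite _)).2 ⟨x, rfl⟩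
  have hpair : ∀ p q, p ≠ q → ∃ x : ↥O, (H x = p ∧ L x = q) ∨ (H x = q ∧ L x = p) := by
    intro p q hpq
    obtain ⟨x, hx⟩ : ∃ x : ↥O, (x : G) = v p * v q := ⟨⟨_, (hO _).2 ⟨p, q, hpq, rfl⟩⟩, rfl⟩
    exact ⟨x, huniq _ _ _ _ (hL1 x).symm hpq ((hL2 x).trans hx)⟩
  by_cases hall : ∀ p, 0 < w p
  · have hconst : ∀ p, w p = w (H ⟨x₀, hx₀⟩) := fun p => by
      obtain ⟨x, hx⟩ := Set.nonempty_of_ncard_ne_zero (s := {x : ↥O | H x = p})
        (by rw [← hw]; exact (hall p).ne')
      rw [← show H x = p from hx]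
      exact hwH _ _
    haveI := Fintype.ofFinite ↥O
    have hsum : ∑ p, w p = 276 := by
      rw [← hcard, ← Nat.card_coe_set_eq, Nat.card_eq_fintype_card, ← Finset.card_univ,
        Finset.card_eq_sum_card_fiberwise (f := H) (t := Finset.univ) fun x _ => Finset.mem_univ _]
      refine Finset.sum_congr rfl fun p _ => ?_
      rw [hw, Set.ncard_eq_toFinset_card']
      congr 1
      ext x; simp
    rw [Finset.sum_congr rfl (fun p _ => hconst p), Finset.sum_const, Finset.card_univ, hP,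
      smul_eq_mul] at hsum
    omega
  · push Not at hall
    obtain ⟨p, hp⟩ := hall
    have hLzero : ∀ x : ↥O, w (L x) = 0 := by
      intro x
      obtain ⟨q, hq⟩ : ∃ q, q ≠ p := by
        by_cases h : i₀ = p
        · exact ⟨i₁, fun e => hne (h.trans e.symm)⟩
        · exact ⟨i₀, h⟩
      obtain ⟨z, hz | hz⟩ := hpair q p hq
      · rw [hwL x z, hz.2]; omega
      · have := hHpos z
        rw [hz.1] at this
        omega
    obtain ⟨p', hp'⟩ : ∃ p', H ⟨x₀, hx₀⟩ = p' := ⟨_, rfl⟩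
    have hp'pos : 0 < w p' := hp' ▸ hHpos _
    obtain ⟨r, hr⟩ : ∃ r, r ∉ ({p', p} : Finset P) := by
      by_contra hcon
      push Not at hcon
      have := (Finset.card_le_card (s := Finset.univ) (fun x _ => hcon x)).trans (Finset.card_le_two (a := p') (b := p))
      rw [Finset.card_univ, hP] at this
      omega
    simp only [Finset.mem_insert, Finset.mem_singleton, not_or] at hr
    have hwr : w r = 0 := by
      obtain ⟨z, hz | hz⟩ := hpair p' r (Ne.symm hr.1)
      · rw [← hz.2]; exact hLzero z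
      · have := hLzero z
        rw [hz.2] at this
        omega
    obtain ⟨z, hz | hz⟩ := hpair p r (Ne.symm hr.2) <;>
    · have := hHpos z
      rw [hz.1] at this
      omega

end CfsgLib.ThreeTransp
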