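import Mathlib
import Cfsg.Agent.ThreeTransp.M22CoverSplit94
import Cfsg.Agent.ThreeTransp.Triangular94

/-!
In a double cover of a group of type M(22) by an involution `d` exactly 23 conjugates of `d` lie
in the preimage of a base span.
-/

set_option autoImplicit false

namespace CfsgLib.ThreeTransp

open Cfsg

universe u v

variable {G : Type v} [Group G] {M : Type u} [Group M] {d : G}
variable {f : ↥(Subgroup.centralizer ({d} : Set G)) →* M}

theorem CoverData94.conj_of_two94 [Finite G] (hc : CoverData94 d f)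
    {z : ↥(Subgroup.centralizer ({d} : Set G))} (h : coverFib94 d f (f z) = 2) :
    IsConj d (z : G) ∧ IsConj d ((z : G) * d) := by
  classical
  have hsub : {w : ↥(Subgroup.centralizer ({d} : Set G)) | f w = f z ∧ IsConj d (w : G)} ⊆
      {z, z * ⟨d, hc.self_mem⟩} := fun w hw => hc.lift_cases hw.1.symm
  have heq := Set.eq_of_subset_of_ncard_le hsub (by
    rw [show {w : ↥(Subgroup.centralizer ({d} : Set G)) | f w = f z ∧ IsConj d (w : G)}.ncard = 2
      from h]
    exact (Set.ncard_insert_le _ _).trans (by rw [Set.ncard_singleton])) (Set.toFinite _)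
  have h1 : z ∈ ({z, z * ⟨d, hc.self_mem⟩} : Set ↥(Subgroup.centralizer ({d} : Set G))) := Or.inl rfl
  have h2 : z * ⟨d, hc.self_mem⟩ ∈
      ({z, z * ⟨d, hc.self_mem⟩} : Set ↥(Subgroup.centralizer ({d} : Set G))) := Or.inr rfl
  rw [← heq] at h1 h2
  exact ⟨h1.2, h2.2⟩

theorem CoverData94.not_of_zero94 [Finite G] (_ : CoverData94 d f)
    {z : ↥(Subgroup.centralizer ({d} : Set G))} (h : coverFib94 d f (f z) = 0) :
    ¬ IsConj d (z : G) := by
  intro hz
  rw [coverFib94, Set.ncard_eq_zero] at h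
  exact Set.eq_empty_iff_forall_notMem.1 h z ⟨rfl, hz⟩

theorem CoverData94.iff_of_one94 [Finite G] (hc : CoverData94 d f)
    {z : ↥(Subgroup.centralizer ({d} : Set G))} (h : coverFib94 d f (f z) = 1) :
    IsConj d ((z : G) * d) ↔ ¬ IsConj d (z : G) := by
  obtain ⟨w, hw⟩ := Set.ncard_eq_one.1 h
  have hwm : f w = f z ∧ IsConj d (w : G) := (Set.ext_iff.1 hw w).2 rfl
  have hzd : f (z * ⟨d, hc.self_mem⟩) = f z := by rw [map_mul, hc.f_self, mul_one]
  constructor
  · intro h1 h2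
    have e1 : z * ⟨d, hc.self_mem⟩ = w := (Set.ext_iff.1 hw _).1 ⟨hzd, h1⟩
    have e2 : z = w := (Set.ext_iff.1 hw z).1 ⟨rfl, h2⟩
    exact hc.ne (congrArg Subtype.val (mul_eq_left.1 (e1.trans e2.symm)))
  · intro h1
    rcases hc.lift_cases hwm.1.symm with e | e
    · exact absurd (e ▸ hwm.2) h1
    · exact show IsConj d ((z * ⟨d, hc.self_mem⟩ : ↥(Subgroup.centralizer ({d} : Set G))) : G) from
        e ▸ hwm.2

variable [Finite G] [Finite M] {D : Set M}

theorem cover_count94 (hc : CoverData94 d f) (hG : IsThreeTranspositionGroup D)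
    (hp : IsPrimitiveUnderConj D) (h22 : IsOfTypeM22 M D) {B : Set M} (hB : MaxClique53 D B)
    (hne : B.Nonempty) : {x : G | x ∈ coverA94 f B ∧ IsConj d x}.ncard = 23 := by
  classical
  haveI := Fintype.ofFinite M
  haveI := Fintype.ofFinite G
  haveI := Fintype.ofFinite ↥(Subgroup.centralizer ({d} : Set G))
  have hD := hG.1
  have hn := m22_noTwins hG h22
  obtain ⟨E, hE⟩ : ∃ E, Subgroup.closure B = E := ⟨_, rfl⟩
  have hBE : ∀ b ∈ B, b ∈ E := fun b hb => hE ▸ Subgroup.subset_closure hb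
  obtain ⟨A, hA⟩ : ∃ A, coverA94 f B = A := ⟨_, rfl⟩
  rw [hA]
  have hAC : A ≤ Subgroup.centralizer ({d} : Set G) := hA ▸ Subgroup.map_subtype_le _
  have hAsq : ∀ x ∈ A, x * x = 1 := hA ▸ coverA94_sq hc hG hp h22 hB
  have hAcard : Nat.card A = 2 ^ 11 := hA ▸ coverA94_card hc hG hp h22 hB hne
  have hAmem : ∀ z : ↥(Subgroup.centralizer ({d} : Set G)), (z : G) ∈ A ↔ f z ∈ E := fun z => by
    rw [← hA, ← hE, mem_coverA94]
    exact ⟨fun ⟨_, h⟩ => h, fun h => ⟨z.2, h⟩⟩
  obtain ⟨dd, hdd⟩ : ∃ dd : ↥(Subgroup.centralizer ({d} : Set G)), ⟨d, hc.self_mem⟩ = dd := ⟨_, rfl⟩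
  have hddv : (dd : G) = d := hdd ▸ rfl
  have hfdd : f dd = 1 := hdd ▸ hc.f_self
  have hddc : ∀ z, Commute dd z := fun z => hdd ▸ hc.central z
  have hlc : ∀ {x y : ↥(Subgroup.centralizer ({d} : Set G))}, f x = f y → y = x ∨ y = x * dd :=
    fun h => hdd ▸ hc.lift_cases h
  have hdA : d ∈ A := hddv ▸ (hAmem dd).2 (by rw [hfdd]; exact one_mem _)
  have hcomm : ∀ x ∈ A, ∀ y ∈ A, Commute x y := fun x hx y hy =>
    sq_one_comm94 (hAsq x hx) (hAsq y hy) (hAsq _ (mul_mem hx hy))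
  have h1n : ¬ IsConj d (1 : G) := fun h => hc.ne (isConj_one_left.1 h)
  have hconj : ∀ g x : G, IsConj d (g * x * g⁻¹) ↔ IsConj d x := fun g x =>
    ⟨fun h => h.trans (isConj_iff.2 ⟨g⁻¹, by simp [mul_assoc]⟩),
      fun h => h.trans (isConj_iff.2 ⟨g, rfl⟩)⟩
  -- the set of conjugates and its symmetries
  obtain ⟨O, hOdef⟩ : ∃ O : Set G, {x : G | x ∈ A ∧ IsConj d x} = O := ⟨_, rfl⟩
  rw [hOdef]
  have hO : ∀ x, x ∈ O ↔ x ∈ A ∧ IsConj d x := fun x => hOdef ▸ Iff.rfl
  have hdO : d ∈ O := (hO d).2 ⟨hdA, IsConj.refl d⟩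
  have hOinv : ∀ n ∈ Subgroup.normalizer (A : Set G), ∀ x ∈ O, n * x * n⁻¹ ∈ O := by
    intro n hn x hx
    rw [hO] at hx ⊢
    exact ⟨(Subgroup.mem_set_normalizer_iff.1 hn x).1 hx.1, (hconj n x).2 hx.2⟩
  have htr : ∀ x ∈ O, ∀ y ∈ O, ∃ n ∈ Subgroup.normalizer (A : Set G), n * x * n⁻¹ = y := by
    intro x hx y hy
    rw [hO] at hx hy
    obtain ⟨n, hn, e⟩ := cover_transitive94 hc hG hp h22 hB hne (hA.symm ▸ hx.1) hx.2
    obtain ⟨m, hm, e'⟩ := cover_transitive94 hc hG hp h22 hB hne (hA.symm ▸ hy.1) hy.2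
    rw [hA] at hn hm
    exact ⟨m * n⁻¹, mul_mem hm (inv_mem hn), by rw [← e, ← e']; simp [mul_assoc]⟩
  have hPcard : ∀ x ∈ O, {y | y ∈ O ∧ x * y ∈ O}.ncard = {y | y ∈ O ∧ d * y ∈ O}.ncard := by
    have le : ∀ x ∈ O, ∀ x' ∈ O,
        {y | y ∈ O ∧ x * y ∈ O}.ncard ≤ {y | y ∈ O ∧ x' * y ∈ O}.ncard := by
      intro x hx x' hx'
      obtain ⟨n, hn', e⟩ := htr x hx x' hx'
      refine Set.ncard_le_ncard_of_injOn (fun y => n * y * n⁻¹) ?_
        (fun a _ b _ h => by simpa using h) (Set.toFinite _)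
      rintro y ⟨hy, hxy⟩
      refine ⟨hOinv n hn' y hy, ?_⟩
      rw [← e, show n * x * n⁻¹ * (n * y * n⁻¹) = n * (x * y) * n⁻¹ by simp [mul_assoc]]
      exact hOinv n hn' _ hxy
    exact fun x hx => le_antisymm (le x hx d hdO) (le d hdO x hx)
  -- counting lifts
  obtain ⟨φ, hφ⟩ : ∃ φ : M → ℕ, ∀ e, φ e = coverFib94 d f e := ⟨_, fun _ => rfl⟩
  have hcnt : ∀ S : Finset M, (∀ e ∈ S, e ∈ E) →
      {x | x ∈ O ∧ ∃ z : ↥(Subgroup.centralizer ({d} : Set G)), (z : G) = x ∧ f z ∈ S}.ncard =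
        ∑ e ∈ S, φ e := by
    intro S hS
    rw [show {x | x ∈ O ∧ ∃ z : ↥(Subgroup.centralizer ({d} : Set G)), (z : G) = x ∧ f z ∈ S} =
      (fun z : ↥(Subgroup.centralizer ({d} : Set G)) => (z : G)) ''
        ((Finset.univ.filter fun z => f z ∈ S ∧ IsConj d (z : G) :
          Finset ↥(Subgroup.centralizer ({d} : Set G))) : Set _) from ?_,
      Set.ncard_image_of_injective _ Subtype.val_injective, Set.ncard_coe_finset,
      Finset.card_eq_sum_card_fiberwise (f := fun z => f z) (t := S)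
        (fun z hz => (Finset.mem_filter.1 hz).2.1)]
    · refine Finset.sum_congr rfl fun e he => ?_
      rw [hφ, coverFib94, ← Set.ncard_coe_finset]
      congr 1
      ext z
      simp only [Finset.coe_filter, Finset.mem_filter, Finset.mem_univ, true_and, Set.mem_setOf_eq]
      exact ⟨fun h => ⟨h.2, h.1.2⟩, fun h => ⟨⟨h.1 ▸ he, h.2⟩, h.1⟩⟩
    · ext x
      simp only [Finset.coe_filter, Finset.mem_univ, true_and, Set.mem_setOf_eq, Set.mem_image]
      constructor
      · rintro ⟨hx, z, rfl, hz⟩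
        exact ⟨z, ⟨hz, ((hO _).1 hx).2⟩, rfl⟩
      · rintro ⟨z, ⟨hz, hzc⟩, rfl⟩
        exact ⟨(hO _).2 ⟨(hAmem z).2 (hS _ hz), hzc⟩, z, rfl, hz⟩
  have hOcard : O.ncard = ∑ e ∈ Finset.univ.filter (· ∈ E), φ e := by
    rw [← hcnt _ fun e he => (Finset.mem_filter.1 he).2]
    congr 1
    ext x
    refine ⟨fun hx => ⟨hx, ⟨x, hAC ((hO x).1 hx).1⟩, rfl, ?_⟩, fun h => h.1⟩
    exact Finset.mem_filter.2 ⟨Finset.mem_univ _, (hAmem _).1 ((hO x).1 hx).1⟩
  -- the classes in the span
  obtain ⟨Bf, hBf⟩ : ∃ Bf : Finset M, Finset.univ.filter (· ∈ B) = Bf := ⟨_, rfl⟩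
  have mBf : ∀ x, x ∈ Bf ↔ x ∈ B := fun x => by simp [← hBf]
  have cBf : Bf.card = 22 := by
    rw [← m22_clique_card hG hp h22 hB hne, ← Set.ncard_coe_finset]
    congr 1; ext x; simp [mBf]
  obtain ⟨P2, hP2⟩ : ∃ P2 : Finset M, (Bf.powersetCard 2).image (fun t => t.toList.prod) = P2 :=
    ⟨_, rfl⟩
  have hpairfact : ∀ a ∈ B, ∀ b ∈ B, a ≠ b → IsFact D 2 (a * b) [a, b] := fun a ha b hb hab =>
    ⟨by simpa using hab, rfl, by simp [hB.sub ha, hB.sub hb],
      by simp [hB.comm a ha b hb, (hB.comm a ha b hb).symm], by simp⟩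
  have hP2mem : ∀ e, e ∈ P2 ↔ ∃ a ∈ B, ∃ b ∈ B, a ≠ b ∧ a * b = e := by
    intro e
    rw [← hP2, Finset.mem_image]
    have key : ∀ a ∈ B, ∀ b ∈ B, a ≠ b → ({a, b} : Finset M).toList.prod = a * b := by
      intro a ha b hb hab
      have hperm : ({a, b} : Finset M).toList.Perm [a, b] := by
        have h := Finset.toList_insert (a := a) (s := {b}) (by simpa using hab)
        rwa [Finset.toList_singleton] at h
      rw [hperm.prod_eq' ?_]
      · simp
      · refine List.pairwise_of_forall_mem_list fun x hx y hy => ?_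
        simp only [Finset.mem_toList, Finset.mem_insert, Finset.mem_singleton] at hx hy
        refine hB.comm x ?_ y ?_ <;> [rcases hx with rfl | rfl; rcases hy with rfl | rfl] <;>
          assumption
    constructor
    · rintro ⟨t, ht, rfl⟩
      obtain ⟨hts, htc⟩ := Finset.mem_powersetCard.1 ht
      obtain ⟨a, b, hab, rfl⟩ := Finset.card_eq_two.1 htc
      have ha : a ∈ B := (mBf a).1 (hts (by simp))
      have hb : b ∈ B := (mBf b).1 (hts (by simp))
      exact ⟨a, ha, b, hb, hab, (key a ha b hb hab).symm⟩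
    · rintro ⟨a, ha, b, hb, hab, rfl⟩
      refine ⟨{a, b}, Finset.mem_powersetCard.2 ⟨?_, Finset.card_pair hab⟩, key a ha b hb hab⟩
      intro x hx
      simp only [Finset.mem_insert, Finset.mem_singleton] at hx
      rcases hx with rfl | rfl
      · exact (mBf _).2 ha
      · exact (mBf _).2 hb
  have cP2 : P2.card = 231 := by
    rw [← hP2, Finset.card_image_of_injOn, Finset.card_powersetCard, cBf]
    · rfl
    intro s hs t ht h
    have fact : ∀ t ∈ Bf.powersetCard 2, IsFact D 2 t.toList.prod t.toList := by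
      intro t ht
      obtain ⟨hts, htc⟩ := Finset.mem_powersetCard.1 ht
      exact ⟨Finset.nodup_toList _, by rw [Finset.length_toList, htc],
        fun x hx => hB.sub ((mBf x).1 (hts (Finset.mem_toList.1 hx))),
        fun x hx y hy => hB.comm _ ((mBf x).1 (hts (Finset.mem_toList.1 hx))) _
          ((mBf y).1 (hts (Finset.mem_toList.1 hy))), rfl⟩
    have h' : s.toList.prod = t.toList.prod := h
    ext x
    have := pair_unique hD hn (fact s hs) (h'.symm ▸ fact t ht) x
    rwa [Finset.mem_toList, Finset.mem_toList] at this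
  have hBP : ∀ a ∈ B, ∀ b ∈ B, a ≠ b → a * b ∉ B ∧ a * b ≠ 1 := by
    intro a ha b hb hab
    refine ⟨fun h => no_rel₃ hD hn (hB.sub ha) (hB.sub hb) (hB.sub h) (hB.comm a ha b hb) hab rfl,
      fun h => hab ?_⟩
    rw [eq_inv_of_mul_eq_one_left h, tt_inv hD (hB.sub hb)]
  obtain ⟨R, hR⟩ : ∃ R : Finset M, (Finset.univ.filter (· ∈ E)) \ ({1} ∪ Bf ∪ P2) = R := ⟨_, rfl⟩
  have d1 : Disjoint ({1} : Finset M) Bf := by
    rw [Finset.disjoint_singleton_left, mBf]
    exact fun h => tt_ne_one hD (hB.sub h) rfl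
  have d2 : Disjoint ({1} ∪ Bf) P2 := by
    rw [Finset.disjoint_left]
    intro x hx hx2
    obtain ⟨a, ha, b, hb, hab, rfl⟩ := (hP2mem x).1 hx2
    rcases Finset.mem_union.1 hx with h | h
    · exact (hBP a ha b hb hab).2 (Finset.mem_singleton.1 h)
    · exact (hBP a ha b hb hab).1 ((mBf _).1 h)
  have hsubE : ({1} ∪ Bf ∪ P2 : Finset M) ⊆ Finset.univ.filter (· ∈ E) := by
    intro x hx
    refine Finset.mem_filter.2 ⟨Finset.mem_univ _, ?_⟩
    rcases Finset.mem_union.1 hx with h | h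
    · rcases Finset.mem_union.1 h with h | h
      · rw [Finset.mem_singleton.1 h]; exact one_mem _
      · exact hBE x ((mBf x).1 h)
    · obtain ⟨a, ha, b, hb, -, rfl⟩ := (hP2mem x).1 h
      exact mul_mem (hBE a ha) (hBE b hb)
  have cR : R.card = 770 := by
    rw [← hR, Finset.card_sdiff_of_subset hsubE, Finset.card_union_of_disjoint d2,
      Finset.card_union_of_disjoint d1, Finset.card_singleton, cBf, cP2,
      show (Finset.univ.filter (· ∈ E)).card = 1024 from ?_]
    rw [← m22_base_card_eq94 hG hp h22 hB hne, hE, Nat.card_eq_fintype_card, Fintype.card_subtype]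
  have hRfact : ∀ e ∈ R, ∃ l, IsFact D 3 e l := by
    intro e he
    rw [← hR, Finset.mem_sdiff, Finset.mem_filter] at he
    obtain ⟨⟨-, heE⟩, hen⟩ := he
    simp only [Finset.mem_union, Finset.mem_singleton, not_or, mBf, hP2mem] at hen
    obtain ⟨m, h1, h3, l, hl, hlB⟩ := m22_base_element hG hp h22 hB (hE.symm ▸ heE) hen.1.1
    interval_cases m
    · exfalso
      match l, hl.2.1 with
      | [a], _ =>
        have : a = e := by simpa using hl.2.2.2.2
        exact hen.1.2 (this ▸ hlB a (by simp))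
    · exfalso
      match l, hl.2.1 with
      | [a, b], _ =>
        exact hen.2 ⟨a, hlB a (by simp), b, hlB b (by simp), by simpa using hl.1,
          by simpa using hl.2.2.2.2⟩
    · exact ⟨l, hl⟩
  -- the three constants
  have hφconj : ∀ (m : ℕ) (x y : M) (l l' : List M), 1 ≤ m → m ≤ 3 → IsFact D m x l →
      IsFact D m y l' → φ y = φ x := by
    intro m x y l l' h1 h3 hl hl'
    obtain ⟨g, rfl⟩ := m22_fact_conj hG hp h22 h1 h3 hl hl'
    rw [hφ, hφ, hc.fib_conj]
  obtain ⟨a₀, ha₀⟩ := id hne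
  obtain ⟨b₀, hb₀, hab₀⟩ : ∃ b₀ ∈ B, b₀ ≠ a₀ := Set.exists_ne_of_one_lt_ncard
    (by rw [m22_clique_card hG hp h22 hB hne]; norm_num) a₀
  obtain ⟨r₀, hr₀⟩ : R.Nonempty := Finset.card_pos.1 (by rw [cR]; norm_num)
  obtain ⟨l₀, hl₀⟩ := hRfact r₀ hr₀
  obtain ⟨k, hk⟩ : ∃ k, φ a₀ = k := ⟨_, rfl⟩
  obtain ⟨l, hl⟩ : ∃ l, φ (a₀ * b₀) = l := ⟨_, rfl⟩
  obtain ⟨m, hm⟩ : ∃ m, φ r₀ = m := ⟨_, rfl⟩
  have hsingle : ∀ b ∈ D, IsFact D 1 b [b] := fun b hb => ⟨by simp, rfl, by simp [hb], by simp, by simp⟩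
  have hφB : ∀ b ∈ D, φ b = k := fun b hb => hk ▸ hφconj 1 a₀ b [a₀] [b] le_rfl (by norm_num)
    (hsingle a₀ (hB.sub ha₀)) (hsingle b hb)
  have hφP : ∀ e ∈ P2, φ e = l := by
    intro e he
    obtain ⟨a, ha, b, hb, hab, rfl⟩ := (hP2mem e).1 he
    exact hl ▸ hφconj 2 _ _ _ _ (by norm_num) (by norm_num) (hpairfact a₀ ha₀ b₀ hb₀ hab₀.symm)
      (hpairfact a ha b hb hab)
  have hφT : ∀ a ∈ B, ∀ b ∈ B, ∀ c ∈ B, a ≠ b → a ≠ c → b ≠ c → φ (a * b * c) = m := by
    intro a ha b hb c hcB hab hac hbc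
    refine hm ▸ hφconj 3 r₀ (a * b * c) l₀ [a, b, c] (by norm_num) le_rfl hl₀ ?_
    exact ⟨by simp [hab, hac, hbc], rfl, by simp [hB.sub ha, hB.sub hb, hB.sub hcB],
      by simp [hB.comm a ha b hb, hB.comm b hb a ha, hB.comm a ha c hcB, hB.comm c hcB a ha,
        hB.comm b hb c hcB, hB.comm c hcB b hb], by simp [mul_assoc]⟩
  have hφ1 : φ 1 = 1 := (hφ 1).trans hc.fib_one
  have htotal : O.ncard = 1 + 22 * k + 231 * l + 770 * m := by
    rw [hOcard, ← Finset.sum_sdiff hsubE, hR, Finset.sum_union d2, Finset.sum_union d1,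
      Finset.sum_singleton, hφ1,
      Finset.sum_congr rfl (fun e he => hφB e (hB.sub ((mBf e).1 he))),
      Finset.sum_congr rfl hφP,
      Finset.sum_congr rfl (fun e he => show φ e = m from by
        obtain ⟨le, hle⟩ := hRfact e he
        exact hm ▸ hφconj 3 r₀ e l₀ le (by norm_num) le_rfl hl₀ hle),
      Finset.sum_const, Finset.sum_const, Finset.sum_const, cBf, cP2, cR]
    simp only [smul_eq_mul]
    omega
  have hkle : k ≤ 2 := hk ▸ (hφ a₀).symm ▸ hc.fib_le _
  have hmle : m ≤ 2 := hm ▸ (hφ r₀).symm ▸ hc.fib_le _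
  have hlle : l ≤ 1 := by
    rw [← hl, hφ]
    obtain ⟨y, g, hyg⟩ := m22_class_two_square94 hG hp h22 (hB.sub ha₀)
      (show b₀ ∈ nbr D a₀ from ⟨hB.sub hb₀, hab₀, hB.comm a₀ ha₀ b₀ hb₀⟩)
    obtain ⟨y', hy'⟩ := hc.surj y
    rw [← hc.fib_conj _ g, ← hyg, ← hy', ← map_mul]
    refine (Set.ncard_le_ncard (t := {y' * y' * dd}) (fun z hz => ?_) (Set.toFinite _)).trans
      (le_of_eq (Set.ncard_singleton _))
    rcases hlc hz.1.symm with h | h
    · have h2 := hz.2
      rw [h, Subgroup.coe_mul] at h2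
      exact absurd h2 (hc.not_conj_sq _)
    · rw [Set.mem_singleton_iff]; exact h
  -- lifts in `O`
  have hzO : ∀ z : ↥(Subgroup.centralizer ({d} : Set G)), f z ∈ E →
      ((z : G) ∈ O ↔ IsConj d (z : G)) := fun z hz => by
    rw [hO, hAmem]; exact ⟨fun h => h.2, fun h => ⟨hz, h⟩⟩
  have hzero : ∀ z : ↥(Subgroup.centralizer ({d} : Set G)), φ (f z) = 0 → (z : G) ∉ O := fun z hz h =>
    hc.not_of_zero94 ((hφ _).symm.trans hz) ((hO _).1 h).2
  have hdz : ∀ z : ↥(Subgroup.centralizer ({d} : Set G)), ((z * dd : ↥(Subgroup.centralizer ({d} : Set G))) : G) = (z : G) * d :=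
    fun z => by rw [Subgroup.coe_mul, hddv]
  have hone : ∀ z : ↥(Subgroup.centralizer ({d} : Set G)), f z ∈ E → φ (f z) = 1 →
      ((z : G) * d ∈ O ↔ (z : G) ∉ O) := by
    intro z hz h
    rw [← hdz, hzO _ (by rw [map_mul, hfdd, mul_one]; exact hz), hzO _ hz, hdz]
    exact hc.iff_of_one94 ((hφ _).symm.trans h)
  have htwo : ∀ z : ↥(Subgroup.centralizer ({d} : Set G)), f z ∈ E → φ (f z) = 2 → (z : G) ∈ O := by
    intro z hz h
    rw [hzO _ hz]
    exact (hc.conj_of_two94 ((hφ _).symm.trans h)).1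
  have hgeO : 2 ≤ O.ncard := by
    obtain ⟨g, hgC, hgd⟩ := hc.nwc
    obtain ⟨c, hcA⟩ := cover_into94 hc hG hp h22 hB hne (z := ⟨g * d * g⁻¹, hgC⟩) (by
      rw [← map_mul, show (⟨g * d * g⁻¹, hgC⟩ : ↥(Subgroup.centralizer ({d} : Set G))) *
        ⟨g * d * g⁻¹, hgC⟩ = 1 from Subtype.ext (by
          show g * d * g⁻¹ * (g * d * g⁻¹) = 1
          rw [show g * d * g⁻¹ * (g * d * g⁻¹) = g * (d * d) * g⁻¹ by simp [mul_assoc], hc.sq]
          simp), map_one])
    have hne' : (c : G) * (g * d * g⁻¹) * (c : G)⁻¹ ≠ d := fun h => hgd (by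
      have hcd : (c : G)⁻¹ * d * c = d := by
        rw [mul_assoc, ← (Subgroup.mem_centralizer_singleton_iff.1 c.2), inv_mul_cancel_left]
      calc g * d * g⁻¹ = (c : G)⁻¹ * ((c : G) * (g * d * g⁻¹) * (c : G)⁻¹) * c := by simp [mul_assoc]
        _ = d := by rw [h, hcd])
    exact (Set.one_lt_ncard (Set.toFinite O)).2 ⟨_, (hO _).2 ⟨hA ▸ hcA,
      (hconj _ _).2 (isConj_iff.2 ⟨g, rfl⟩)⟩, d, hdO, hne'⟩
  -- the finite orbit in `A`
  obtain ⟨O', hO'⟩ : ∃ O' : Finset ↥A, Finset.univ.filter (fun x : ↥A => (x : G) ∈ O) = O' := ⟨_, rfl⟩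
  have mO' : ∀ x, x ∈ O' ↔ (x : G) ∈ O := fun x => by simp [← hO']
  have cO' : O'.card = O.ncard := by
    rw [← Set.ncard_coe_finset, ← Set.ncard_image_of_injective _ Subtype.val_injective]
    congr 1
    ext x
    simp only [Set.mem_image, Finset.mem_coe, mO']
    exact ⟨fun ⟨y, hy, e⟩ => e ▸ hy, fun hx => ⟨⟨x, ((hO x).1 hx).1⟩, hx, rfl⟩⟩
  have hO'ne : O'.Nonempty := ⟨⟨d, hdA⟩, (mO' _).2 hdO⟩
  have hO'inv : ∀ n ∈ Subgroup.normalizer (A : Set G), ∀ x ∈ O', ∀ y : ↥A,
      n * (x : G) * n⁻¹ = y → y ∈ O' := fun n hn' x hx y e =>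
    (mO' y).2 (e ▸ hOinv n hn' x ((mO' x).1 hx))
  have hO'tr : ∀ x ∈ O', ∀ y ∈ O', ∃ n ∈ Subgroup.normalizer (A : Set G), n * (x : G) * n⁻¹ = y :=
    fun x hx y hy => htr x ((mO' x).1 hx) y ((mO' y).1 hy)
  have hAsq' : ∀ x : ↥A, x * x = 1 := fun x => Subtype.ext (hAsq x x.2)
  have kill : ∀ q : ℕ, q.Prime → (∀ j < 11, 2 ^ 11 % q ≠ 2 ^ j % q) → q ∣ O.ncard → False :=
    fun q hq hbad hdvd => Cover94.orbit_prime_bound A hAsq' hAcard O' hO'ne hO'inv hO'tr hq
      (cO'.symm ▸ hdvd) hbad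
  -- partners of `d`
  have hPd : k = 2 → l ≤ 1 → m ≤ 1 → ∀ y, y ∈ O ∧ d * y ∈ O ↔
      y ∈ O ∧ ∃ z : ↥(Subgroup.centralizer ({d} : Set G)), (z : G) = y ∧ f z ∈ Bf := by
    intro hk2 hl1 hm1 y
    refine and_congr_right fun hy => ⟨fun hdy => ?_, ?_⟩
    · obtain ⟨z, rfl⟩ : ∃ z : ↥(Subgroup.centralizer ({d} : Set G)), (z : G) = y :=
        ⟨⟨y, hAC ((hO y).1 hy).1⟩, rfl⟩
      have hzE := (hAmem z).1 ((hO _).1 hy).1
      have hyd : (z : G) * d ∈ O := by rwa [(hcomm _ ((hO _).1 hy).1 d hdA).eq]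
      have hcases : φ (f z) ≠ 1 := fun h => (hone z hzE h).1 hyd hy
      have hφz : φ (f z) ≠ 0 := fun h => hzero z h hy
      refine ⟨z, rfl, ?_⟩
      have hfzE : f z ∈ Finset.univ.filter (· ∈ E) := Finset.mem_filter.2 ⟨Finset.mem_univ _, hzE⟩
      by_contra hnB
      by_cases h : f z ∈ ({1} ∪ Bf ∪ P2 : Finset M)
      · rcases Finset.mem_union.1 h with h | h
        · rcases Finset.mem_union.1 h with h | h
          · rw [Finset.mem_singleton.1 h] at hcases; exact hcases hφ1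
          · exact hnB h
        · have := hφP _ h; omega
      · obtain ⟨le, hle⟩ := hRfact _ (hR ▸ Finset.mem_sdiff.2 ⟨hfzE, h⟩)
        have := hφconj 3 r₀ (f z) l₀ le (by norm_num) le_rfl hl₀ hle
        omega
    · rintro ⟨z, rfl, hz⟩
      have hzB := (mBf _).1 hz
      rw [(hcomm d hdA _ ((hO _).1 hy).1).eq, ← hdz]
      exact htwo _ (by rw [map_mul, hfdd, mul_one]; exact hBE _ hzB)
        (by rw [map_mul, hfdd, mul_one, hφB _ (hB.sub hzB), hk2])
  have hPd44 : k = 2 → l ≤ 1 → m ≤ 1 → {y | y ∈ O ∧ d * y ∈ O}.ncard = 44 := by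
    intro hk2 hl1 hm1
    rw [Set.ext (fun y => hPd hk2 hl1 hm1 y) (a := {y | y ∈ O ∧ d * y ∈ O})
      (b := {y | y ∈ O ∧ ∃ z : ↥(Subgroup.centralizer ({d} : Set G)), (z : G) = y ∧ f z ∈ Bf}),
      hcnt Bf fun e he => hBE e ((mBf e).1 he),
      Finset.sum_congr rfl (fun e he => hφB e (hB.sub ((mBf e).1 he))), Finset.sum_const, cBf, hk2]
    rfl
  -- 45
  have case45 : k = 2 → l = 0 → m = 0 → False := by
    intro hk2 hl0 hm0
    obtain ⟨z, hz⟩ := hc.surj a₀
    have hzB : f z ∈ E := hz ▸ hBE a₀ ha₀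
    have hzO' : (z : G) ∈ O := htwo z hzB (by rw [hz, hk, hk2])
    have hkey : ∀ w : ↥(Subgroup.centralizer ({d} : Set G)), (w : G) ∈ O → f w = 1 ∨ f w ∈ B := by
      intro w hw
      by_contra hcon
      push Not at hcon
      have hwE := (hAmem w).1 ((hO _).1 hw).1
      by_cases h : f w ∈ P2
      · exact hzero w (by rw [hφP _ h, hl0]) hw
      · obtain ⟨le, hle⟩ := hRfact (f w) (hR ▸ Finset.mem_sdiff.2
          ⟨Finset.mem_filter.2 ⟨Finset.mem_univ _, hwE⟩, by
            simp only [Finset.mem_union, Finset.mem_singleton, not_or, mBf]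
            exact ⟨⟨hcon.1, hcon.2⟩, h⟩⟩)
        exact hzero w ((hφconj 3 r₀ (f w) l₀ le (by norm_num) le_rfl hl₀ hle).trans (hm.trans hm0)) hw
    have hsub : {y | y ∈ O ∧ (z : G) * y ∈ O} ⊆ {d, (z : G) * d} := by
      rintro y ⟨hy, hzy⟩
      obtain ⟨w, rfl⟩ : ∃ w : ↥(Subgroup.centralizer ({d} : Set G)), (w : G) = y :=
        ⟨⟨y, hAC ((hO y).1 hy).1⟩, rfl⟩
      rcases hkey w hy with h | h
      · rcases (hc.ker w).1 h with h' | h'
        · exact absurd ((hO _).1 hy).2 (h'.symm ▸ h1n)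
        · exact Or.inl h'
      · by_cases he : f w = a₀
        · rcases hlc (hz.trans he.symm) with h' | h'
          · subst h'
            rw [hAsq _ ((hO _).1 hy).1] at hzy
            exact absurd ((hO _).1 hzy).2 h1n
          · exact Or.inr (by rw [Set.mem_singleton_iff, h', hdz])
        · rcases hkey (z * w) hzy with h' | h' <;> rw [map_mul, hz] at h'
          · exact absurd h' (hBP a₀ ha₀ _ h (Ne.symm he)).2
          · exact absurd h' (hBP a₀ ha₀ _ h (Ne.symm he)).1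
    have h1 := Set.ncard_le_ncard hsub (Set.toFinite _)
    rw [hPcard _ hzO', hPd44 hk2 (by omega) (by omega)] at h1
    have h2 := Set.ncard_insert_le d ({(z : G) * d} : Set G)
    rw [Set.ncard_singleton] at h2
    omega
  -- 254
  have case254 : k = 1 → l = 1 → m = 0 → False := by
    intro hk1 hl1 hm0
    have hc254 : O'.card = 254 := by rw [cO', htotal, hk1, hl1, hm0]
    obtain ⟨ψ, hψ, hψO⟩ := Cover94.prime_orbit A O' hO'ne hO'inv hO'tr
      (q := 127) (by norm_num) (by rw [hc254]; norm_num)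
    obtain ⟨j, hj, hfix, hmod⟩ := Cover94.fixed_card hAsq' hAcard (by norm_num : Nat.Prime 127) ψ hψ
    obtain rfl : j = 4 := by
      clear hfix
      interval_cases j <;> first | rfl | (norm_num at hmod)
    have hfree : ∀ x ∈ O', ψ x ≠ x := by
      haveI : Fact (Nat.Prime 127) := ⟨by norm_num⟩
      obtain ⟨σ, hσ⟩ : ∃ σ : Equiv.Perm {x // x ∈ O'}, ∀ x, (σ x : ↥A) = ψ x :=
        ⟨Equiv.ofBijective (fun x => ⟨ψ x, hψO x x.2⟩) (Finite.injective_iff_bijective.1 fun a b h =>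
          Subtype.ext (ψ.injective (congrArg Subtype.val h))), fun _ => rfl⟩
      have hpow : ∀ (n : ℕ) x, (((σ ^ n) x : {x // x ∈ O'}) : ↥A) = (ψ ^ n) x := by
        intro n
        induction n with
        | zero => intro x; rfl
        | succ i ih =>
          intro x
          rw [pow_succ', Equiv.Perm.mul_apply, hσ, ih, pow_succ', MulAut.mul_apply]
      have hσq : σ ^ 127 ^ 1 = 1 := Equiv.ext fun x => Subtype.ext (by
        rw [hpow, pow_one, ← hψ, pow_orderOf_eq_one]; rfl)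
      have hmod' := Equiv.Perm.card_compl_support_modEq hσq
      rw [Fintype.card_coe, hc254] at hmod'
      have hle : σ.supportᶜ.card ≤ 16 := by
        rw [show (16 : ℕ) = 2 ^ 4 by norm_num, ← hfix, ← Nat.card_eq_finsetCard]
        refine Nat.card_le_card_of_injective (fun x => ⟨(x.1 : ↥A), ?_⟩) fun a b h => ?_
        · have := x.2
          rw [Finset.mem_compl, Equiv.Perm.notMem_support] at this
          rw [← hσ, this]
        · exact Subtype.ext (Subtype.ext (congrArg Subtype.val h : _))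
      have hzero' : σ.supportᶜ.card = 0 := by
        simp only [Nat.ModEq] at hmod'
        omega
      intro x hx he
      have hmem : (⟨x, hx⟩ : {x // x ∈ O'}) ∈ σ.supportᶜ := by
        rw [Finset.mem_compl, Equiv.Perm.notMem_support]
        exact Subtype.ext ((hσ _).trans he)
      rw [Finset.card_eq_zero.1 hzero'] at hmem
      exact Finset.notMem_empty _ hmem
    have hgen : Subgroup.closure (O' : Set ↥A) = ⊤ := by
      obtain ⟨W, hW⟩ : ∃ W, (Subgroup.closure (O' : Set ↥A)).map A.subtype = W := ⟨_, rfl⟩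
      have hWO : ∀ x ∈ O, x ∈ W := fun x hx =>
        hW ▸ ⟨⟨x, ((hO x).1 hx).1⟩, Subgroup.subset_closure ((mO' _).2 hx), rfl⟩
      have hdW : d ∈ W := hWO d hdO
      have hlift : ∀ z : ↥(Subgroup.centralizer ({d} : Set G)), f z ∈ B → (z : G) ∈ W := by
        intro z hz
        by_cases h : (z : G) ∈ O
        · exact hWO _ h
        · have h' := hWO _ ((hone z (hBE _ hz) (by rw [hφB _ (hB.sub hz), hk1])).2 h)
          have := mul_mem h' hdW
          rwa [mul_assoc, hc.sq, mul_one] at this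
      have hall : E ≤ (W.comap (Subgroup.centralizer ({d} : Set G)).subtype).map f := by
        rw [← hE, Subgroup.closure_le]
        intro b hb
        obtain ⟨z, rfl⟩ := hc.surj b
        exact ⟨z, hlift z hb, rfl⟩
      refine Subgroup.map_injective A.subtype_injective (le_antisymm
        (Subgroup.map_mono le_top) ?_)
      rintro _ ⟨⟨x, hx⟩, -, rfl⟩
      rw [hW]
      obtain ⟨z, hz, hze⟩ := hall ((hAmem ⟨x, hAC hx⟩).1 hx)
      show x ∈ W
      rcases hlc hze with h | h <;> have h' := congrArg Subtype.val h <;>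
        simp only [hdz] at h' <;> rw [h']
      · exact hz
      · exact mul_mem hz hdW
    have := Cover94.two_orbits_span hAsq' (by norm_num : Nat.Prime 127) ψ hψ O' hψO hfree
      (le_of_eq hc254) hgen
    rw [hfix] at this
    norm_num at this
  -- 1024
  have case1024 : k = 1 → l = 1 → m = 1 → False := by
    intro hk1 hl1 hm1
    have hall : ∀ z : ↥(Subgroup.centralizer ({d} : Set G)), f z ∈ E → φ (f z) = 1 := by
      intro z hz
      by_cases h : f z ∈ ({1} ∪ Bf ∪ P2 : Finset M)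
      · rcases Finset.mem_union.1 h with h | h
        · rcases Finset.mem_union.1 h with h | h
          · rw [Finset.mem_singleton.1 h, hφ1]
          · rw [hφB _ (hB.sub ((mBf _).1 h)), hk1]
        · rw [hφP _ h, hl1]
      · obtain ⟨le, hle⟩ := hRfact _ (hR ▸ Finset.mem_sdiff.2
          ⟨Finset.mem_filter.2 ⟨Finset.mem_univ _, hz⟩, h⟩)
        rw [hφconj 3 r₀ (f z) l₀ le (by norm_num) le_rfl hl₀ hle, hm, hm1]
    have hsp : ∀ x ∈ A, x * d ∈ O ↔ x ∉ O := fun x hx =>
      hone ⟨x, hAC hx⟩ ((hAmem _).1 hx) (hall _ ((hAmem _).1 hx))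
    have hprod : ∀ x ∈ O, ∀ y ∈ O, x * y ∉ O := by
      intro x hx y hy hxy
      obtain ⟨n, hn', e⟩ := htr x hx d hdO
      have h1 := hOinv n hn' y hy
      have h2 := hOinv n hn' _ hxy
      rw [show n * (x * y) * n⁻¹ = n * x * n⁻¹ * (n * y * n⁻¹) by simp [mul_assoc], e,
        (hcomm d hdA _ ((hO _).1 h1).1).eq] at h2
      exact (hsp _ ((hO _).1 h1).1).1 h2 h1
    have hiff : ∀ x ∈ A, IsConj d x ↔ x ∈ O := fun x hx => by
      rw [hO]; exact ⟨fun h => ⟨hx, h⟩, fun h => h.2⟩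
    refine cover_no_hyperplane94 hc hG hp h22 hB hne (fun x hx => ?_) (fun x hx y hy h1 h2 h3 => ?_)
    · rw [hA] at hx
      rw [hiff _ (mul_mem hx hdA), hiff _ hx]
      exact hsp x hx
    · rw [hA] at hx hy
      rw [hiff _ hx] at h1
      rw [hiff _ hy] at h2
      rw [hiff _ (mul_mem hx hy)] at h3
      refine hprod _ ((hsp x hx).2 h1) _ ((hsp y hy).2 h2) ?_
      rwa [show x * d * (y * d) = x * y from by
        rw [mul_assoc x d, (hcomm d hdA _ (mul_mem hy hdA)).eq, mul_assoc y, hc.sq, mul_one]]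
  -- 276
  have case276 : k = 2 → l = 1 → m = 0 → False := by
    intro hk2 hl1 hm0
    obtain ⟨x₀, hx₀⟩ := hc.surj a₀
    have hCa := m22_centralizer_eq hG hp h22 (hB.sub ha₀)
    have key : ∀ c, Commute (f c) a₀ → Commute c x₀ := by
      intro c hca
      have hle : Subgroup.closure (nbr D a₀) ≤ (Subgroup.centralizer {x₀}).map f := by
        rw [Subgroup.closure_le]
        intro y hy
        obtain ⟨y', rfl⟩ := hc.surj y
        exact ⟨y', Subgroup.mem_centralizer_singleton_iff.2 (hc.commute_lifts (tt_mul_self hD hy.1)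
          (by rw [hx₀]; exact tt_mul_self hD (hB.sub ha₀)) (by rw [hx₀]; exact hy.2.2.symm)).eq, rfl⟩
      obtain ⟨x, hx, hxe⟩ := hle (hCa ▸ Subgroup.mem_centralizer_singleton_iff.2 hca.eq :
        f c ∈ Subgroup.closure (nbr D a₀))
      have hxx : Commute x x₀ := Subgroup.mem_centralizer_singleton_iff.1 hx
      rcases hlc hxe with h | h <;> rw [h]
      · exact hxx
      · exact hxx.mul_left (hddc x₀)
    have hcc : ∀ a ∈ D, ∃ c, f c * a₀ * (f c)⁻¹ = a := by
      intro a ha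
      obtain ⟨g, hg⟩ := hp.1 a₀ (hB.sub ha₀) a ha
      obtain ⟨c, rfl⟩ := hc.surj g
      exact ⟨c, hg⟩
    choose! cc hcc using hcc
    obtain ⟨s, hs⟩ : ∃ s : M → ↥(Subgroup.centralizer ({d} : Set G)),
        ∀ a, s a = cc a * x₀ * (cc a)⁻¹ := ⟨_, fun _ => rfl⟩
    have hfs : ∀ a ∈ D, f (s a) = a := fun a ha => by
      rw [hs, map_mul, map_mul, map_inv, hx₀, hcc a ha]
    have heq : ∀ c, ∀ a ∈ D, c * s a * c⁻¹ = s (f c * a * (f c)⁻¹) := by
      intro c a ha
      have ha' : f c * a * (f c)⁻¹ ∈ D := hG.2.1 _ a ha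
      have hc0 := hcc _ ha'
      obtain ⟨c', hc'⟩ : ∃ c', cc (f c * a * (f c)⁻¹) = c' := ⟨_, rfl⟩
      rw [hc'] at hc0
      have hcom : Commute (c'⁻¹ * c * cc a) x₀ := key _ (by
        rw [map_mul, map_mul, map_inv]
        refine mul_inv_eq_iff_eq_mul.1 ?_
        rw [show (f c')⁻¹ * f c * f (cc a) * a₀ * ((f c')⁻¹ * f c * f (cc a))⁻¹ =
          (f c')⁻¹ * (f c * (f (cc a) * a₀ * (f (cc a))⁻¹) * (f c)⁻¹) * f c' by simp [mul_assoc],
          hcc a ha, ← hc0]
        simp [mul_assoc])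
      rw [hs, hs, hc']
      calc c * (cc a * x₀ * (cc a)⁻¹) * c⁻¹
          = c' * ((c'⁻¹ * c * cc a) * x₀ * (c'⁻¹ * c * cc a)⁻¹) * c'⁻¹ := by simp [mul_assoc]
        _ = c' * x₀ * c'⁻¹ := by rw [hcom.eq, mul_inv_cancel_right]
    have hsA : ∀ a ∈ B, (s a : G) ∈ A := fun a ha => (hAmem _).2 (by
      rw [hfs a (hB.sub ha)]; exact hBE a ha)
    have hsO : ∀ a ∈ B, (s a : G) ∈ O ∧ (s a : G) * d ∈ O := fun a ha => by
      refine ⟨htwo _ (by rw [hfs a (hB.sub ha)]; exact hBE a ha)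
        (by rw [hfs a (hB.sub ha), hφB a (hB.sub ha), hk2]), ?_⟩
      rw [← hdz]
      exact htwo _ (by rw [map_mul, hfdd, mul_one, hfs a (hB.sub ha)]; exact hBE a ha)
        (by rw [map_mul, hfdd, mul_one, hfs a (hB.sub ha), hφB a (hB.sub ha), hk2])
    have hφab : ∀ a ∈ B, ∀ b ∈ B, a ≠ b → φ (a * b) = 1 := fun a ha b hb hab =>
      (hφP _ ((hP2mem _).2 ⟨a, ha, b, hb, hab, rfl⟩)).trans hl1
    have hclass : ∀ z : ↥(Subgroup.centralizer ({d} : Set G)), (z : G) ∈ O →
        f z = 1 ∨ f z ∈ B ∨ ∃ a ∈ B, ∃ b ∈ B, a ≠ b ∧ a * b = f z := by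
      intro z hz
      by_contra hcon
      simp only [not_or] at hcon
      obtain ⟨le, hle⟩ := hRfact (f z) (hR ▸ Finset.mem_sdiff.2
        ⟨Finset.mem_filter.2 ⟨Finset.mem_univ _, (hAmem z).1 ((hO _).1 hz).1⟩, by
          simp only [Finset.mem_union, Finset.mem_singleton, not_or, mBf, hP2mem]
          exact ⟨⟨hcon.1, hcon.2.1⟩, hcon.2.2⟩⟩)
      exact hzero z ((hφconj 3 r₀ (f z) l₀ le (by norm_num) le_rfl hl₀ hle).trans (hm.trans hm0)) hz
    -- all pairs of commuting members look alike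
    have halike : ∀ a ∈ B, ∀ b ∈ B, a ≠ b →
        ((s a : G) * s b ∈ O ↔ (s a₀ : G) * s b₀ ∈ O) := by
      intro a ha b hb hab
      obtain ⟨g, ga, gb⟩ := m22_pair_conj hG hp h22 (hB.sub ha₀)
        (show b₀ ∈ nbr D a₀ from ⟨hB.sub hb₀, hab₀, hB.comm a₀ ha₀ b₀ hb₀⟩) (hB.sub ha)
        (show b ∈ nbr D a from ⟨hB.sub hb, hab.symm, hB.comm a ha b hb⟩)
      obtain ⟨c, rfl⟩ := hc.surj g
      have e : (s a : G) * s b = (c : G) * ((s a₀ : G) * s b₀) * (c : G)⁻¹ := by
        exact (congrArg Subtype.val (show c * (s a₀ * s b₀) * c⁻¹ = s a * s b by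
          rw [← ga, ← gb, ← heq c a₀ (hB.sub ha₀), ← heq c b₀ (hB.sub hb₀)]
          simp [mul_assoc])).symm
      rw [hO, hO, e, hconj, ← e]
      exact ⟨fun h => ⟨mul_mem (hsA a₀ ha₀) (hsA b₀ hb₀), h.2⟩, fun h => ⟨mul_mem (hsA a ha) (hsA b hb), h.2⟩⟩
    by_cases hcase : (s a₀ : G) * s b₀ ∈ O
    · -- the pair products of 24 points
      have hpairO : ∀ a ∈ B, ∀ b ∈ B, a ≠ b → (s a : G) * s b ∈ O := fun a ha b hb hab =>
        (halike a ha b hb hab).2 hcase
      obtain ⟨v, hv⟩ : ∃ v : Option (Option ↥B) → G,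
          v none = 1 ∧ v (some none) = d ∧ ∀ b : ↥B, v (some (some b)) = (s b : G) :=
        ⟨fun p => p.elim 1 fun q => q.elim d fun b => (s b : G), rfl, rfl, fun _ => rfl⟩
      obtain ⟨hv1, hv2, hv3⟩ := hv
      have hvA : ∀ p, v p ∈ A := by
        rintro (_ | _ | b)
        · rw [hv1]; exact one_mem _
        · rw [hv2]; exact hdA
        · rw [hv3]; exact hsA b b.2
      haveI := Fintype.ofFinite ↥B
      refine triangular_contra94 (P := Option (Option ↥B)) (v := v) (O := O)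
        (i₀ := none) (i₁ := some none) ?_ (Subgroup.normalizer (A : Set G))
        (fun p => hAsq _ (hvA p)) (fun p q => hcomm _ (hvA p) _ (hvA q)) ?_ ?_ hOinv htr
        (by simp) ?_ ?_
      · rw [Fintype.card_option, Fintype.card_option, ← Nat.card_eq_fintype_card, Nat.card_coe_set_eq,
          m22_clique_card hG hp h22 hB hne]
      · intro x
        constructor
        · intro hx
          obtain ⟨z, rfl⟩ : ∃ z : ↥(Subgroup.centralizer ({d} : Set G)), (z : G) = x :=
            ⟨⟨x, hAC ((hO x).1 hx).1⟩, rfl⟩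
          rcases hclass z hx with h | h | ⟨a, ha, b, hb, hab, h⟩
          · rcases (hc.ker z).1 h with h' | h'
            · exact absurd ((hO _).1 hx).2 (h'.symm ▸ h1n)
            · exact ⟨none, some none, by simp, by rw [hv1, hv2, one_mul, h']⟩
          · obtain ⟨b, hb⟩ : ∃ b, f z = b := ⟨_, rfl⟩
            rw [hb] at h
            rcases hlc ((hfs b (hB.sub h)).trans hb.symm) with h' | h'
            · exact ⟨none, some (some ⟨b, h⟩), by simp, by rw [hv1, hv3, one_mul, h']⟩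
            · refine ⟨some none, some (some ⟨b, h⟩), by simp, ?_⟩
              rw [hv2, hv3, h', (hcomm d hdA _ (hsA b h)).eq, hdz]
          · rcases hlc (show f (s a * s b) = f z by
              rw [map_mul, hfs a (hB.sub ha), hfs b (hB.sub hb), h]) with h' | h'
            · exact ⟨some (some ⟨a, ha⟩), some (some ⟨b, hb⟩), by simpa using hab,
                by rw [hv3, hv3, h']; rfl⟩
            · exfalso
              rw [h', hdz] at hx
              exact (hone (s a * s b) (by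
                  rw [map_mul, hfs a (hB.sub ha), hfs b (hB.sub hb)]
                  exact mul_mem (hBE a ha) (hBE b hb))
                (by rw [map_mul, hfs a (hB.sub ha), hfs b (hB.sub hb), hφab a ha b hb hab])).1 hx
                (hpairO a ha b hb hab)
        · have hsym : ∀ p q, v p * v q = v q * v p := fun p q => (hcomm _ (hvA p) _ (hvA q)).eq
          rintro ⟨(_ | _ | a), (_ | _ | b), hne', rfl⟩
          · simp at hne'
          · rw [hv1, hv2, one_mul]; exact hdO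
          · rw [hv1, hv3, one_mul]; exact (hsO b b.2).1
          · rw [hv1, hv2, mul_one]; exact hdO
          · simp at hne'
          · rw [hsym, hv2, hv3]; exact (hsO b b.2).2
          · rw [hv1, hv3, mul_one]; exact (hsO a a.2).1
          · rw [hv2, hv3]; exact (hsO a a.2).2
          · rw [hv3, hv3]
            exact hpairO a a.2 b b.2 fun e => hne' (by rw [Subtype.ext e])
      · rw [htotal, hk2, hl1, hm0]
      · rw [hv1, hv2, one_mul]
        exact (hPd44 hk2 (by omega) (by omega)).le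
      · intro n hn' he
        rw [hv1, hv2, one_mul] at he
        have hnC : n ∈ Subgroup.centralizer ({d} : Set G) :=
          Subgroup.mem_centralizer_singleton_iff.2 (mul_inv_eq_iff_eq_mul.1 he)
        rintro (_ | _ | b) hq
        · exact absurd rfl hq
        · exact ⟨some none, by simp, by rw [hv1, hv2, one_mul, he]⟩
        · obtain ⟨c, rfl⟩ : ∃ c : ↥(Subgroup.centralizer ({d} : Set G)), (c : G) = n := ⟨⟨n, hnC⟩, rfl⟩
          have hmem : f c * (b : M) * (f c)⁻¹ ∈ B := by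
            refine m22_member_in_span94 hG hp h22 hB (hG.2.1 _ _ (hB.sub b.2)) ?_
            have h := (hAmem (c * s b * c⁻¹)).1
              ((Subgroup.mem_set_normalizer_iff.1 hn' _).1 (hsA b b.2))
            rw [hE]
            rwa [map_mul, map_mul, map_inv, hfs _ (hB.sub b.2)] at h
          refine ⟨some (some ⟨_, hmem⟩), by simp, ?_⟩
          rw [hv1, hv3, hv3, one_mul, one_mul, ← congrArg Subtype.val (heq c b (hB.sub b.2))]
          rfl
    · -- no pair of the section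
      have hnp : ∀ a ∈ B, ∀ b ∈ B, a ≠ b → (s a : G) * s b ∉ O := fun a ha b hb hab h =>
        hcase ((halike a ha b hb hab).1 h)
      have hnp' : ∀ a ∈ B, ∀ b ∈ B, a ≠ b → (s a : G) * s b * d ∈ O := fun a ha b hb hab =>
        (hone (s a * s b) (by
            rw [map_mul, hfs a (hB.sub ha), hfs b (hB.sub hb)]
            exact mul_mem (hBE a ha) (hBE b hb))
          (by rw [map_mul, hfs a (hB.sub ha), hfs b (hB.sub hb), hφab a ha b hb hab])).2
          (hnp a ha b hb hab)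
      -- every partner of `d` has 22 partners among them
      have hdeg : ∀ y, y ∈ O ∧ d * y ∈ O → 22 ≤ {z | (z ∈ O ∧ d * z ∈ O) ∧ y * z ∈ O}.ncard := by
        intro y hy
        obtain ⟨-, w, rfl, hw⟩ := (hPd hk2 (by omega) (by omega) y).1 hy
        obtain ⟨b, hb⟩ : ∃ b, f w = b := ⟨_, rfl⟩
        rw [hb, mBf] at hw
        have hwA := ((hO _).1 hy.1).1
        have hex : ∀ c : M, ∃ z : ↥(Subgroup.centralizer ({d} : Set G)), c ∈ B → f z = c ∧
            ((z : G) ∈ O ∧ d * (z : G) ∈ O) ∧ (w : G) * z ∈ O := by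
          intro c
          by_cases hcB : c ∈ B
          · have mk : ∀ z : ↥(Subgroup.centralizer ({d} : Set G)), f z = c →
                (z : G) ∈ O ∧ d * (z : G) ∈ O := fun z hz => by
              have hzO := htwo z (hz.symm ▸ hBE c hcB) (by rw [hz, hφB c (hB.sub hcB), hk2])
              exact ⟨hzO, ((hPd hk2 (by omega) (by omega) _).2 ⟨hzO, z, rfl, hz.symm ▸ (mBf c).2 hcB⟩).2⟩
            by_cases hcb : c = b
            · refine ⟨w * dd, fun _ => ⟨by rw [map_mul, hfdd, mul_one, hb, hcb], mk _ (by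
                rw [map_mul, hfdd, mul_one, hb, hcb]), ?_⟩⟩
              rw [hdz, ← mul_assoc, hAsq _ hwA, one_mul]; exact hdO
            · obtain ⟨z, hz⟩ := hc.surj c
              have hfE : f (w * z) ∈ E := by
                rw [map_mul, hb, hz]; exact mul_mem (hBE b hw) (hBE c hcB)
              by_cases h : ((w * z : ↥(Subgroup.centralizer ({d} : Set G))) : G) ∈ O
              · exact ⟨z, fun _ => ⟨hz, mk z hz, h⟩⟩
              · refine ⟨z * dd, fun _ => ⟨by rw [map_mul, hfdd, mul_one, hz], mk _ (by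
                  rw [map_mul, hfdd, mul_one, hz]), ?_⟩⟩
                rw [hdz, ← mul_assoc]
                exact (hone (w * z) hfE
                  (by rw [map_mul, hb, hz, hφab b hw c hcB (Ne.symm hcb)])).2 h
          · exact ⟨1, fun h => absurd h hcB⟩
        choose z hz using hex
        rw [← cBf, ← Set.ncard_coe_finset]
        refine Set.ncard_le_ncard_of_injOn (fun c => (z c : G)) (fun c hcB => ?_)
          (fun c hc' c' hc'' h => ?_) (Set.toFinite _)
        · exact ((hz c ((mBf c).1 hcB)).2)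
        · have h' : z c = z c' := Subtype.ext h
          rw [← (hz c ((mBf c).1 hc')).1, ← (hz c' ((mBf c').1 hc'')).1, h']
      obtain ⟨n, hn', e⟩ := htr d hdO _ (hsO a₀ ha₀).1
      obtain ⟨x, hx⟩ : ∃ x, (s a₀ : G) = x := ⟨_, rfl⟩
      rw [hx] at e
      obtain ⟨y, hy⟩ : ∃ y, (s b₀ : G) * d = y := ⟨_, rfl⟩
      have hxA : x ∈ A := hx ▸ hsA a₀ ha₀
      have hxy : x * y ∈ O := by
        rw [← hx, ← hy, ← mul_assoc]; exact hnp' a₀ ha₀ b₀ hb₀ hab₀.symm
      have hyO : y ∈ O := hy ▸ (hsO b₀ hb₀).2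
      have hninv := inv_mem hn'
      have hy' : n⁻¹ * y * n ∈ O ∧ d * (n⁻¹ * y * n) ∈ O := by
        refine ⟨by simpa using hOinv _ hninv y hyO, ?_⟩
        have := hOinv _ hninv _ hxy
        rw [← e] at this
        simpa [mul_assoc] using this
      have hbig : 22 ≤ {z | (z ∈ O ∧ x * z ∈ O) ∧ y * z ∈ O}.ncard := by
        refine (hdeg _ hy').trans (Set.ncard_le_ncard_of_injOn (fun z => n * z * n⁻¹) ?_
          (fun a _ b _ h => by simpa using h) (Set.toFinite _))
        rintro z ⟨⟨hz1, hz2⟩, hz3⟩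
        refine ⟨⟨hOinv n hn' z hz1, ?_⟩, ?_⟩
        · have := hOinv n hn' _ hz2
          rwa [show n * (d * z) * n⁻¹ = n * d * n⁻¹ * (n * z * n⁻¹) by simp [mul_assoc], e] at this
        · have := hOinv n hn' _ hz3
          simpa [mul_assoc] using this
      have hsmall : {z | (z ∈ O ∧ x * z ∈ O) ∧ y * z ∈ O} ⊆ {d, x * y} := by
        rintro z ⟨⟨hz1, hz2⟩, hz3⟩
        obtain ⟨w, rfl⟩ : ∃ w : ↥(Subgroup.centralizer ({d} : Set G)), (w : G) = z :=
          ⟨⟨z, hAC ((hO z).1 hz1).1⟩, rfl⟩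
        have hwA := ((hO _).1 hz1).1
        have hfx : f (s a₀) = a₀ := hfs a₀ (hB.sub ha₀)
        have hfy : f (s b₀ * dd) = b₀ := by rw [map_mul, hfdd, mul_one, hfs b₀ (hB.sub hb₀)]
        have hyv : ((s b₀ * dd : ↥(Subgroup.centralizer ({d} : Set G))) : G) = y := by rw [hdz, hy]
        have hz2' : ((s a₀ * w : ↥(Subgroup.centralizer ({d} : Set G))) : G) ∈ O := by
          rw [Subgroup.coe_mul, hx]; exact hz2
        have hz3' : ((s b₀ * dd * w : ↥(Subgroup.centralizer ({d} : Set G))) : G) ∈ O := by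
          rw [Subgroup.coe_mul, hyv]; exact hz3
        have hsq1 : ∀ u : G, u ∈ A → u * u ∉ O := fun u hu h => h1n (hAsq u hu ▸ ((hO _).1 h).2)
        rcases hclass w hz1 with h | h | ⟨c, hcB, c', hcB', hcc', h⟩
        · rcases (hc.ker w).1 h with h' | h'
          · exact absurd ((hO _).1 hz1).2 (h'.symm ▸ h1n)
          · exact Or.inl h'
        · exfalso
          obtain ⟨c, hcw⟩ : ∃ c, f w = c := ⟨_, rfl⟩
          rw [hcw] at h
          by_cases hca : c = a₀
          · rcases hlc (hfx.trans (hca ▸ hcw).symm) with h' | h' <;>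
              rw [h'] at hz2 hz3
            · rw [hx] at hz2; exact hsq1 x hxA hz2
            · rw [hdz, hx, ← hy, (hcomm x hxA d hdA).eq, mul_assoc, ← mul_assoc d d,
                hc.sq, one_mul, ← hx] at hz3
              exact hnp b₀ hb₀ a₀ ha₀ hab₀ hz3
          · rcases hlc ((hfs c (hB.sub h)).trans hcw.symm) with h' | h' <;>
              rw [h'] at hz2 hz3
            · exact hnp a₀ ha₀ c h (Ne.symm hca) (hx ▸ hz2)
            · by_cases hcb : c = b₀
              · refine hsq1 y (hy ▸ mul_mem (hsA b₀ hb₀) hdA) ?_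
                rw [hcb, hdz, hy] at hz3; exact hz3
              · rw [hdz, ← hy, mul_assoc, ← mul_assoc d (s c : G), (hcomm d hdA _ (hsA c h)).eq,
                  mul_assoc (s c : G), hc.sq, mul_one] at hz3
                exact hnp b₀ hb₀ c h (Ne.symm hcb) hz3
        · -- a pair
          have hcom := hB.comm c hcB c' hcB'
          obtain ⟨e', he'B, he'ne, hwe⟩ : ∃ e' ∈ B, e' ≠ a₀ ∧ f w = a₀ * e' := by
            by_contra hcon
            push Not at hcon
            have h1 : c ≠ a₀ := fun he => hcon c' hcB' (fun h2 => hcc' (he.trans h2.symm))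
              (by rw [← h, he])
            have h2 : c' ≠ a₀ := fun he => hcon c hcB h1 (by rw [← h, hcom.eq, he])
            refine hzero (s a₀ * w) ?_ hz2'
            rw [map_mul, hfx, ← h, ← mul_assoc, hφT a₀ ha₀ c hcB c' hcB' (Ne.symm h1) (Ne.symm h2) hcc',
              hm0]
          by_cases hee : e' = b₀
          · subst hee
            rcases hlc (show f (s a₀ * (s e' * dd)) = f w by
              rw [map_mul, hfx, hfy, hwe]) with h' | h'
            · refine Or.inr ?_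
              rw [Set.mem_singleton_iff, h', Subgroup.coe_mul, hx, hyv]
            · exfalso
              rw [h', hdz, Subgroup.coe_mul, hx, hyv] at hz1
              exact (hone (s a₀ * (s e' * dd))
                (by rw [map_mul, hfx, hfy]; exact mul_mem (hBE _ ha₀) (hBE _ hb₀))
                (by rw [map_mul, hfx, hfy, hφab a₀ ha₀ e' hb₀ hab₀.symm])).1
                (by rw [Subgroup.coe_mul, hx, hyv]; exact hz1)
                (by rw [Subgroup.coe_mul, hx, hyv]; exact hxy)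
          · exfalso
            refine hzero (s b₀ * dd * w) ?_ hz3'
            rw [map_mul, hfy, hwe, ← mul_assoc,
              hφT b₀ hb₀ a₀ ha₀ e' he'B hab₀ (Ne.symm hee) (Ne.symm he'ne), hm0]
      have h1 := hbig.trans (Set.ncard_le_ncard hsmall (Set.toFinite _))
      have h2 := Set.ncard_insert_le d ({x * y} : Set G)
      rw [Set.ncard_singleton] at h2
      omega
  -- conclusion
  rcases (show k = 0 ∨ k = 1 ∨ k = 2 by omega) with rfl | rfl | rfl <;>
    rcases (show l = 0 ∨ l = 1 by omega) with rfl | rfl <;>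
      rcases (show m = 0 ∨ m = 1 ∨ m = 2 by omega) with rfl | rfl | rfl
  · omega
  · exact (kill 257 (by norm_num) (by decide) (htotal ▸ (by norm_num))).elim
  · exact (kill 67 (by norm_num) (by decide) (htotal ▸ (by norm_num))).elim
  · exact (kill 29 (by norm_num) (by decide) (htotal ▸ (by norm_num))).elim
  · exact (kill 167 (by norm_num) (by decide) (htotal ▸ (by norm_num))).elim
  · exact (kill 443 (by norm_num) (by decide) (htotal ▸ (by norm_num))).elim
  · omega
  · exact (kill 13 (by norm_num) (by decide) (htotal ▸ (by norm_num))).elim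
  · exact (kill 521 (by norm_num) (by decide) (htotal ▸ (by norm_num))).elim
  · exact (case254 rfl rfl rfl).elim
  · exact (case1024 rfl rfl rfl).elim
  · exact (kill 13 (by norm_num) (by decide) (htotal ▸ (by norm_num))).elim
  · exact (case45 rfl rfl rfl).elim
  · exact (kill 163 (by norm_num) (by decide) (htotal ▸ (by norm_num))).elim
  · exact (kill 317 (by norm_num) (by decide) (htotal ▸ (by norm_num))).elim
  · exact (case276 rfl rfl rfl).elim
  · exact (kill 523 (by norm_num) (by decide) (htotal ▸ (by norm_num))).elim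
  · exact (kill 227 (by norm_num) (by decide) (htotal ▸ (by norm_num))).elim

end CfsgLib.ThreeTransp
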