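import Mathlib
import Cfsg.Agent.ThreeTransp.U6Inv53
import Cfsg.Agent.ThreeTransp.ExtLift58
import Cfsg.Agent.ThreeTransp.Primitive
import Cfsg.Agent.ThreeTransp.M22Factor

/-!
Totally isotropic planes of the six-dimensional unitary space over the field with four elements:
transitivity on their frames and the elementary abelian groups their transvections generate.
-/

set_option autoImplicit false

namespace CfsgLib.ThreeTransp.U6Plane94

open Cfsg PSU62 CfsgLib.Unitary

variable {F : Type} [Field F] [Fintype F]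

/-- A form value prescribed by a functional. -/
theorem exists_rep (hF : Fintype.card F = 4) (l : (Fin 6 → F) →ₗ[F] F) :
    ∃ z : Fin 6 → F, ∀ v, hm v z = l v := by
  classical
  refine ⟨fun i => l (Pi.single i 1) ^ 2, fun v => ?_⟩
  show ∑ i, v i * (l (Pi.single i 1) ^ 2) ^ 2 = l v
  conv_rhs => rw [← Finset.univ_sum_single v]
  rw [map_sum]
  refine Finset.sum_congr rfl fun i _ => ?_
  rw [← pow_mul, show 2 * 2 = 4 from rfl, F4.pow_four hF,
    show Pi.single i (v i) = v i • (Pi.single i 1 : Fin 6 → F) by simp [← Pi.single_smul],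
    map_smul, smul_eq_mul]

/-- A vector orthogonal to a subspace, not to a given vector outside it. -/
theorem exists_dual_sub (hF : Fintype.card F = 4) {U : Submodule F (Fin 6 → F)} {x : Fin 6 → F}
    (hx : x ∉ U) : ∃ z, (∀ u ∈ U, hm z u = 0) ∧ hm z x = 1 := by
  obtain ⟨l, hlx, hl⟩ := Submodule.exists_dual_map_eq_bot_of_notMem hx inferInstance
  obtain ⟨z, hz⟩ := exists_rep hF l
  have hz0 : ∀ u ∈ U, hm z u = 0 := fun u hu => hm_flip hF (by
    rw [hz]
    exact (Submodule.mem_bot F).1 (hl ▸ Submodule.mem_map_of_mem hu))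
  have hzx : hm z x ≠ 0 := fun h => hlx (by rw [← hz]; exact hm_flip hF h)
  exact ⟨(hm z x)⁻¹ • z, fun u hu => by rw [hm_smulL, hz0 u hu, mul_zero],
    by rw [hm_smulL, inv_mul_cancel₀ hzx]⟩

theorem hm_span_zero (hF : Fintype.card F = 4) {S : Set (Fin 6 → F)} {x : Fin 6 → F}
    (h : ∀ s ∈ S, hm x s = 0) {u : Fin 6 → F} (hu : u ∈ Submodule.span F S) : hm x u = 0 := by
  induction hu using Submodule.span_induction with
  | mem u hu => exact h u hu
  | zero => exact hm_zeroR hF x
  | add u v _ _ h1 h2 => rw [hm_addR hF, h1, h2, add_zero]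
  | smul k u _ h1 => rw [hm_smulR, h1, mul_zero]

theorem tp_zero (hF : Fintype.card F = 4) : tp hF (0 : Fin 6 → F) = 1 := by
  rw [tp, ← QuotientGroup.mk_one]
  refine congrArg _ (sv_ext fun y => ?_)
  rw [sv_tv hF (hm_zeroL 0), smul_zero, add_zero, sv_one]

theorem tp_sv (hF : Fintype.card F = 4) (A : ↥(SU 6 F 2)) {v : Fin 6 → F} (hv : hm v v = 0) :
    (QuotientGroup.mk A : PSU 6 F 2) * tp hF v * (QuotientGroup.mk A)⁻¹ = tp hF (sv A v) := by
  rw [tp, tp, ← conj_tv hF A hv]
  rfl

theorem tp_scale (hF : Fintype.card F = 4) {v : Fin 6 → F} (hv : hm v v = 0) {k : F} (hk : k ≠ 0) :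
    tp hF (k • v) = tp hF v := by
  rw [tp, tp, tv_smul hF hv hk]

/-- An isometry fixing a set of vectors pointwise and moving one point to another. -/
theorem move (hF : Fintype.card F = 4) {S : Set (Fin 6 → F)} {x y : Fin 6 → F}
    (hxx : hm x x = 0) (hyy : hm y y = 0) (hxS : ∀ s ∈ S, hm x s = 0) (hyS : ∀ s ∈ S, hm y s = 0)
    (hx : x ∉ Submodule.span F S) (hy : y ∉ Submodule.span F S) :
    ∃ g : ↥(SU 6 F 2), (∀ s ∈ S, sv g s = s) ∧ ∃ k : F, k ≠ 0 ∧ sv g x = k • y := by
  have direct : ∀ a b : Fin 6 → F, hm a a = 0 → hm b b = 0 → (∀ s ∈ S, hm a s = 0) →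
      (∀ s ∈ S, hm b s = 0) → hm a b ≠ 0 →
      ∃ g : ↥(SU 6 F 2), (∀ s ∈ S, sv g s = s) ∧ ∃ k : F, k ≠ 0 ∧ sv g a = k • b := by
    intro a b ha hb haS hbS hab
    refine ⟨tv hF a * tv hF b, fun s hs => ?_, hm a b, hab, ?_⟩
    · rw [sv_mul, sv_tv_fix hF hb (hm_flip hF (hbS s hs)), sv_tv_fix hF ha (hm_flip hF (haS s hs))]
    · rw [sv_mul, sv_tv hF hb, sv_tv hF ha, hm_addL, hm_smulL, ha, zero_add, hm_symm hF a b,
        ← pow_succ', F4.cube_eq_one hF hab, one_smul, add_right_comm, vec_add_self hF, zero_add]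
  by_cases hxy : hm x y = 0
  · obtain ⟨y1, a1, b1⟩ := exists_dual_sub hF hx
    obtain ⟨y2, a2, b2⟩ := exists_dual_sub hF hy
    have a1' : ∀ s ∈ S, hm y1 s = 0 := fun s hs => a1 s (Submodule.subset_span hs)
    have a2' : ∀ s ∈ S, hm y2 s = 0 := fun s hs => a2 s (Submodule.subset_span hs)
    obtain ⟨z, hzS, hzx, hzy⟩ : ∃ z, (∀ s ∈ S, hm z s = 0) ∧ hm z x ≠ 0 ∧ hm z y ≠ 0 := by
      by_cases c1 : hm y1 y = 0
      · by_cases c2 : hm y2 x = 0
        · exact ⟨y1 + y2, fun s hs => by rw [hm_addL, a1' s hs, a2' s hs, add_zero],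
            by rw [hm_addL, b1, c2, add_zero]; exact one_ne_zero,
            by rw [hm_addL, b2, c1, zero_add]; exact one_ne_zero⟩
        · exact ⟨y2, a2', c2, by rw [b2]; exact one_ne_zero⟩
      · exact ⟨y1, a1', by rw [b1]; exact one_ne_zero, c1⟩
    obtain ⟨t, ht⟩ := U62.exists_isotropify hF hxx hzx
    have hzS' : ∀ s ∈ S, hm (z + t • x) s = 0 := fun s hs => by
      rw [hm_addL, hm_smulL, hzS s hs, hxS s hs, mul_zero, add_zero]
    obtain ⟨g1, f1, k1, hk1, e1⟩ := direct x (z + t • x) hxx ht hxS hzS' (fun h => hzx (by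
      have := hm_flip hF h
      rwa [hm_addL, hm_smulL, hxx, mul_zero, add_zero] at this))
    obtain ⟨g2, f2, k2, hk2, e2⟩ := direct (z + t • x) y ht hyy hzS' hyS (by
      rwa [hm_addL, hm_smulL, hxy, mul_zero, add_zero])
    refine ⟨g2 * g1, fun s hs => by rw [sv_mul, f1 s hs, f2 s hs], k1 * k2, mul_ne_zero hk1 hk2, ?_⟩
    rw [sv_mul, e1, sv_smul, e2, smul_smul]
  · exact direct x y hxx hyy hxS hyS hxy

/-- Three independent pairwise orthogonal isotropic vectors. -/
structure Frame3 (a b c : Fin 6 → F) : Prop where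
  aa : hm a a = 0
  bb : hm b b = 0
  cc : hm c c = 0
  ba : hm b a = 0
  ca : hm c a = 0
  cb : hm c b = 0
  a0 : a ≠ 0
  b0 : b ∉ Submodule.span F ({a} : Set (Fin 6 → F))
  c0 : c ∉ Submodule.span F ({a, b} : Set (Fin 6 → F))

/-- The plane of a frame. -/
def plane (a b c : Fin 6 → F) : Submodule F (Fin 6 → F) := Submodule.span F {a, b, c}

theorem not_mem_one {a x : Fin 6 → F} (h : ∀ k : F, k • a ≠ x) :
    x ∉ Submodule.span F ({a} : Set (Fin 6 → F)) := fun hx => by
  obtain ⟨k, hk⟩ := Submodule.mem_span_singleton.1 hx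
  exact h k hk

theorem not_mem_two {a b x : Fin 6 → F} (h : ∀ k l : F, k • a + l • b ≠ x) :
    x ∉ Submodule.span F ({a, b} : Set (Fin 6 → F)) := fun hx => by
  obtain ⟨k, l, hk⟩ := Submodule.mem_span_pair.1 hx
  exact h k l hk

theorem sv_mem_span {g : ↥(SU 6 F 2)} {S : Set (Fin 6 → F)} {U : Submodule F (Fin 6 → F)}
    (h : ∀ s ∈ S, sv g s ∈ U) {v : Fin 6 → F} (hv : v ∈ Submodule.span F S) : sv g v ∈ U := by
  induction hv using Submodule.span_induction with
  | mem u hu => exact h u hu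
  | zero => rw [show sv g (0 : Fin 6 → F) = 0 from Matrix.mulVec_zero _]; exact U.zero_mem
  | add u v _ _ h1 h2 =>
    rw [show sv g (u + v) = sv g u + sv g v from Matrix.mulVec_add _ _ _]; exact U.add_mem h1 h2
  | smul k u _ h1 => rw [sv_smul]; exact U.smul_mem k h1

/-- Frames are conjugate up to scalars. -/
theorem frame_move (hF : Fintype.card F = 4) {a b c a' b' c' : Fin 6 → F} (h : Frame3 a b c)
    (h' : Frame3 a' b' c') : ∃ g : ↥(SU 6 F 2), ∃ k l m : F, k ≠ 0 ∧ l ≠ 0 ∧ m ≠ 0 ∧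
      sv g a = k • a' ∧ sv g b = l • b' ∧ sv g c = m • c' := by
  have hmsv : ∀ (g : ↥(SU 6 F 2)) (u v : Fin 6 → F), hm (sv g u) (sv g v) = hm u v :=
    fun g u v => sv_herm g u v
  have back : ∀ (g : ↥(SU 6 F 2)) (u : Fin 6 → F), sv g⁻¹ (sv g u) = u := fun g u => sv_inv_sv g u
  obtain ⟨g1, -, k, hk, e1⟩ := move hF (S := ∅) h.aa h'.aa (by simp) (by simp)
    (by simpa using h.a0) (by simpa using h'.a0)
  have hb1 : hm (sv g1 b) a' = 0 := by
    have := hmsv g1 b a
    rw [h.ba, e1, hm_smulR] at this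
    exact (mul_eq_zero.1 this).resolve_left (pow_ne_zero 2 hk)
  obtain ⟨g2, f2, l, hl, e2⟩ := move hF (S := {a'}) (x := sv g1 b) (by rw [hmsv]; exact h.bb) h'.bb
    (by simpa using hb1) (by simpa using h'.ba) (fun hmem => by
      refine h.b0 ?_
      rw [← back g1 b]
      refine sv_mem_span (fun s hs => ?_) hmem
      rw [Set.mem_singleton_iff] at hs
      rw [hs, show a' = k⁻¹ • sv g1 a by rw [e1, smul_smul, inv_mul_cancel₀ hk, one_smul], sv_smul,
        back]
      exact Submodule.smul_mem _ _ (Submodule.mem_span_singleton_self a)) h'.b0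
  obtain ⟨g, hg⟩ : ∃ g, g2 * g1 = g := ⟨_, rfl⟩
  have ea : sv g a = k • a' := by rw [← hg, sv_mul, e1, sv_smul, f2 a' rfl]
  have eb : sv g b = l • b' := by rw [← hg, sv_mul, e2]
  have hca : hm (sv g c) a' = 0 := by
    have := hmsv g c a
    rw [h.ca, ea, hm_smulR] at this
    exact (mul_eq_zero.1 this).resolve_left (pow_ne_zero 2 hk)
  have hcb : hm (sv g c) b' = 0 := by
    have := hmsv g c b
    rw [h.cb, eb, hm_smulR] at this
    exact (mul_eq_zero.1 this).resolve_left (pow_ne_zero 2 hl)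
  obtain ⟨g3, f3, m, hm', e3⟩ := move hF (S := {a', b'}) (x := sv g c) (by rw [hmsv]; exact h.cc)
    h'.cc (by simpa using ⟨hca, hcb⟩) (by simpa using ⟨h'.ca, h'.cb⟩) (fun hmem => by
      refine h.c0 ?_
      rw [← back g c]
      refine sv_mem_span (fun s hs => ?_) hmem
      rcases hs with hs | hs
      · rw [hs, show a' = k⁻¹ • sv g a by rw [ea, smul_smul, inv_mul_cancel₀ hk, one_smul], sv_smul,
          back]
        exact Submodule.smul_mem _ _ (Submodule.subset_span (Or.inl rfl))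
      · rw [Set.mem_singleton_iff.1 hs,
          show b' = l⁻¹ • sv g b by rw [eb, smul_smul, inv_mul_cancel₀ hl, one_smul], sv_smul, back]
        exact Submodule.smul_mem _ _ (Submodule.subset_span (Or.inr rfl))) h'.c0
  exact ⟨g3 * g, k, l, m, hk, hl, hm', by rw [sv_mul, ea, sv_smul, f3 a' (Or.inl rfl)],
    by rw [sv_mul, eb, sv_smul, f3 b' (Or.inr rfl)], by rw [sv_mul, e3]⟩

/-- Vectors in a plane are orthogonal. -/
theorem plane_orth (hF : Fintype.card F = 4) {a b c u v : Fin 6 → F} (h : Frame3 a b c)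
    (hu : u ∈ plane a b c) (hv : v ∈ plane a b c) : hm u v = 0 := by
  refine hm_span_zero hF (fun s hs => hm_flip hF (hm_span_zero hF (fun t ht => ?_) hu)) hv
  rcases hs with rfl | rfl | rfl <;> rcases ht with rfl | rfl | rfl <;>
    first
      | exact h.aa | exact h.bb | exact h.cc | exact h.ba | exact h.ca | exact h.cb
      | exact hm_flip hF h.ba | exact hm_flip hF h.ca | exact hm_flip hF h.cb

theorem exists_duals (hF : Fintype.card F = 4) {a b c : Fin 6 → F} (h : Frame3 a b c) :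
    ∃ z : Fin 3 → Fin 6 → F, ∀ i j, hm (z i) (![a, b, c] j) = if i = j then 1 else 0 := by
  classical
  obtain ⟨z3, p3, q3⟩ := exists_dual_sub hF h.c0
  have h3a : hm z3 a = 0 := p3 a (Submodule.subset_span (Or.inl rfl))
  have h3b : hm z3 b = 0 := p3 b (Submodule.subset_span (Or.inr rfl))
  obtain ⟨y2, p2, q2⟩ := exists_dual_sub hF h.b0
  have h2a : hm y2 a = 0 := p2 a (Submodule.mem_span_singleton_self a)
  obtain ⟨y1, -, q1⟩ := exists_dual_sub hF (U := ⊥) (x := a) (by simpa using h.a0)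
  obtain ⟨z2, hz2⟩ : ∃ z2, y2 + hm y2 c • z3 = z2 := ⟨_, rfl⟩
  have g2a : hm z2 a = 0 := by rw [← hz2, hm_addL, hm_smulL, h2a, h3a, mul_zero, add_zero]
  have g2b : hm z2 b = 1 := by rw [← hz2, hm_addL, hm_smulL, q2, h3b, mul_zero, add_zero]
  have g2c : hm z2 c = 0 := by rw [← hz2, hm_addL, hm_smulL, q3, mul_one, F4.add_self hF]
  refine ⟨![y1 + hm y1 b • z2 + hm y1 c • z3, z2, z3], fun i j => ?_⟩
  fin_cases i <;> fin_cases j <;>
    simp [hm_addL, hm_smulL, q1, g2a, g2b, g2c, h3a, h3b, q3, F4.add_self hF]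

/-- A vector orthogonal to a frame lies in its plane; the plane has 64 vectors. -/
theorem plane_max (hF : Fintype.card F = 4) {a b c : Fin 6 → F} (h : Frame3 a b c) :
    (∀ v, hm v a = 0 → hm v b = 0 → hm v c = 0 → v ∈ plane a b c) ∧
      Nat.card ↥(plane a b c) = 64 := by
  classical
  obtain ⟨z, hz⟩ := exists_duals hF h
  obtain ⟨φ, hφ⟩ : ∃ φ : (Fin 6 → F) →ₗ[F] (Fin 3 → F), ∀ v i, φ v i = hm v (![a, b, c] i) :=
    ⟨{ toFun := fun v i => hm v (![a, b, c] i)
       map_add' := fun u v => funext fun i => hm_addL u v _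
       map_smul' := fun k v => funext fun i => hm_smulL k v _ }, fun _ _ => rfl⟩
  have hsurj : Function.Surjective φ := by
    intro w
    refine ⟨∑ i, w i • z i, funext fun j => ?_⟩
    rw [map_sum, Finset.sum_apply, Finset.sum_eq_single j (fun i _ hij => ?_) (by simp)]
    · rw [map_smul, Pi.smul_apply, hφ, hz, if_pos rfl, smul_eq_mul, mul_one]
    · rw [map_smul, Pi.smul_apply, hφ, hz, if_neg hij, smul_zero]
  have hle : plane a b c ≤ LinearMap.ker φ := by
    refine fun v hv => LinearMap.mem_ker.2 (funext fun i => ?_)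
    rw [hφ]
    exact plane_orth hF h hv (Submodule.subset_span (by fin_cases i <;> simp))
  have hli : LinearIndependent F ![a, b, c] := by
    refine Fintype.linearIndependent_iff.2 fun g hg i => ?_
    have := congrArg (hm (z i)) hg
    rw [hm_zeroR hF, Fin.sum_univ_three, hm_addR hF, hm_addR hF, hm_smulR, hm_smulR, hm_smulR,
      hz, hz, hz] at this
    fin_cases i <;> simpa using this
  have hrk : Module.finrank F ↥(plane a b c) = 3 := by
    have := finrank_span_eq_card hli
    rwa [Fintype.card_fin, show Set.range ![a, b, c] = ({a, b, c} : Set (Fin 6 → F)) by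
      ext x; simp [Matrix.range_cons, Matrix.range_empty]; tauto] at this
  have hker : Module.finrank F ↥(LinearMap.ker φ) = 3 := by
    have := LinearMap.finrank_range_add_finrank_ker φ
    rw [LinearMap.range_eq_top.2 hsurj, finrank_top, Module.finrank_fin_fun,
      Module.finrank_fin_fun] at this
    omega
  have heq := Submodule.eq_of_le_of_finrank_eq hle (hrk.trans hker.symm)
  refine ⟨fun v h1 h2 h3 => ?_, ?_⟩
  · rw [heq]
    refine LinearMap.mem_ker.2 (funext fun i => ?_)
    rw [hφ]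
    fin_cases i <;> simpa
  · rw [Nat.card_eq_fintype_card, Module.card_eq_pow_finrank (K := F), hrk, hF]
    norm_num

/-- Pairwise orthogonal vectors lie in the plane of a frame; one or two given points extend. -/
theorem extend_one (hF : Fintype.card F = 4) {a : Fin 6 → F} (ha : hm a a = 0) (ha0 : a ≠ 0) :
    ∃ b, hm b b = 0 ∧ hm b a = 0 ∧ b ∉ Submodule.span F ({a} : Set (Fin 6 → F)) := by
  obtain ⟨z, -, hz⟩ := exists_dual_sub hF (U := ⊥) (x := a) (by simpa using ha0)
  obtain ⟨x, hx0, hxx, hx⟩ := exists_iso_perp hF ![a, z, 0, 0]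
  have hxa : hm x a = 0 := by simpa using hx 0
  have hxz : hm x z = 0 := by simpa using hx 1
  refine ⟨x, hxx, hxa, not_mem_one fun k hk => hx0 ?_⟩
  rw [← hk, hm_smulL, hm_flip_one hF hz, mul_one] at hxz
  rw [← hk, hxz, zero_smul]

theorem extend_two (hF : Fintype.card F = 4) {a b : Fin 6 → F} (ha : hm a a = 0) (hb : hm b b = 0)
    (hba : hm b a = 0) (ha0 : a ≠ 0) (hb0 : b ∉ Submodule.span F ({a} : Set (Fin 6 → F))) :
    ∃ c, Frame3 a b c := by
  obtain ⟨y, py, qy⟩ := exists_dual_sub hF hb0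
  have hya : hm y a = 0 := py a (Submodule.mem_span_singleton_self a)
  obtain ⟨z, -, hz⟩ := exists_dual_sub hF (U := ⊥) (x := a) (by simpa using ha0)
  obtain ⟨x, hx0, hxx, hx⟩ := exists_iso_perp hF ![a, b, y, z]
  have hxa : hm x a = 0 := by simpa using hx 0
  have hxb : hm x b = 0 := by simpa using hx 1
  have hxy : hm x y = 0 := by simpa using hx 2
  have hxz : hm x z = 0 := by simpa using hx 3
  refine ⟨x, ⟨ha, hb, hxx, hba, hxa, hxb, ha0, hb0, not_mem_two fun k l hk => hx0 ?_⟩⟩
  rw [← hk, hm_addL, hm_smulL, hm_smulL, hm_flip hF hya, hm_flip_one hF qy, mul_zero, mul_one,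
    zero_add] at hxy
  rw [← hk, hm_addL, hm_smulL, hm_smulL, hm_flip_one hF hz, hxy, zero_mul, mul_one, add_zero] at hxz
  rw [← hk, hxz, hxy, zero_smul, zero_smul, add_zero]

theorem exists_frame_over (hF : Fintype.card F = 4) (W : Set (Fin 6 → F))
    (hW : ∀ v ∈ W, ∀ u ∈ W, hm v u = 0) : ∃ a b c, Frame3 a b c ∧ ∀ v ∈ W, v ∈ (plane a b c : Submodule F (Fin 6 → F)) := by
  by_cases h1 : ∃ a ∈ W, a ≠ 0
  · obtain ⟨a, haW, ha0⟩ := h1
    by_cases h2 : ∃ b ∈ W, b ∉ Submodule.span F ({a} : Set (Fin 6 → F))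
    · obtain ⟨b, hbW, hb0⟩ := h2
      by_cases h3 : ∃ c ∈ W, c ∉ Submodule.span F ({a, b} : Set (Fin 6 → F))
      · obtain ⟨c, hcW, hc0⟩ := h3
        have hfr : Frame3 a b c := ⟨hW a haW a haW, hW b hbW b hbW, hW c hcW c hcW, hW b hbW a haW,
          hW c hcW a haW, hW c hcW b hbW, ha0, hb0, hc0⟩
        exact ⟨a, b, c, hfr, fun v hv =>
          (plane_max hF hfr).1 v (hW v hv a haW) (hW v hv b hbW) (hW v hv c hcW)⟩
      · push Not at h3
        obtain ⟨c, hc⟩ := extend_two hF (hW a haW a haW) (hW b hbW b hbW) (hW b hbW a haW) ha0 hb0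
        exact ⟨a, b, c, hc, fun v hv => Submodule.span_mono (by simp [Set.insert_subset_iff]) (h3 v hv)⟩
    · push Not at h2
      obtain ⟨b, hb1, hb2, hb3⟩ := extend_one hF (hW a haW a haW) ha0
      obtain ⟨c, hc⟩ := extend_two hF (hW a haW a haW) hb1 hb2 ha0 hb3
      exact ⟨a, b, c, hc, fun v hv => Submodule.span_mono (by simp) (h2 v hv)⟩
  · push Not at h1
    obtain ⟨a, ha, ha0⟩ := PSU62.exists_point hF
    obtain ⟨b, hb1, hb2, hb3⟩ := extend_one hF ha ha0
    obtain ⟨c, hc⟩ := extend_two hF ha hb1 hb2 ha0 hb3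
    exact ⟨a, b, c, hc, fun v hv => by rw [h1 v hv]; exact Submodule.zero_mem _⟩

/-- The transvections. -/
def points (hF : Fintype.card F = 4) : Set (PSU 6 F 2) :=
  {u | ∃ v, hm v v = 0 ∧ v ≠ 0 ∧ tp hF v = u}

theorem points_threeTransp (hF : Fintype.card F = 4) : IsThreeTranspositionSet (points hF) := by
  refine ⟨?_, ?_⟩
  · rintro _ ⟨v, hv, hv0, rfl⟩
    exact orderOf_eq_prime (by rw [pow_two]; exact ExtLift58.tp_mul_self hF hv) (tp_ne_one hF hv hv0)
  · rintro _ ⟨v, hv, hv0, rfl⟩ _ ⟨w, hw, hw0, rfl⟩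
    by_cases h : hm w v = 0
    · left
      rw [pow_two, ((tp_commute_iff hF hv hw hv0 hw0).2 h).symm.mul_mul_mul_comm,
        ExtLift58.tp_mul_self hF hv, ExtLift58.tp_mul_self hF hw, one_mul]
    · right
      have h' : hm v w ≠ 0 := fun e => h (hm_flip hF e)
      have hb : tp hF v * tp hF w * tp hF v = tp hF w * tp hF v * tp hF w := by
        have hm1 := ExtLift58.tp_move hF hv hw h'
        rw [mul_inv_eq_iff_eq_mul, ← mul_assoc] at hm1
        exact hm1
      calc (tp hF v * tp hF w) ^ 3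
          = (tp hF v * tp hF w * tp hF v) * (tp hF w * tp hF v * tp hF w) := by
            rw [pow_succ, pow_two]; simp only [mul_assoc]
        _ = (tp hF w * tp hF v * tp hF w) * (tp hF w * tp hF v * tp hF w) := by rw [hb]
        _ = 1 := by
            simp only [mul_assoc]
            rw [← mul_assoc (tp hF w) (tp hF w), ExtLift58.tp_mul_self hF hw, one_mul,
              ← mul_assoc (tp hF v) (tp hF v), ExtLift58.tp_mul_self hF hv, one_mul,
              ExtLift58.tp_mul_self hF hw]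

theorem points_noTwins (hF : Fintype.card F = 4) : NoTwins (points hF) := by
  rintro _ _ ⟨⟨a, ha, ha0, rfl⟩, ⟨b, hb, hb0, rfl⟩, hab, hiff⟩
  by_contra hne
  have hba : hm b a = 0 := (tp_commute_iff hF ha hb ha0 hb0).1 hab
  have hb1 : b ∉ Submodule.span F ({a} : Set (Fin 6 → F)) := not_mem_one fun k hk => by
    have hk0 : k ≠ 0 := fun h => hb0 (by rw [← hk, h, zero_smul])
    exact hne (by rw [← hk, tp_scale hF ha hk0])
  obtain ⟨z, hza, hzb⟩ := exists_dual_sub hF hb1
  obtain ⟨t, ht⟩ := U62.exists_isotropify hF hb (show hm z b ≠ 0 by rw [hzb]; exact one_ne_zero)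
  have hea : hm (z + t • b) a = 0 := by
    rw [hm_addL, hm_smulL, hza a (Submodule.mem_span_singleton_self a), hba, mul_zero, add_zero]
  have heb : hm (z + t • b) b = 1 := by
    rw [hm_addL, hm_smulL, hzb, hb, mul_zero, add_zero]
  have he0 : z + t • b ≠ 0 := fun h => by rw [h, hm_zeroL] at heb; exact zero_ne_one heb
  have hc : Commute (tp hF a) (tp hF (z + t • b)) := (tp_commute_iff hF ha ht ha0 he0).2 hea
  have := (tp_commute_iff hF hb ht hb0 he0).1 (((hiff _ ⟨_, ht, he0, rfl⟩).1 hc.symm).symm)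
  rw [heb] at this
  exact one_ne_zero this

/-- The group generated by the transvections at the points of a plane. -/
def planeGroup (hF : Fintype.card F = 4) (a b c : Fin 6 → F) : Subgroup (PSU 6 F 2) :=
  Subgroup.closure (tp hF '' (plane a b c : Set (Fin 6 → F)))

theorem tp_mem_planeGroup (hF : Fintype.card F = 4) {a b c v : Fin 6 → F} (hv : v ∈ plane a b c) :
    tp hF v ∈ planeGroup hF a b c :=
  Subgroup.subset_closure ⟨v, hv, rfl⟩

theorem planeGroup_abel (hF : Fintype.card F = 4) {a b c : Fin 6 → F} (h : Frame3 a b c) :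
    ∀ x ∈ planeGroup hF a b c, x * x = 1 ∧ ∀ y ∈ planeGroup hF a b c, Commute x y := by
  have hc : ∀ v ∈ plane a b c, ∀ u ∈ plane a b c, Commute (tp hF v) (tp hF u) := by
    intro v hv u hu
    by_cases hv0 : v = 0
    · rw [hv0, tp_zero]; exact Commute.one_left _
    by_cases hu0 : u = 0
    · rw [hu0, tp_zero]; exact Commute.one_right _
    exact (tp_commute_iff hF (plane_orth hF h hv hv) (plane_orth hF h hu hu) hv0 hu0).2
      (plane_orth hF h hu hv)
  have hall : ∀ y ∈ planeGroup hF a b c, ∀ v ∈ plane a b c, Commute y (tp hF v) := by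
    intro y hy v hv
    induction hy using Subgroup.closure_induction with
    | mem y hy => obtain ⟨u, hu, rfl⟩ := hy; exact hc u hu v hv
    | one => exact Commute.one_left _
    | mul p q _ _ h1 h2 => exact h1.mul_left h2
    | inv p _ h1 => exact h1.inv_left
  intro x hx
  induction hx using Subgroup.closure_induction with
  | mem x hx =>
    obtain ⟨v, hv, rfl⟩ := hx
    exact ⟨ExtLift58.tp_mul_self hF (plane_orth hF h hv hv), fun y hy => (hall y hy v hv).symm⟩
  | one => exact ⟨one_mul 1, fun _ _ => Commute.one_left _⟩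
  | mul p q hp hq h1 h2 =>
    exact ⟨by rw [(h2.2 p hp).mul_mul_mul_comm, h1.1, h2.1, one_mul],
      fun y hy => (h1.2 y hy).mul_left (h2.2 y hy)⟩
  | inv p _ h1 => exact ⟨by rw [← mul_inv_rev, h1.1, inv_one], fun y hy => (h1.2 y hy).inv_left⟩

/-- Transvections commuting with the group of a plane lie at its points. -/
theorem point_mem_plane (hF : Fintype.card F = 4) {a b c v : Fin 6 → F} (h : Frame3 a b c)
    (hv : hm v v = 0) (hv0 : v ≠ 0) (hc : ∀ u ∈ plane a b c, u ≠ 0 → Commute (tp hF v) (tp hF u)) :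
    v ∈ plane a b c := by
  have key : ∀ u ∈ ({a, b, c} : Set (Fin 6 → F)), u ≠ 0 → hm v u = 0 := fun u hu hu0 =>
    hm_flip hF ((tp_commute_iff hF hv (plane_orth hF h (Submodule.subset_span hu)
      (Submodule.subset_span hu)) hv0 hu0).1 (hc u (Submodule.subset_span hu) hu0))
  exact (plane_max hF h).1 v (key a (by simp) h.a0)
    (key b (by simp) fun e => h.b0 (e.symm ▸ Submodule.zero_mem _))
    (key c (by simp) fun e => h.c0 (e.symm ▸ Submodule.zero_mem _))

/-- The points of a plane. -/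
theorem plane_points_ncard (hF : Fintype.card F = 4) {a b c : Fin 6 → F} (h : Frame3 a b c) :
    (tp hF '' ((plane a b c : Set (Fin 6 → F)) \ {0})).ncard = 21 := by
  classical
  obtain ⟨S, hS⟩ : ∃ S : Finset (Fin 6 → F),
      Finset.univ.filter (fun v => v ∈ plane a b c ∧ v ≠ 0) = S := ⟨_, rfl⟩
  have mS : ∀ v, v ∈ S ↔ v ∈ plane a b c ∧ v ≠ 0 := fun v => by simp [← hS]
  have cS : S.card = 63 := by
    have h64 := (plane_max hF h).2
    have e : Finset.univ.filter (fun v => v ∈ plane a b c) = insert (0 : Fin 6 → F) S := by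
      ext v
      simp only [Finset.mem_filter, Finset.mem_univ, true_and, Finset.mem_insert, mS]
      refine ⟨fun hv => ?_, ?_⟩
      · by_cases h0 : v = 0
        · exact Or.inl h0
        · exact Or.inr ⟨hv, h0⟩
      · rintro (rfl | hv)
        · exact Submodule.zero_mem _
        · exact hv.1
    rw [Nat.card_eq_fintype_card, Fintype.card_subtype, e,
      Finset.card_insert_of_notMem (fun h0 => ((mS 0).1 h0).2 rfl)] at h64
    omega
  rw [show (plane a b c : Set (Fin 6 → F)) \ {0} = (S : Set (Fin 6 → F)) by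
    ext v; simp [mS], ← Finset.coe_image, Set.ncard_coe_finset]
  have hfib : ∀ u ∈ S.image (tp hF), (S.filter fun v => tp hF v = u).card = 3 := by
    intro u hu
    obtain ⟨v, hv, rfl⟩ := Finset.mem_image.1 hu
    obtain ⟨hvp, hv0⟩ := (mS v).1 hv
    rw [show (S.filter fun w => tp hF w = tp hF v) =
      ((Finset.univ : Finset F).erase 0).image (fun k => k • v) from ?_,
      Finset.card_image_of_injective _ (smul_left_injective F hv0),
      Finset.card_erase_of_mem (Finset.mem_univ _), Finset.card_univ, hF]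
    ext w
    simp only [Finset.mem_filter, Finset.mem_image, Finset.mem_erase, Finset.mem_univ, and_true, mS]
    constructor
    · rintro ⟨⟨hw, hw0⟩, e⟩
      obtain ⟨k, hk, rfl⟩ := tp_inj hF (plane_orth hF h hvp hvp) (plane_orth hF h hw hw) hv0 hw0 e.symm
      exact ⟨k, hk, rfl⟩
    · rintro ⟨k, hk, rfl⟩
      exact ⟨⟨Submodule.smul_mem _ _ hvp, smul_ne_zero hk hv0⟩,
        tp_scale hF (plane_orth hF h hvp hvp) hk⟩
  have hsum := Finset.card_eq_sum_card_fiberwise (f := tp hF) (t := S.image (tp hF))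
    fun v hv => Finset.mem_image_of_mem _ hv
  rw [Finset.sum_congr rfl hfib, Finset.sum_const, smul_eq_mul, cS] at hsum
  omega

/-- An element of the group of a plane is a product over at most three of its points, forming part of
a frame of the plane. -/
theorem planeGroup_element (hF : Fintype.card F = 4) {a b c : Fin 6 → F} (h : Frame3 a b c)
    {e : PSU 6 F 2} (he : e ∈ planeGroup hF a b c) (he1 : e ≠ 1) :
    (∃ x ∈ plane a b c, x ≠ 0 ∧ e = tp hF x) ∨
    (∃ x ∈ plane a b c, ∃ y ∈ plane a b c, x ≠ 0 ∧ y ∉ Submodule.span F ({x} : Set (Fin 6 → F)) ∧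
      e = tp hF x * tp hF y) ∨
    ∃ x ∈ plane a b c, ∃ y ∈ plane a b c, ∃ z ∈ plane a b c, Frame3 x y z ∧
      e = tp hF x * tp hF y * tp hF z := by
  obtain ⟨l, hlen, hfr, rfl⟩ := U6Inv53.involution_eq_prod hF (planeGroup_abel hF h e he).1
  have hD := points_threeTransp hF
  have hmem : ∀ v ∈ l, v ∈ plane a b c := by
    intro v hv
    refine point_mem_plane hF h (hfr.iso v hv) (hfr.ne0 v hv) fun u hu hu0 => ?_
    refine (commute_of_commute_prod hD ⟨u, plane_orth hF h hu hu, hu0, rfl⟩ (l.map (tp hF))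
      (by simpa using hlen) ?_ ?_ ?_ ?_ (tp hF v) (List.mem_map_of_mem hv)).symm
    · rw [List.nodup_iff_injective_get]
      intro i j hij
      by_contra hne
      rcases lt_or_gt_of_ne hne with hlt | hlt
      · obtain ⟨k, -, hk⟩ := tp_inj hF (hfr.iso _ (List.get_mem l (i.cast (by simp))))
          (hfr.iso _ (List.get_mem l (j.cast (by simp)))) (hfr.ne0 _ (List.get_mem _ _))
          (hfr.ne0 _ (List.get_mem _ _)) (by simpa using hij)
        exact hfr.dual (i.cast (by simp)) (j.cast (by simp)) (by simpa using hlt) k hk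
      · obtain ⟨k, -, hk⟩ := tp_inj hF (hfr.iso _ (List.get_mem l (j.cast (by simp))))
          (hfr.iso _ (List.get_mem l (i.cast (by simp)))) (hfr.ne0 _ (List.get_mem _ _))
          (hfr.ne0 _ (List.get_mem _ _)) (by simpa using hij.symm)
        exact hfr.dual (j.cast (by simp)) (i.cast (by simp)) (by simpa using hlt) k hk
    · intro x hx
      obtain ⟨w, hw, rfl⟩ := List.mem_map.1 hx
      exact ⟨w, hfr.iso w hw, hfr.ne0 w hw, rfl⟩
    · intro x hx y hy
      obtain ⟨w, hw, rfl⟩ := List.mem_map.1 hx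
      obtain ⟨w', hw', rfl⟩ := List.mem_map.1 hy
      exact (tp_commute_iff hF (hfr.iso w hw) (hfr.iso w' hw') (hfr.ne0 w hw) (hfr.ne0 w' hw')).2
        (hfr.orth w' hw' w hw)
    · exact ((planeGroup_abel hF h _ he).2 _ (tp_mem_planeGroup hF hu)).symm
  match l, hlen with
  | [], _ => exact absurd (by simp) he1
  | [x], _ => exact Or.inl ⟨x, hmem x (by simp), hfr.ne0 x (by simp), by simp⟩
  | [x, y], _ =>
    refine Or.inr (Or.inl ⟨x, hmem x (by simp), y, hmem y (by simp), hfr.ne0 x (by simp),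
      not_mem_one fun k hk => hfr.dual (⟨0, by simp⟩ : Fin [x, y].length) ⟨1, by simp⟩
        (by simp [Fin.lt_def]) k hk.symm, by simp⟩)
  | [x, y, z], _ =>
    refine Or.inr (Or.inr ⟨x, hmem x (by simp), y, hmem y (by simp), z, hmem z (by simp),
      ⟨hfr.iso x (by simp), hfr.iso y (by simp), hfr.iso z (by simp),
        hfr.orth y (by simp) x (by simp), hfr.orth z (by simp) x (by simp),
        hfr.orth z (by simp) y (by simp), hfr.ne0 x (by simp),
        not_mem_one fun k hk => ?_, not_mem_two fun k l' hk => ?_⟩, by simp [mul_assoc]⟩)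
    · exact one_ne_zero (neg_eq_zero.1 (hfr.indep x y z rfl k (-1) 0 (by rw [neg_one_smul, hk]; simp)).2.1)
    · exact one_ne_zero (neg_eq_zero.1 (hfr.indep x y z rfl k l' (-1)
        (by rw [neg_one_smul, hk]; simp)).2.2)
  | _ :: _ :: _ :: _ :: _, hlen => simp only [List.length_cons] at hlen; omega

/-- Conjugating the parts of frames. -/
theorem frame_conj (hF : Fintype.card F = 4) {a b c a' b' c' : Fin 6 → F} (h : Frame3 a b c)
    (h' : Frame3 a' b' c') : ∃ g : PSU 6 F 2, g * tp hF a * g⁻¹ = tp hF a' ∧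
      g * tp hF b * g⁻¹ = tp hF b' ∧ g * tp hF c * g⁻¹ = tp hF c' ∧
      ∀ x ∈ planeGroup hF a b c, g * x * g⁻¹ ∈ planeGroup hF a' b' c' := by
  obtain ⟨A, k, l, m, hk, hl, hm', ea, eb, ec⟩ := frame_move hF h h'
  obtain ⟨g, hg⟩ : ∃ g : PSU 6 F 2, QuotientGroup.mk A = g := ⟨_, rfl⟩
  refine ⟨g, ?_, ?_, ?_, ?_⟩
  · rw [← hg, tp_sv hF A h.aa, ea, tp_scale hF h'.aa hk]
  · rw [← hg, tp_sv hF A h.bb, eb, tp_scale hF h'.bb hl]
  · rw [← hg, tp_sv hF A h.cc, ec, tp_scale hF h'.cc hm']
  · intro x hx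
    have hle : planeGroup hF a b c ≤
        (planeGroup hF a' b' c').comap (MulAut.conj g).toMonoidHom := by
      rw [planeGroup, Subgroup.closure_le]
      rintro _ ⟨v, hv, rfl⟩
      show g * tp hF v * g⁻¹ ∈ planeGroup hF a' b' c'
      rw [← hg, tp_sv hF A (plane_orth hF h hv hv)]
      refine tp_mem_planeGroup hF (sv_mem_span (fun s hs => ?_) hv)
      rcases hs with rfl | rfl | rfl
      · rw [ea]; exact Submodule.smul_mem _ _ (Submodule.subset_span (by simp))
      · rw [eb]; exact Submodule.smul_mem _ _ (Submodule.subset_span (by simp))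
      · rw [ec]; exact Submodule.smul_mem _ _ (Submodule.subset_span (by simp))
    exact hle hx

end CfsgLib.ThreeTransp.U6Plane94
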