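import Mathlib
import Cfsg.Agent.ThreeTransp.U6Sylow94
import Cfsg.Agent.ThreeTransp.U6Plane94

/-!
`PSU(6, 2)`: a Sylow 2-subgroup has a single elementary abelian subgroup of largest order, the group
of the transvections at the points of a totally isotropic plane.
-/

set_option autoImplicit false

namespace CfsgLib.ThreeTransp.U6Thompson94

open Cfsg PSU62 Matrix U6Sylow94 U6Plane94

variable {F : Type} [Field F] [Fintype F]

theorem sq_comm {H : Type*} [Group H] {x y : H} (hx : x * x = 1) (hy : y * y = 1)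
    (hxy : (x * y) * (x * y) = 1) : x * y = y * x := by
  have h3 : (x * y)⁻¹ = x * y := inv_eq_of_mul_eq_one_right hxy
  rw [_root_.mul_inv_rev, inv_eq_of_mul_eq_one_right hx, inv_eq_of_mul_eq_one_right hy] at h3
  exact h3.symm

theorem bit_eq (hF : Fintype.card F = 4) {a r₁ r₂ u₁ u₂ : F} (ha : a ≠ 0)
    (h1 : (a * u₁ ^ 2 + r₁) + (a * u₁ ^ 2 + r₁) ^ 2 = 0)
    (h2 : (a * u₂ ^ 2 + r₂) + (a * u₂ ^ 2 + r₂) ^ 2 = 0) (hr : r₁ = r₂)
    (hb : (a * u₁ ^ 2 + r₁ = 0) ↔ (a * u₂ ^ 2 + r₂ = 0)) : u₁ = u₂ := by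
  have key : ∀ t : F, t + t ^ 2 = 0 → t = 0 ∨ t = 1 := fun t ht => by
    rcases mul_eq_zero.1 (show t * (1 + t) = 0 by rw [← ht]; ring) with h | h
    · exact Or.inl h
    · exact Or.inr (by linear_combination h - F4.two_eq_zero hF)
  have ht : a * u₁ ^ 2 + r₁ = a * u₂ ^ 2 + r₂ := by
    rcases key _ h1 with e1 | e1 <;> rcases key _ h2 with e2 | e2
    · rw [e1, e2]
    · exact absurd (e2 ▸ hb.1 e1) one_ne_zero
    · exact absurd (e1 ▸ hb.2 e2) one_ne_zero
    · rw [e1, e2]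
  rw [hr, add_left_inj] at ht
  have h4 : ∀ x : F, (x ^ 2) ^ 2 = x := fun x => by rw [← pow_mul]; exact F4.pow_four hF x
  rw [← h4 u₁, ← h4 u₂, mul_left_cancel₀ ha ht]

theorem ite_inj {x y : Bool} (h : (if x then (1 : F) else 0) = if y then 1 else 0) : x = y := by
  cases x <;> cases y <;> simp at h <;> rfl

theorem parA_mul (p q : Fin 6 → F) :
    parA p * parA q = !![1, p 0 + q 0, p 1 + q 1 + p 0 * q 2; 0, 1, p 2 + q 2; 0, 0, 1] := by
  ext i j
  fin_cases i <;> fin_cases j <;> simp [parA, Matrix.mul_apply, Fin.sum_univ_three] <;> ring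

/-- The Sylow subgroup of the coordinates has a single elementary abelian subgroup of order at least
512. -/
theorem sylow_unique (hF : Fintype.card F = 4) {S E : Subgroup (PSU 6 F 2)} (hS : Nat.card S = 2 ^ 15)
    (hE : Nat.card E = 2 ^ 9) (hco : Coords S E) (X : Subgroup (PSU 6 F 2)) (hX : X ≤ S)
    (hXs : ∀ x ∈ X, x * x = 1) :
    Nat.card X ≤ 2 ^ 9 ∧ (2 ^ 9 ≤ Nat.card X → X = E) := by
  classical
  haveI : Fact (Nat.Prime 2) := ⟨Nat.prime_two⟩
  obtain ⟨k, hkS, hksurj, hkE, hkmul, hkone⟩ := hco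
  have hkz : ∀ (p : Fin 6 → F) (x : Fin 3 → Bool), parK p x * parK p x = 1 → parA p * parA p = 1 := fun p x h => by
    have := congrArg Matrix.toBlocks₁₁ h
    simp only [parK, Matrix.fromBlocks_multiply, Matrix.toBlocks_fromBlocks₁₁, Matrix.mul_zero, add_zero] at this
    rw [this]
    ext i j; simp [Matrix.toBlocks₁₁, Matrix.one_apply]
  have hinv : ∀ p x, k p x ∈ X → p 0 * p 2 = 0 := by
    intro p x hp
    have h := congrFun (congrFun (hkz p x ((hkone p x p x).1 (hXs _ hp))) 0) 2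
    rw [parA_mul] at h
    simpa [F4.add_self hF] using h
  have hcomm : ∀ p x q y, k p x ∈ X → k q y ∈ X → parK p x * parK q y = parK q y * parK p x :=
    fun p x q y hp hq => (hkmul p x q y q y p x).1
      (sq_comm (hXs _ hp) (hXs _ hq) (hXs _ (mul_mem hp hq)))
  have hcross : ∀ p x q y, k p x ∈ X → k q y ∈ X → p 0 * q 2 = q 0 * p 2 := by
    intro p x q y hp hq
    have h := congrArg Matrix.toBlocks₁₁ (hcomm p x q y hp hq)
    rw [parK, parK, Matrix.fromBlocks_multiply, Matrix.fromBlocks_multiply,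
      Matrix.toBlocks_fromBlocks₁₁, Matrix.toBlocks_fromBlocks₁₁] at h
    simp only [Matrix.mul_zero, add_zero] at h
    have h' := congrFun (congrFun h 0) 2
    rw [parA_mul, parA_mul] at h'
    simp at h'
    linear_combination h'
  -- the part in `E`
  have hK : ∀ q y, k q y ∈ E → q 0 = 0 ∧ q 1 = 0 ∧ q 2 = 0 := fun q y h => by
    have hA := (hkE q y).1 h
    exact ⟨by simpa [parA] using congrFun (congrFun hA 0) 1,
      by simpa [parA] using congrFun (congrFun hA 0) 2, by simpa [parA] using congrFun (congrFun hA 1) 2⟩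
  have hcen : ∀ p x q y, k p x ∈ X → k q y ∈ X → k q y ∈ E → parA p * parS q y = parS q y * parB p := by
    intro p x q y hp hq hqE
    obtain ⟨q0, q1, q2⟩ := hK q y hqE
    have hA1 := (hkE q y).1 hqE
    have hB1 : parB q = 1 := by
      ext i j; fin_cases i <;> fin_cases j <;> simp [parB, q0, q1, q2]
    have h := congrArg Matrix.toBlocks₁₂ (hcomm p x q y hp hq)
    rw [parK, parK, hA1, hB1, Matrix.fromBlocks_multiply, Matrix.fromBlocks_multiply,
      Matrix.toBlocks_fromBlocks₁₂, Matrix.toBlocks_fromBlocks₁₂, Matrix.one_mul, Matrix.one_mul,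
      Matrix.mul_one, add_comm (parA p * parS p x)] at h
    exact add_right_cancel h
  obtain ⟨K, hKdef⟩ : ∃ K : Finset (PSU 6 F 2), Finset.univ.filter (fun g => g ∈ X ∧ g ∈ E) = K :=
    haveI := Fintype.ofFinite (PSU 6 F 2)
    ⟨_, rfl⟩
  have mK : ∀ g, g ∈ K ↔ g ∈ X ∧ g ∈ E := fun g => by rw [← hKdef]; simp
  have hKparam : ∀ (B : Finset (Bool × Bool × F × Bool))
      (Φ : (Fin 6 → F) → (Fin 3 → Bool) → Bool × Bool × F × Bool),
      (∀ q y, k q y ∈ X → k q y ∈ E → Φ q y ∈ B) →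
      (∀ q y q' y', k q y ∈ X → k q y ∈ E → k q' y' ∈ X → k q' y' ∈ E → Φ q y = Φ q' y' →
        q 3 = q' 3 ∧ q 4 = q' 4 ∧ q 5 = q' 5 ∧ y = y') → K.card ≤ B.card := by
    intro B Φ hB hΦ
    have hsel : ∀ g : PSU 6 F 2, ∃ p x, g ∈ S → g = k p x := fun g => by
      by_cases h : g ∈ S
      · obtain ⟨p, x, e⟩ := hksurj g h
        exact ⟨p, x, fun _ => e⟩
      · exact ⟨0, fun _ => false, fun h' => absurd h' h⟩
    choose P Q hPQ using hsel
    have e : ∀ g ∈ K, k (P g) (Q g) ∈ X ∧ k (P g) (Q g) ∈ E ∧ k (P g) (Q g) = g := fun g hg => by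
      have := (hPQ g (hX ((mK g).1 hg).1)).symm
      exact ⟨this.symm ▸ ((mK g).1 hg).1, this.symm ▸ ((mK g).1 hg).2, this⟩
    refine Finset.card_le_card_of_injOn (fun g => Φ (P g) (Q g))
      (fun g hg => hB _ _ (e g hg).1 (e g hg).2.1) fun g hg g' hg' h => ?_
    obtain ⟨h3, h4, h5, hy⟩ := hΦ _ _ _ _ (e g hg).1 (e g hg).2.1 (e g' hg').1 (e g' hg').2.1 h
    obtain ⟨a0, a1, a2⟩ := hK _ _ (e g hg).2.1
    obtain ⟨b0, b1, b2⟩ := hK _ _ (e g' hg').2.1
    rw [← (e g hg).2.2, ← (e g' hg').2.2, hy, show P g = P g' from funext fun i => by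
      fin_cases i
      · exact a0.trans b0.symm
      · exact a1.trans b1.symm
      · exact a2.trans b2.symm
      · exact h3
      · exact h4
      · exact h5]
  by_cases hle : X ≤ E
  · exact ⟨hE ▸ Subgroup.card_le_of_le hle,
      fun h => Subgroup.eq_of_le_of_card_ge hle (by rw [hE]; exact h)⟩
  obtain ⟨g₀, hg₀X, hg₀E⟩ := SetLike.not_le_iff_exists.1 hle
  obtain ⟨p₀, x₀, rfl⟩ := hksurj g₀ (hX hg₀X)
  have hne₀ : ¬ (p₀ 0 = 0 ∧ p₀ 1 = 0 ∧ p₀ 2 = 0) := fun ⟨a0, a1, a2⟩ => hg₀E ((hkE p₀ x₀).2 (by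
    ext i j; fin_cases i <;> fin_cases j <;> simp [parA, a0, a1, a2]))
  -- `X` is at most the image times the part in `E`
  obtain ⟨I, hIdef⟩ : ∃ I : Finset (F × F × F), Finset.univ.filter
      (fun t => ∃ p x, k p x ∈ X ∧ (p 0, p 1, p 2) = t) = I := ⟨_, rfl⟩
  have hXI : Nat.card X ≤ I.card * K.card := by
    haveI := Fintype.ofFinite (PSU 6 F 2)
    have hrep : ∀ t : F × F × F, ∃ p x, t ∈ I → k p x ∈ X ∧ (p 0, p 1, p 2) = t := fun t => by
      by_cases h : t ∈ I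
      · obtain ⟨p, x, h1, h2⟩ := (Finset.mem_filter.1 (hIdef.symm ▸ h)).2
        exact ⟨p, x, fun _ => ⟨h1, h2⟩⟩
      · exact ⟨0, fun _ => false, fun h' => absurd h' h⟩
    choose P Q hPQ using hrep
    rw [← Finset.card_product]
    refine le_trans (le_of_eq ?_) ((Finset.card_le_card (s := Finset.univ.filter (· ∈ X))
      (t := (I ×ˢ K).image fun tg => k (P tg.1) (Q tg.1) * tg.2) ?_).trans Finset.card_image_le)
    · rw [Nat.card_eq_fintype_card, Fintype.card_subtype]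
    intro g hg
    have hgX := (Finset.mem_filter.1 hg).2
    obtain ⟨p, x, rfl⟩ := hksurj g (hX hgX)
    have ht : ((p 0, p 1, p 2) : F × F × F) ∈ I :=
      hIdef ▸ Finset.mem_filter.2 ⟨Finset.mem_univ _, p, x, hgX, rfl⟩
    obtain ⟨r, hr⟩ : ∃ r, P (p 0, p 1, p 2) = r := ⟨_, rfl⟩
    obtain ⟨ry, hry⟩ : ∃ ry, Q (p 0, p 1, p 2) = ry := ⟨_, rfl⟩
    obtain ⟨hrX, hrt⟩ := hPQ _ ht
    rw [hr, hry] at hrX
    rw [hr] at hrt
    simp only [Prod.mk.injEq] at hrt
    obtain ⟨q, z, e⟩ := hksurj _ (mul_mem (hX hrX) (hX hgX))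
    have hE' : k r ry * k p x ∈ E := by
      have hsq := hkz r ry ((hkone r ry r ry).1 (hXs _ hrX))
      rw [e, hkE]
      obtain ⟨z0, z0x, z0e⟩ := hksurj 1 (one_mem S)
      have hz0 : parK z0 z0x * parK z0 z0x = 1 := (hkone _ _ _ _).1 (by rw [← z0e, one_mul])
      have hz0A : parA z0 = 1 := (hkE _ _).1 (z0e ▸ one_mem E)
      have h := congrArg Matrix.toBlocks₁₁ ((hkmul r ry p x q z z0 z0x).1 (by rw [e, ← z0e, mul_one]))
      rw [parK, parK, parK, parK, Matrix.fromBlocks_multiply, Matrix.fromBlocks_multiply,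
        Matrix.toBlocks_fromBlocks₁₁, Matrix.toBlocks_fromBlocks₁₁] at h
      simp only [Matrix.mul_zero, add_zero, hz0A, Matrix.mul_one] at h
      rw [← h, show parA p = parA r by simp only [parA, hrt.1, hrt.2.1, hrt.2.2], hsq]
    refine Finset.mem_image.2 ⟨((p 0, p 1, p 2), k r ry * k p x), Finset.mem_product.2
      ⟨ht, (mK _).2 ⟨mul_mem hrX hgX, hE'⟩⟩, ?_⟩
    show k (P _) (Q _) * (k r ry * k p x) = k p x
    rw [hr, hry, ← mul_assoc, hXs _ hrX, one_mul]
  suffices hlt : Nat.card X < 2 ^ 9 from ⟨hlt.le, fun h => absurd h (by omega)⟩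
  have hsucc : ∀ n : ℕ, I.card ≤ n → K.card * n < 2 ^ 9 → Nat.card X < 2 ^ 9 := fun n h1 h2 =>
    lt_of_le_of_lt (hXI.trans (by rw [mul_comm]; exact Nat.mul_le_mul_left _ h1)) h2
  have c32 : (Finset.univ ×ˢ Finset.univ ×ˢ Finset.univ ×ˢ Finset.univ :
      Finset (Bool × Bool × F × Bool)).card = 32 := by
    simp [Finset.card_univ, hF]
  -- the two shapes
  by_cases hP : ∀ p x, k p x ∈ X → p 2 = 0
  · have hsub : I ⊆ (Finset.univ ×ˢ Finset.univ ×ˢ {0}) := fun t ht => by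
      obtain ⟨p, x, hp, rfl⟩ := (Finset.mem_filter.1 (hIdef.symm ▸ ht)).2
      simp [hP p x hp]
    have c16 : (Finset.univ ×ˢ Finset.univ ×ˢ ({0} : Finset F) : Finset (F × F × F)).card = 16 := by
      simp [Finset.card_univ, hF]
    have hI : I.card ≤ 16 := c16 ▸ Finset.card_le_card hsub
    -- equations for the common part
    have eqs : ∀ p x q y, k p x ∈ X → k q y ∈ X → k q y ∈ E →
        p 0 * (if y 1 then 1 else 0) + p 1 * q 5 ^ 2 = 0 ∧ p 0 * q 5 + p 1 * (if y 2 then 1 else 0) = 0 ∧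
        (p 0 * q 3 ^ 2 + p 1 * q 4 ^ 2) + (p 0 * q 3 ^ 2 + p 1 * q 4 ^ 2) ^ 2 = 0 := by
      intro p x q y hp hq hqE
      have h := hcen p x q y hp hq hqE
      have h2 := hP p x hp
      have e01 := congrFun (congrFun h 0) 1
      have e02 := congrFun (congrFun h 0) 2
      have e00 := congrFun (congrFun h 0) 0
      simp [parA, parB, parS, Matrix.mul_apply, Fin.sum_univ_three, h2, -mul_ite, -ite_mul] at e01 e02 e00
      have h4 : ∀ x : F, (x ^ 2) ^ 2 = x := fun x => by rw [← pow_mul]; exact F4.pow_four hF x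
      refine ⟨by linear_combination e01, by linear_combination e02, ?_⟩
      rw [F4.add_sq hF, mul_pow, mul_pow, h4, h4]
      linear_combination e00 + (q 3 * p 0 ^ 2 + q 4 * p 1 ^ 2) * F4.two_eq_zero hF
    by_cases hfull : (∃ p x, k p x ∈ X ∧ p 0 = 1 ∧ p 1 = 0) ∧ ∃ p x, k p x ∈ X ∧ p 0 = 0 ∧ p 1 = 1
    · obtain ⟨⟨pa, xa, hpa, pa0, pa1⟩, pb, xb, hpb, pb0, pb1⟩ := hfull
      refine hsucc 16 hI (lt_of_le_of_lt (Nat.mul_le_mul_right 16 ?_) (show 8 * 16 < 2 ^ 9 by norm_num))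
      refine le_trans (hKparam (Finset.univ ×ˢ Finset.univ ×ˢ {0} ×ˢ Finset.univ)
        (fun q y => (y 0, decide (q 3 ^ 2 = 0), 0, decide (q 4 ^ 2 = 0))) (fun q y _ _ => by simp only [Finset.mem_product, Finset.mem_univ, Finset.mem_singleton, and_self]) ?_)
        (by simp [Finset.card_univ])
      intro q y q' y' hq hqE hq' hqE' h
      obtain ⟨a1, a2, a3⟩ := eqs pa xa q y hpa hq hqE
      obtain ⟨b1, b2, b3⟩ := eqs pb xb q y hpb hq hqE
      obtain ⟨a1', a2', a3'⟩ := eqs pa xa q' y' hpa hq' hqE'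
      obtain ⟨b1', b2', b3'⟩ := eqs pb xb q' y' hpb hq' hqE'
      simp only [pa0, pa1, pb0, pb1, one_mul, zero_mul, add_zero, zero_add] at a1 a2 a3 b1 b2 b3 a1' a2' a3' b1' b2' b3'
      simp only [Prod.mk.injEq, decide_eq_decide] at h
      refine ⟨bit_eq hF (r₁ := 0) (r₂ := 0) one_ne_zero (by simpa using a3) (by simpa using a3') rfl
        (by simpa using h.2.1), bit_eq hF (r₁ := 0) (r₂ := 0) one_ne_zero (by simpa using b3)
        (by simpa using b3') rfl (by simpa using h.2.2.2), by rw [a2, a2'], funext fun i => ?_⟩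
      fin_cases i
      · exact h.1
      · exact ite_inj (a1.trans a1'.symm)
      · exact ite_inj (b2.trans b2'.symm)
    · have hI15 : I.card ≤ 15 := by
        have hlt' : I.card < 16 := by
          rw [← c16]
          refine Finset.card_lt_card (Finset.ssubset_iff_subset_ne.2 ⟨hsub, fun e => hfull ?_⟩)
          have h1 : ((1 : F), (0 : F), (0 : F)) ∈ I := by rw [e]; simp
          have h2 : ((0 : F), (1 : F), (0 : F)) ∈ I := by rw [e]; simp
          rw [← hIdef, Finset.mem_filter] at h1 h2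
          obtain ⟨p, x, hp, he⟩ := h1.2
          obtain ⟨p', x', hp', he'⟩ := h2.2
          simp only [Prod.mk.injEq] at he he'
          exact ⟨⟨p, x, hp, he.1, he.2.1⟩, p', x', hp', he'.1, he'.2.1⟩
        omega
      refine hsucc 15 hI15 (lt_of_le_of_lt (Nat.mul_le_mul_right 15 ?_)
        (show 32 * 15 < 2 ^ 9 by norm_num))
      have h02 := hP p₀ x₀ hg₀X
      by_cases ha : p₀ 0 = 0
      · have hb : p₀ 1 ≠ 0 := fun h => hne₀ ⟨ha, h, h02⟩
        refine le_trans (hKparam (Finset.univ ×ˢ Finset.univ ×ˢ Finset.univ ×ˢ Finset.univ)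
          (fun q y => (y 0, y 1, q 3, decide (p₀ 1 * q 4 ^ 2 + 0 = 0))) (fun q y _ _ => by simp only [Finset.mem_product, Finset.mem_univ, Finset.mem_singleton, and_self]) ?_) c32.le
        intro q y q' y' hq hqE hq' hqE' h
        obtain ⟨a1, a2, a3⟩ := eqs p₀ x₀ q y hg₀X hq hqE
        obtain ⟨a1', a2', a3'⟩ := eqs p₀ x₀ q' y' hg₀X hq' hqE'
        simp only [ha, zero_mul, zero_add, mul_eq_zero, hb, false_or, ne_eq, OfNat.ofNat_ne_zero,
          not_false_eq_true, pow_eq_zero_iff] at a1 a2 a1' a2'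
        simp only [Prod.mk.injEq, decide_eq_decide] at h
        refine ⟨h.2.2.1, bit_eq hF (r₁ := 0) (r₂ := 0) hb (by simpa [ha] using a3)
          (by simpa [ha] using a3') rfl h.2.2.2, by rw [a1, a1'], funext fun i => ?_⟩
        fin_cases i
        · exact h.1
        · exact h.2.1
        · exact ite_inj (a2.trans a2'.symm)
      · refine le_trans (hKparam (Finset.univ ×ˢ Finset.univ ×ˢ Finset.univ ×ˢ Finset.univ)
          (fun q y => (y 0, y 2, q 4, decide (p₀ 0 * q 3 ^ 2 + p₀ 1 * q 4 ^ 2 = 0)))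
          (fun q y _ _ => by simp only [Finset.mem_product, Finset.mem_univ, Finset.mem_singleton, and_self]) ?_) c32.le
        intro q y q' y' hq hqE hq' hqE' h
        obtain ⟨a1, a2, a3⟩ := eqs p₀ x₀ q y hg₀X hq hqE
        obtain ⟨a1', a2', a3'⟩ := eqs p₀ x₀ q' y' hg₀X hq' hqE'
        simp only [Prod.mk.injEq, decide_eq_decide] at h
        obtain ⟨h0, h2, hv, hbit⟩ := h
        have hw : q 5 = q' 5 := mul_left_cancel₀ ha (by
          rw [h2] at a2; linear_combination a2 - a2')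
        refine ⟨bit_eq hF ha a3 a3' (by rw [hv]) hbit, hv, hw, funext fun i => ?_⟩
        fin_cases i
        · exact h0
        · show y 1 = y' 1
          refine ite_inj (mul_left_cancel₀ ha ?_)
          rw [hw] at a1
          linear_combination a1 - a1'
        · exact h2
  · -- the other shape
    push Not at hP
    obtain ⟨p₁, x₁, hp₁, hp₁2⟩ := hP
    have hP0 : ∀ p x, k p x ∈ X → p 0 = 0 := by
      intro p x hp
      by_contra hp0
      have h2 : p 2 = 0 := (mul_eq_zero.1 (hinv p x hp)).resolve_left hp0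
      have := hcross p x p₁ x₁ hp hp₁
      rw [h2, mul_zero] at this
      exact hp₁2 ((mul_eq_zero.1 this).resolve_left hp0)
    have hsub : I ⊆ ({0} ×ˢ Finset.univ ×ˢ Finset.univ) := fun t ht => by
      obtain ⟨p, x, hp, rfl⟩ := (Finset.mem_filter.1 (hIdef.symm ▸ ht)).2
      simp [hP0 p x hp]
    have c16 : (({0} : Finset F) ×ˢ Finset.univ ×ˢ Finset.univ : Finset (F × F × F)).card = 16 := by
      simp [Finset.card_univ, hF]
    have hI : I.card ≤ 16 := c16 ▸ Finset.card_le_card hsub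
    have eqs : ∀ p x q y, k p x ∈ X → k q y ∈ X → k q y ∈ E →
        p 1 * (if y 2 then 1 else 0) = 0 ∧ p 2 * (if y 2 then 1 else 0) = 0 ∧
        p 1 * q 5 ^ 2 = p 2 ^ 2 * q 4 ∧
        (p 1 * q 4 ^ 2) + (p 1 * q 4 ^ 2) ^ 2 = 0 ∧ (p 2 * q 5 ^ 2) + (p 2 * q 5 ^ 2) ^ 2 = 0 := by
      intro p x q y hp hq hqE
      have h := hcen p x q y hp hq hqE
      have h0 := hP0 p x hp
      have e00 := congrFun (congrFun h 0) 0
      have e01 := congrFun (congrFun h 0) 1
      have e02 := congrFun (congrFun h 0) 2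
      have e11 := congrFun (congrFun h 1) 1
      have e12 := congrFun (congrFun h 1) 2
      simp [parA, parB, parS, Matrix.mul_apply, Fin.sum_univ_three, h0, -mul_ite, -ite_mul] at e00 e01 e02 e11 e12
      have h4 : ∀ x : F, (x ^ 2) ^ 2 = x := fun x => by rw [← pow_mul]; exact F4.pow_four hF x
      refine ⟨?_, ?_, by linear_combination e01, ?_, ?_⟩
      · first
          | linear_combination e02
          | (rcases e02 with h | h <;> simp [h])
      · first
          | linear_combination e12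
          | (rcases e12 with h | h <;> simp [h])
      · rw [mul_pow, h4]
        linear_combination e00 + (q 4 * p 1 ^ 2) * F4.two_eq_zero hF
      · rw [mul_pow, h4]
        linear_combination e11 + (q 5 * p 2 ^ 2) * F4.two_eq_zero hF
    by_cases hfull : (∃ p x, k p x ∈ X ∧ p 1 = 1 ∧ p 2 = 0) ∧ ∃ p x, k p x ∈ X ∧ p 1 = 0 ∧ p 2 = 1
    · obtain ⟨⟨pa, xa, hpa, pa1, pa2⟩, pb, xb, hpb, pb1, pb2⟩ := hfull
      refine hsucc 16 hI (lt_of_le_of_lt (Nat.mul_le_mul_right 16 ?_) (show 16 * 16 < 2 ^ 9 by norm_num))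
      refine le_trans (hKparam (Finset.univ ×ˢ Finset.univ ×ˢ Finset.univ ×ˢ {false})
        (fun q y => (y 0, y 1, q 3, false)) (fun q y _ _ => by simp only [Finset.mem_product, Finset.mem_univ, Finset.mem_singleton, and_self]) ?_)
        (by simp [Finset.card_univ, hF])
      intro q y q' y' hq hqE hq' hqE' h
      obtain ⟨a1, a2, a3, a4, a5⟩ := eqs pa xa q y hpa hq hqE
      obtain ⟨b1, b2, b3, b4, b5⟩ := eqs pb xb q y hpb hq hqE
      obtain ⟨a1', a2', a3', a4', a5'⟩ := eqs pa xa q' y' hpa hq' hqE'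
      obtain ⟨b1', b2', b3', b4', b5'⟩ := eqs pb xb q' y' hpb hq' hqE'
      simp only [pa1, pa2, pb1, pb2, one_mul, zero_mul, one_pow, ne_eq, OfNat.ofNat_ne_zero,
        not_false_eq_true, zero_pow, pow_eq_zero_iff] at a1 a3 b3 a1' a3' b3'
      simp only [Prod.mk.injEq] at h
      refine ⟨h.2.2.1, by rw [← b3, ← b3'], by rw [a3, a3'], funext fun i => ?_⟩
      fin_cases i
      · exact h.1
      · exact h.2.1
      · exact ite_inj (a1.trans a1'.symm)
    · have hI15 : I.card ≤ 15 := by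
        have hlt' : I.card < 16 := by
          rw [← c16]
          refine Finset.card_lt_card (Finset.ssubset_iff_subset_ne.2 ⟨hsub, fun e => hfull ?_⟩)
          have h1 : ((0 : F), (1 : F), (0 : F)) ∈ I := by rw [e]; simp
          have h2 : ((0 : F), (0 : F), (1 : F)) ∈ I := by rw [e]; simp
          rw [← hIdef, Finset.mem_filter] at h1 h2
          obtain ⟨p, x, hp, he⟩ := h1.2
          obtain ⟨p', x', hp', he'⟩ := h2.2
          simp only [Prod.mk.injEq] at he he'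
          exact ⟨⟨p, x, hp, he.2.1, he.2.2⟩, p', x', hp', he'.2.1, he'.2.2⟩
        omega
      refine hsucc 15 hI15 (lt_of_le_of_lt (Nat.mul_le_mul_right 15 ?_)
        (show 32 * 15 < 2 ^ 9 by norm_num))
      obtain ⟨a1, a2, -, -, -⟩ : p₁ 2 ≠ 0 ∧ p₁ 0 = 0 ∧ True ∧ True ∧ True :=
        ⟨hp₁2, hP0 p₁ x₁ hp₁, trivial, trivial, trivial⟩
      refine le_trans (hKparam (Finset.univ ×ˢ Finset.univ ×ˢ Finset.univ ×ˢ Finset.univ)
        (fun q y => (y 0, y 1, q 3, decide (p₁ 2 * q 5 ^ 2 + 0 = 0))) (fun q y _ _ => by simp only [Finset.mem_product, Finset.mem_univ, Finset.mem_singleton, and_self]) ?_) c32.le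
      intro q y q' y' hq hqE hq' hqE' h
      obtain ⟨-, b2, b3, -, b5⟩ := eqs p₁ x₁ q y hp₁ hq hqE
      obtain ⟨-, b2', b3', -, b5'⟩ := eqs p₁ x₁ q' y' hp₁ hq' hqE'
      simp only [Prod.mk.injEq, decide_eq_decide] at h
      have hw : q 5 = q' 5 := bit_eq hF (r₁ := 0) (r₂ := 0) hp₁2 (by simpa using b5)
        (by simpa using b5') rfl h.2.2.2
      refine ⟨h.2.2.1, mul_left_cancel₀ (pow_ne_zero 2 hp₁2) ?_, hw, funext fun i => ?_⟩
      · rw [← b3, ← b3', hw]
      · fin_cases i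
        · exact h.1
        · exact h.2.1
        · exact ite_inj (mul_left_cancel₀ hp₁2 (b2.trans b2'.symm))

/-- Every totally isotropic plane gives an elementary abelian group of order 512; every Sylow
2-subgroup has just one such. -/
theorem u6_thompson (hF : Fintype.card F = 4) :
    (∀ X : Subgroup (PSU 6 F 2), (∀ x ∈ X, x * x = 1) → Nat.card X ≤ 2 ^ 9) ∧
    (∀ a b c : Fin 6 → F, Frame3 a b c → Nat.card ↥(planeGroup hF a b c) = 2 ^ 9) ∧
    (∀ T : Sylow 2 (PSU 6 F 2), ∃ a b c, Frame3 a b c ∧ planeGroup hF a b c ≤ (T : Subgroup _) ∧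
      ∀ X : Subgroup (PSU 6 F 2), X ≤ (T : Subgroup _) → (∀ x ∈ X, x * x = 1) →
        2 ^ 9 ≤ Nat.card X → X = planeGroup hF a b c) := by
  classical
  haveI : Fact (Nat.Prime 2) := ⟨Nat.prime_two⟩
  obtain ⟨S, E, P, Q, hSodd, hScard, hES, -, -, hfE, -, -, hEcard, -, -, -, -, hco⟩ :=
    exists_sylow_parts hF
  obtain ⟨T₀, hT₀⟩ : ∃ T₀ : Sylow 2 (PSU 6 F 2), (T₀ : Subgroup _) = S :=
    ⟨(IsPGroup.of_card hScard).toSylow (Nat.odd_iff.1 hSodd |> fun h => by omega), rfl⟩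
  have any : ∀ X : Subgroup (PSU 6 F 2), (∀ x ∈ X, x * x = 1) → Nat.card X ≤ 2 ^ 9 := by
    intro X hX
    have hp2 : IsPGroup 2 ↥X := fun x => ⟨1, by rw [pow_one, pow_two]; exact Subtype.ext (hX x x.2)⟩
    obtain ⟨T, hT⟩ := hp2.exists_le_sylow
    obtain ⟨g, hg⟩ := MulAction.exists_smul_eq (PSU 6 F 2) T T₀
    obtain ⟨Y, hY⟩ : ∃ Y, X.map (MulAut.conj g).toMonoidHom = Y := ⟨_, rfl⟩
    rw [Nat.card_congr (X.equivMapOfInjective (MulAut.conj g).toMonoidHom (MulEquiv.injective _)).toEquiv,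
      hY]
    refine (sylow_unique hF hScard hEcard hco Y ?_ ?_).1
    · rw [← hY, ← hT₀, ← hg, Sylow.coe_subgroup_smul]
      rintro _ ⟨x, hx, rfl⟩
      exact ⟨x, hT hx, rfl⟩
    · rw [← hY]
      rintro _ ⟨x, hx, rfl⟩
      rw [← map_mul, hX x hx, map_one]
  obtain ⟨W, hW, hEW⟩ := hfE
  obtain ⟨a₀, b₀, c₀, h₀, hW₀⟩ := exists_frame_over hF W hW
  have hEeq : E = planeGroup hF a₀ b₀ c₀ := by
    refine Subgroup.eq_of_le_of_card_ge (fun x hx => ?_)
      ((any _ fun x hx => (planeGroup_abel hF h₀ x hx).1).trans hEcard.ge)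
    have hle : Subgroup.closure (PSU62.tp hF '' W) ≤ planeGroup hF a₀ b₀ c₀ :=
      Subgroup.closure_mono (Set.image_mono fun v hv => hW₀ v hv)
    exact hle (hEW hx)
  have hconj : ∀ a b c a' b' c' : Fin 6 → F, Frame3 a b c → Frame3 a' b' c' →
      Nat.card ↥(planeGroup hF a b c) ≤ Nat.card ↥(planeGroup hF a' b' c') := by
    intro a b c a' b' c' h h'
    obtain ⟨g, -, -, -, hg⟩ := frame_conj hF h h'
    exact Nat.card_le_card_of_injective (fun x => ⟨g * x * g⁻¹, hg x x.2⟩)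
      fun x y e => Subtype.ext (by simpa using congrArg Subtype.val e)
  have hord : ∀ a b c : Fin 6 → F, Frame3 a b c → Nat.card ↥(planeGroup hF a b c) = 2 ^ 9 :=
    fun a b c h => le_antisymm ((hconj _ _ _ _ _ _ h h₀).trans (by rw [← hEeq, hEcard]))
      (by rw [← hEcard, hEeq]; exact hconj _ _ _ _ _ _ h₀ h)
  refine ⟨any, hord, fun T => ?_⟩
  obtain ⟨g, hg⟩ := MulAction.exists_smul_eq (PSU 6 F 2) T T₀
  obtain ⟨A, rfl⟩ := QuotientGroup.mk_surjective g
  obtain ⟨ga, hga⟩ : ∃ ga, CfsgLib.Unitary.sv A⁻¹ a₀ = ga := ⟨_, rfl⟩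
  obtain ⟨gb, hgb⟩ : ∃ gb, CfsgLib.Unitary.sv A⁻¹ b₀ = gb := ⟨_, rfl⟩
  obtain ⟨gc, hgc⟩ : ∃ gc, CfsgLib.Unitary.sv A⁻¹ c₀ = gc := ⟨_, rfl⟩
  have back : ∀ u, CfsgLib.Unitary.sv A (CfsgLib.Unitary.sv A⁻¹ u) = u := fun u => by
    rw [← CfsgLib.Unitary.sv_mul, mul_inv_cancel, CfsgLib.Unitary.sv_one]
  have hmsv : ∀ u v, hm (CfsgLib.Unitary.sv A⁻¹ u) (CfsgLib.Unitary.sv A⁻¹ v) = hm u v := fun u v =>
    CfsgLib.Unitary.sv_herm _ u v
  have hfr : Frame3 ga gb gc := by
    subst hga hgb hgc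
    refine ⟨?_, ?_, ?_, ?_, ?_, ?_, ?_, ?_, ?_⟩
    · rw [hmsv]; exact h₀.aa
    · rw [hmsv]; exact h₀.bb
    · rw [hmsv]; exact h₀.cc
    · rw [hmsv]; exact h₀.ba
    · rw [hmsv]; exact h₀.ca
    · rw [hmsv]; exact h₀.cb
    · exact fun e => h₀.a0 (by rw [← back a₀, e]; exact Matrix.mulVec_zero _)
    · intro e
      refine h₀.b0 ?_
      rw [← back b₀]
      exact sv_mem_span (fun s hs => by
        rw [Set.mem_singleton_iff.1 hs, back]; exact Submodule.mem_span_singleton_self _) e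
    · intro e
      refine h₀.c0 ?_
      rw [← back c₀]
      refine sv_mem_span (fun s hs => ?_) e
      rcases hs with hs | hs
      · rw [hs, back]; exact Submodule.subset_span (Or.inl rfl)
      · rw [Set.mem_singleton_iff.1 hs, back]; exact Submodule.subset_span (Or.inr rfl)
  have hmap : (planeGroup hF ga gb gc).map
      (MulAut.conj (QuotientGroup.mk A : PSU 6 F 2)).toMonoidHom = E := by
    refine Subgroup.eq_of_le_of_card_ge ?_ (by
      rw [← Nat.card_congr ((planeGroup hF ga gb gc).equivMapOfInjective _ (MulEquiv.injective _)).toEquiv,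
        hord _ _ _ hfr, hEcard])
    rw [planeGroup, MonoidHom.map_closure, Subgroup.closure_le]
    rintro _ ⟨_, ⟨v, hv, rfl⟩, rfl⟩
    show (QuotientGroup.mk A : PSU 6 F 2) * tp hF v * (QuotientGroup.mk A)⁻¹ ∈ E
    rw [tp_sv hF A (plane_orth hF hfr hv hv), hEeq]
    refine tp_mem_planeGroup hF (sv_mem_span (fun s hs => ?_) hv)
    subst hga hgb hgc
    rcases hs with rfl | rfl | rfl <;> rw [back] <;> exact Submodule.subset_span (by simp)
  have hgT : ∀ x, x ∈ (T : Subgroup (PSU 6 F 2)) ↔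
      (QuotientGroup.mk A : PSU 6 F 2) * x * (QuotientGroup.mk A)⁻¹ ∈ S := fun x => by
    rw [← hT₀, ← hg, Sylow.coe_subgroup_smul]
    exact (Subgroup.smul_mem_pointwise_smul_iff (a := MulAut.conj (QuotientGroup.mk A : PSU 6 F 2))).symm
  refine ⟨ga, gb, gc, hfr, fun x hx => (hgT x).2 (hES ?_), fun X hX hXs hc => ?_⟩
  · rw [← hmap]; exact ⟨x, hx, rfl⟩
  · obtain ⟨Y, hY⟩ : ∃ Y, X.map (MulAut.conj (QuotientGroup.mk A : PSU 6 F 2)).toMonoidHom = Y :=
      ⟨_, rfl⟩
    have hYE := (sylow_unique hF hScard hEcard hco Y (by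
      rw [← hY]; rintro _ ⟨x, hx, rfl⟩; exact (hgT x).1 (hX hx)) (by
      rw [← hY]; rintro _ ⟨x, hx, rfl⟩; rw [← map_mul, hXs x hx, map_one])).2 (by
      rw [← hY, ← Nat.card_congr (X.equivMapOfInjective _ (MulEquiv.injective _)).toEquiv]; exact hc)
    exact Subgroup.map_injective (MulEquiv.injective _) (hY.trans (hYE.trans hmap.symm))

end CfsgLib.ThreeTransp.U6Thompson94
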