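import Mathlib
import Cfsg.Agent.ThreeTransp.M22CoverBase94
import Cfsg.Agent.ThreeTransp.U6Thompson94

/-!
An involution centralizer that is a double cover of `PSU(6, 2)`: the preimages of the groups of
totally isotropic planes, their uniqueness in Sylow 2-subgroups and their fusion.
-/

set_option autoImplicit false

namespace CfsgLib.ThreeTransp.U6Cover94

open Cfsg PSU62 U6Plane94

universe v

variable {F : Type} [Field F] [Fintype F] {G : Type v} [Group G] [Finite G] {d : G}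
variable {f : ↥(Subgroup.centralizer ({d} : Set G)) →* PSU 6 F 2}

/-- The preimage of the group of a plane. -/
def planeA (hF : Fintype.card F = 4) (f : ↥(Subgroup.centralizer ({d} : Set G)) →* PSU 6 F 2)
    (a b c : Fin 6 → F) : Subgroup G :=
  coverA94 f (tp hF '' (plane a b c : Set (Fin 6 → F)))

theorem mem_planeA {hF : Fintype.card F = 4} {a b c : Fin 6 → F} {x : G} :
    x ∈ planeA hF f a b c ↔
      ∃ h : x ∈ Subgroup.centralizer ({d} : Set G), f ⟨x, h⟩ ∈ planeGroup hF a b c :=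
  mem_coverA94

theorem planeA_le (hF : Fintype.card F = 4) (a b c : Fin 6 → F) :
    planeA hF f a b c ≤ Subgroup.centralizer ({d} : Set G) :=
  Subgroup.map_subtype_le _

theorem planeA_sq (hc : CoverData94 d f) (hF : Fintype.card F = 4) {a b c : Fin 6 → F}
    (h : Frame3 a b c) : ∀ x ∈ planeA hF f a b c, x * x = 1 := by
  intro x hx
  obtain ⟨hxC, hx⟩ := mem_planeA.1 hx
  exact congrArg Subtype.val (hc.lift ⟨x, hxC⟩ (planeGroup_abel hF h _ hx).1)

theorem planeA_card (hc : CoverData94 d f) (hF : Fintype.card F = 4) {a b c : Fin 6 → F}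
    (h : Frame3 a b c) : Nat.card ↥(planeA hF f a b c) = 2 ^ 10 := by
  rw [planeA, coverA94, Nat.card_congr (((Subgroup.closure _).comap f).equivMapOfInjective _
    (Subgroup.subtype_injective _)).toEquiv.symm]
  have h1 := ((planeGroup hF a b c).comap f).card_mul_index
  rw [Subgroup.index_comap_of_surjective _ hc.surj] at h1
  have h2 := f.ker.card_mul_index
  rw [Subgroup.index_ker, MonoidHom.range_eq_top.2 hc.surj, Subgroup.card_top] at h2
  have h3 := (planeGroup hF a b c).card_mul_index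
  rw [(U6Thompson94.u6_thompson hF).2.1 a b c h] at h3
  have hk : Nat.card f.ker = 2 := by
    rw [Nat.card_eq_two_iff]
    refine ⟨1, ⟨⟨d, hc.self_mem⟩, hc.f_self⟩, fun h => hc.ne ?_, Set.ext fun z => ?_⟩
    · exact (congrArg (fun z : ↥f.ker => ((z : ↥(Subgroup.centralizer ({d} : Set G))) : G)) h).symm
    · simp only [Set.mem_univ, iff_true, Set.mem_insert_iff, Set.mem_singleton_iff]
      rcases (hc.ker z.1).1 z.2 with h | h
      · exact Or.inl (Subtype.ext (Subtype.ext h))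
      · exact Or.inr (Subtype.ext (Subtype.ext h))
  rw [hk] at h2
  rw [← h2, ← h3] at h1
  refine Nat.eq_of_mul_eq_mul_right
    (Subgroup.index_ne_zero_of_finite (H := planeGroup hF a b c)).bot_lt ?_
  show Nat.card ↥((planeGroup hF a b c).comap f) * _ = _
  rw [h1]
  ring

/-- In a Sylow 2-subgroup of the centralizer the preimage of a plane group is the only elementary
abelian subgroup of largest order. -/
theorem cover_sylow (hc : CoverData94 d f) (hF : Fintype.card F = 4)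
    (S : Sylow 2 ↥(Subgroup.centralizer ({d} : Set G))) :
    ∃ a b c, Frame3 a b c ∧
      planeA hF f a b c ≤ (S : Subgroup _).map (Subgroup.centralizer ({d} : Set G)).subtype ∧
      ∀ X : Subgroup G, X ≤ (S : Subgroup _).map (Subgroup.centralizer ({d} : Set G)).subtype →
        (∀ x ∈ X, x * x = 1) →
        Nat.card X ≤ 2 ^ 10 ∧ (2 ^ 10 ≤ Nat.card X → X = planeA hF f a b c) := by
  haveI : Fact (Nat.Prime 2) := ⟨Nat.prime_two⟩
  obtain ⟨hany, -, hT⟩ := U6Thompson94.u6_thompson hF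
  obtain ⟨a, b, c, hfr, hle, hmax⟩ := hT (S.mapSurjective hc.surj)
  rw [Sylow.coe_mapSurjective] at hle hmax
  have hkerS : f.ker ≤ (S : Subgroup ↥(Subgroup.centralizer ({d} : Set G))) := by
    refine IsPGroup.le_sylow_of_normal ?_ S
    refine fun k => ⟨1, Subtype.ext ?_⟩
    rw [pow_one, SubmonoidClass.coe_pow, pow_two]
    exact hc.lift k.1 (by rw [MonoidHom.mem_ker.1 k.2, one_mul])
  refine ⟨a, b, c, hfr, ?_, fun X hX hXs => ?_⟩
  · refine Subgroup.map_mono ((Subgroup.comap_mono hle).trans ?_)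
    rw [Subgroup.comap_map_eq]
    exact sup_le le_rfl hkerS
  · have hXC : X ≤ Subgroup.centralizer ({d} : Set G) := hX.trans (Subgroup.map_subtype_le _)
    obtain ⟨Y, hY⟩ : ∃ Y, X.subgroupOf (Subgroup.centralizer ({d} : Set G)) = Y := ⟨_, rfl⟩
    have hXY : Nat.card Y = Nat.card X :=
      hY ▸ Nat.card_congr (Subgroup.subgroupOfEquivOfLe hXC).toEquiv
    have hYS : Y.map f ≤ (S : Subgroup ↥(Subgroup.centralizer ({d} : Set G))).map f := by
      refine Subgroup.map_mono fun y hy => ?_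
      rw [← hY, Subgroup.mem_subgroupOf] at hy
      obtain ⟨z, hz, he⟩ := hX hy
      exact (Subtype.ext he : z = y) ▸ hz
    have hYsq : ∀ a ∈ Y.map f, a * a = 1 := by
      rintro _ ⟨y, hy, rfl⟩
      rw [← map_mul]
      refine (congrArg f (Subtype.ext ?_ : y * y = 1)).trans f.map_one
      rw [← hY] at hy
      exact hXs _ hy
    have h1 := hany (Y.map f) hYsq
    have hker : Nat.card ↥(f.ker ⊓ Y : Subgroup _) ≤ 2 := by
      classical
      haveI := Fintype.ofFinite ↥(Subgroup.centralizer ({d} : Set G))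
      rw [← SetLike.coe_sort_coe, Nat.card_coe_set_eq]
      refine (Set.ncard_le_ncard (t := {1, ⟨d, hc.self_mem⟩}) (fun k hk => ?_) (Set.toFinite _)).trans
        ((Set.ncard_insert_le _ _).trans (by rw [Set.ncard_singleton]))
      rcases (hc.ker k).1 hk.1 with h | h
      · exact Or.inl (Subtype.ext h)
      · exact Or.inr (Subtype.ext h)
    have hcard : Nat.card Y = Nat.card ↥(Y.map f) * Nat.card ↥(f.ker ⊓ Y : Subgroup _) := by
      have h := Subgroup.card_eq_card_quotient_mul_card_subgroup (f.comp Y.subtype).ker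
      rw [Nat.card_congr (QuotientGroup.quotientKerEquivRange (f.comp Y.subtype)).toEquiv,
        MonoidHom.range_comp, Subgroup.range_subtype] at h
      rw [h]
      congr 1
      exact Nat.card_congr ⟨fun k => ⟨k.1, k.2, k.1.2⟩, fun k => ⟨⟨k.1, k.2.2⟩, k.2.1⟩,
        fun _ => rfl, fun _ => rfl⟩
    rw [← hXY, hcard]
    refine ⟨(Nat.mul_le_mul h1 hker).trans (by norm_num), fun h => ?_⟩
    have hYf : Y.map f = planeGroup hF a b c := hmax (Y.map f) hYS hYsq (by
      by_contra hlt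
      have := Nat.mul_le_mul (show Nat.card ↥(Y.map f) ≤ 511 by omega) hker
      omega)
    refine Subgroup.eq_of_le_of_card_ge (fun x hx => mem_planeA.2 ⟨hXC hx, hYf ▸
      Subgroup.mem_map_of_mem f (show (⟨x, hXC hx⟩ : ↥(Subgroup.centralizer ({d} : Set G))) ∈ Y from
        hY ▸ hx)⟩) ?_
    rw [planeA_card hc hF hfr, ← hXY, hcard]
    exact h

/-- An elementary abelian subgroup of order `2 ^ 10` of the centralizer is conjugate there to the
preimage of any plane group. -/
theorem cover_max_conj (hc : CoverData94 d f) (hF : Fintype.card F = 4) {a b c : Fin 6 → F}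
    (h : Frame3 a b c) (X : Subgroup G) (hX : X ≤ Subgroup.centralizer ({d} : Set G))
    (hXs : ∀ x ∈ X, x * x = 1) (hcard : Nat.card X = 2 ^ 10) :
    ∃ g ∈ Subgroup.centralizer ({d} : Set G), ∀ x, x ∈ planeA hF f a b c ↔ g⁻¹ * x * g ∈ X := by
  haveI : Fact (Nat.Prime 2) := ⟨Nat.prime_two⟩
  have mk : ∀ Y : Subgroup G, Y ≤ Subgroup.centralizer ({d} : Set G) → (∀ x ∈ Y, x * x = 1) →
      ∃ S : Sylow 2 ↥(Subgroup.centralizer ({d} : Set G)),
        Y ≤ (S : Subgroup _).map (Subgroup.centralizer ({d} : Set G)).subtype := by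
    intro Y hY hYs
    have hp2 : IsPGroup 2 ↥(Y.subgroupOf (Subgroup.centralizer ({d} : Set G))) := fun y => ⟨1, by
      rw [pow_one, pow_two]; exact Subtype.ext (Subtype.ext (hYs _ y.2))⟩
    obtain ⟨S, hS⟩ := hp2.exists_le_sylow
    exact ⟨S, fun y hy => ⟨⟨y, hY hy⟩, hS (Subgroup.mem_subgroupOf.2 hy), rfl⟩⟩
  obtain ⟨S₁, h₁⟩ := mk X hX hXs
  obtain ⟨S₂, h₂⟩ := mk (planeA hF f a b c) (planeA_le hF a b c) (planeA_sq hc hF h)
  obtain ⟨a₂, b₂, c₂, hf₂, -, hm₂⟩ := cover_sylow hc hF S₂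
  have e₂ := (hm₂ _ h₂ (planeA_sq hc hF h)).2 (planeA_card hc hF h).ge
  obtain ⟨g, hgS⟩ := MulAction.exists_smul_eq ↥(Subgroup.centralizer ({d} : Set G)) S₁ S₂
  refine ⟨g, g.2, fun x => ?_⟩
  obtain ⟨Z, hZ⟩ : ∃ Z, X.map (MulAut.conj (g : G)).toMonoidHom = Z := ⟨_, rfl⟩
  have hZeq : Z = planeA hF f a b c := by
    rw [e₂]
    refine (hm₂ Z ?_ ?_).2 ?_
    · rw [← hZ]
      rintro _ ⟨y, hy, rfl⟩
      obtain ⟨z, hz, rfl⟩ := h₁ hy
      refine ⟨g * z * g⁻¹, ?_, rfl⟩
      rw [← hgS, Sylow.coe_subgroup_smul]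
      exact ⟨z, hz, rfl⟩
    · rw [← hZ]
      rintro _ ⟨y, hy, rfl⟩
      rw [← map_mul, hXs y hy, map_one]
    · rw [← hZ, ← Nat.card_congr (X.equivMapOfInjective _ (MulEquiv.injective _)).toEquiv, hcard]
  rw [← hZeq, ← hZ]
  constructor
  · rintro ⟨y, hy, rfl⟩
    simpa [mul_assoc] using hy
  · intro h
    exact ⟨_, h, by simp [mul_assoc]⟩

/-- Conjugates of `d` in the preimage of a plane group are conjugate under its normalizer. -/
theorem cover_transitive (hc : CoverData94 d f) (hF : Fintype.card F = 4) {a b c : Fin 6 → F}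
    (h : Frame3 a b c) {x y : G} (hx : x ∈ planeA hF f a b c) (hy : y ∈ planeA hF f a b c)
    (hdx : IsConj d x) (hdy : IsConj d y) :
    ∃ n ∈ Subgroup.normalizer (planeA hF f a b c : Set G), n * x * n⁻¹ = y := by
  obtain ⟨A, hA⟩ : ∃ A, planeA hF f a b c = A := ⟨_, rfl⟩
  have hsq := hA ▸ planeA_sq hc hF h
  have main : ∀ x ∈ A, IsConj d x → ∃ n ∈ Subgroup.normalizer (A : Set G), n * d * n⁻¹ = x := by
    intro x hx hdx
    obtain ⟨g, hg⟩ := isConj_iff.1 hdx
    obtain ⟨X, hX⟩ : ∃ X, A.map (MulAut.conj g⁻¹).toMonoidHom = X := ⟨_, rfl⟩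
    have hXC : X ≤ Subgroup.centralizer ({d} : Set G) := by
      rw [← hX]
      rintro _ ⟨a, ha, rfl⟩
      rw [Subgroup.mem_centralizer_singleton_iff]
      have hcomm : Commute a x := sq_one_comm94 (hsq a ha) (hsq x hx) (hsq _ (mul_mem ha hx))
      have := hcomm.map (MulAut.conj g⁻¹).toMonoidHom
      rw [show (MulAut.conj g⁻¹).toMonoidHom x = d by rw [← hg]; simp [mul_assoc]] at this
      exact this.eq
    obtain ⟨c', hcC, hiff⟩ := cover_max_conj hc hF h X hXC (by
      rw [← hX]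
      rintro _ ⟨a, ha, rfl⟩
      rw [← map_mul, hsq a ha, map_one]) (by
      rw [← hX, ← Nat.card_congr (A.equivMapOfInjective _ (MulEquiv.injective _)).toEquiv, ← hA,
        planeA_card hc hF h])
    rw [hA] at hiff
    refine ⟨g * c'⁻¹, Subgroup.mem_set_normalizer_iff.2 fun a => ?_, ?_⟩
    · show a ∈ A ↔ g * c'⁻¹ * a * (g * c'⁻¹)⁻¹ ∈ A
      rw [hiff, ← hX]
      constructor
      · rintro ⟨b, hb, hbe⟩
        rw [show g * c'⁻¹ * a * (g * c'⁻¹)⁻¹ = g * (c'⁻¹ * a * c') * g⁻¹ by simp [mul_assoc], ← hbe]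
        simpa [mul_assoc] using hb
      · intro h
        exact ⟨_, h, by simp [mul_assoc]⟩
    · have hcd : c'⁻¹ * d * c' = d := by
        rw [mul_assoc, ← (Subgroup.mem_centralizer_singleton_iff.1 hcC), inv_mul_cancel_left]
      rw [show g * c'⁻¹ * d * (g * c'⁻¹)⁻¹ = g * (c'⁻¹ * d * c') * g⁻¹ by simp [mul_assoc], hcd, hg]
  rw [hA] at hx hy ⊢
  obtain ⟨n, hn, e⟩ := main x hx hdx
  obtain ⟨m, hm', e'⟩ := main y hy hdy
  exact ⟨m * n⁻¹, mul_mem hm' (inv_mem hn), by rw [← e, ← e']; simp [mul_assoc]⟩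

/-- Every conjugate of `d` in the centralizer is, up to conjugation there, in the given preimage. -/
theorem cover_into (hc : CoverData94 d f) (hF : Fintype.card F = 4) {a b c : Fin 6 → F}
    (h : Frame3 a b c) {z : ↥(Subgroup.centralizer ({d} : Set G))} (hz : f z * f z = 1) :
    ∃ g : ↥(Subgroup.centralizer ({d} : Set G)), (g : G) * z * (g : G)⁻¹ ∈ planeA hF f a b c := by
  obtain ⟨l, -, hfr, hl⟩ := U6Inv53.involution_eq_prod hF hz
  obtain ⟨a', b', c', h', hW⟩ := exists_frame_over hF {v | v ∈ l} fun v hv u hu => hfr.orth v hv u hu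
  obtain ⟨g, hgC, hiff⟩ := cover_max_conj hc hF h (planeA hF f a' b' c') (planeA_le hF a' b' c')
    (planeA_sq hc hF h') (planeA_card hc hF h')
  refine ⟨⟨g, hgC⟩, (hiff _).2 ?_⟩
  refine mem_planeA.2 ⟨by simp [mul_assoc], ?_⟩
  rw [show (⟨g⁻¹ * (g * (z : G) * g⁻¹) * g, _⟩ : ↥(Subgroup.centralizer ({d} : Set G))) = z from
    Subtype.ext (by simp [mul_assoc]), hl]
  refine list_prod_mem fun u hu => ?_
  obtain ⟨v, hv, rfl⟩ := List.mem_map.1 hu
  exact tp_mem_planeGroup hF (hW v hv)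

end CfsgLib.ThreeTransp.U6Cover94
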