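import Mathlib
import Cfsg.Agent.ThreeTransp.U6CoverBase94
import Cfsg.Agent.ThreeTransp.U6Split94
import Cfsg.Agent.ThreeTransp.M22CoverCount94

/-!
In a double cover of `PSU(6, 2)` by an involution `d` exactly 22 conjugates of `d` lie in the
preimage of the group of a totally isotropic plane.
-/

set_option autoImplicit false

namespace CfsgLib.ThreeTransp.U6Cover94

open Cfsg PSU62 U6Plane94

universe v

variable {F : Type} [Field F] [Fintype F] {G : Type v} [Group G] [Finite G] {d : G}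
variable {f : ↥(Subgroup.centralizer ({d} : Set G)) →* PSU 6 F 2}

/-- The lifts outside the conjugates of `d` cannot form hyperplanes. -/
theorem no_hyperplane (hc : CoverData94 d f) (hF : Fintype.card F = 4) {a b c : Fin 6 → F}
    (h : Frame3 a b c)
    (hsplit : ∀ x ∈ planeA hF f a b c, IsConj d (x * d) ↔ ¬ IsConj d x)
    (hadd : ∀ x ∈ planeA hF f a b c, ∀ y ∈ planeA hF f a b c, ¬ IsConj d x → ¬ IsConj d y →
      ¬ IsConj d (x * y)) : False := by
  classical
  have every : ∀ a' b' c', Frame3 a' b' c' →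
      (∀ x ∈ planeA hF f a' b' c', IsConj d (x * d) ↔ ¬ IsConj d x) ∧
      ∀ x ∈ planeA hF f a' b' c', ∀ y ∈ planeA hF f a' b' c', ¬ IsConj d x → ¬ IsConj d y →
        ¬ IsConj d (x * y) := by
    intro a' b' c' h'
    obtain ⟨g, hgC, hiff⟩ := cover_max_conj hc hF h (planeA hF f a' b' c') (planeA_le hF a' b' c')
      (planeA_sq hc hF h') (planeA_card hc hF h')
    have hin : ∀ x ∈ planeA hF f a' b' c', g * x * g⁻¹ ∈ planeA hF f a b c := fun x hx =>
      (hiff _).2 (by simpa [mul_assoc] using hx)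
    have hcj : ∀ x : G, IsConj d (g * x * g⁻¹) ↔ IsConj d x := fun x =>
      ⟨fun h => h.trans (isConj_iff.2 ⟨g⁻¹, by simp [mul_assoc]⟩),
        fun h => h.trans (isConj_iff.2 ⟨g, rfl⟩)⟩
    refine ⟨fun x hx => ?_, fun x hx y hy h1 h2 => ?_⟩
    · have h := hsplit _ (hin x hx)
      rwa [show g * x * g⁻¹ * d = g * (x * d) * g⁻¹ by
        simp only [mul_assoc]
        rw [(Subgroup.mem_centralizer_singleton_iff.1 (inv_mem hgC) : g⁻¹ * d = d * g⁻¹)],
        hcj, hcj] at h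
    · rw [← hcj] at h1 h2 ⊢
      rw [show g * (x * y) * g⁻¹ = (g * x * g⁻¹) * (g * y * g⁻¹) by simp [mul_assoc]]
      exact hadd _ (hin x hx) _ (hin y hy) h1 h2
  obtain ⟨dd, hdd⟩ : ∃ dd : ↥(Subgroup.centralizer ({d} : Set G)), ⟨d, hc.self_mem⟩ = dd := ⟨_, rfl⟩
  obtain ⟨Ω, hΩ⟩ : ∃ Ω : Set ↥(Subgroup.centralizer ({d} : Set G)),
      ∀ z, z ∈ Ω ↔ IsConj d (z : G) := ⟨{z | IsConj d (z : G)}, fun _ => Iff.rfl⟩
  have hin : ∀ X : Set (PSU 6 F 2), U6Sylow94.Flat hF X → ∃ a' b' c', Frame3 a' b' c' ∧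
      ∀ z : ↥(Subgroup.centralizer ({d} : Set G)), f z ∈ X → (z : G) ∈ planeA hF f a' b' c' := by
    rintro X ⟨W, hW, hX⟩
    obtain ⟨a', b', c', h', hW'⟩ := exists_frame_over hF W hW
    refine ⟨a', b', c', h', fun z hz => mem_planeA.2 ⟨z.2, ?_⟩⟩
    have hle : Subgroup.closure (tp hF '' W) ≤ planeGroup hF a' b' c' :=
      Subgroup.closure_mono (Set.image_mono fun v hv => hW' v hv)
    exact hle (hX hz)
  refine U6Sylow94.u6_no_split hF f hc.surj (z := dd) (fun k => ?_) (fun g => hdd ▸ hc.central g)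
    hc.lift Ω (fun g x hx => (hΩ _).2 ?_) ((hΩ _).2 (hdd ▸ IsConj.refl d))
    (fun g hg => hc.not_conj_sq (g : G) ((hΩ _).1 hg)) ?_ ?_ (hc.perf.symm ▸ Subgroup.mem_top _)
  · rw [hc.ker, ← hdd]
    constructor
    · rintro (h | h)
      · exact Or.inl (Subtype.ext h)
      · exact Or.inr (Subtype.ext h)
    · rintro (rfl | rfl)
      · exact Or.inl rfl
      · exact Or.inr rfl
  · exact ((hΩ x).1 hx).trans (isConj_iff.2 ⟨(g : G), by simp⟩)
  · intro X hX x y hx hy hxΩ hyΩ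
    obtain ⟨a', b', c', h', hA⟩ := hin X hX
    rw [hΩ] at hxΩ hyΩ ⊢
    exact (every a' b' c' h').2 _ (hA x hx) _ (hA y hy) hxΩ hyΩ
  · intro X hX x hx hxΩ hxz
    obtain ⟨a', b', c', h', hA⟩ := hin X hX
    rw [hΩ] at hxΩ hxz
    rw [Subgroup.coe_mul, ← hdd] at hxz
    exact ((every a' b' c' h').1 _ (hA x hx)).1 hxz hxΩ

theorem cover_count (hc : CoverData94 d f) (hF : Fintype.card F = 4) {a b c : Fin 6 → F}
    (h : Frame3 a b c) : {x : G | x ∈ planeA hF f a b c ∧ IsConj d x}.ncard = 22 := by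
  classical
  haveI := Fintype.ofFinite (PSU 6 F 2)
  haveI := Fintype.ofFinite G
  haveI := Fintype.ofFinite ↥(Subgroup.centralizer ({d} : Set G))
  have hD := points_threeTransp hF
  have hn := points_noTwins hF
  obtain ⟨E, hE⟩ : ∃ E, planeGroup hF a b c = E := ⟨_, rfl⟩
  have hEab := hE ▸ planeGroup_abel hF h
  obtain ⟨B, hB⟩ : ∃ B, tp hF '' ((plane a b c : Set (Fin 6 → F)) \ {0}) = B := ⟨_, rfl⟩
  have hBpt : ∀ x ∈ B, ∃ v ∈ plane a b c, v ≠ 0 ∧ tp hF v = x ∧ x ∈ points hF := by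
    rw [← hB]
    rintro _ ⟨v, ⟨hv, hv0⟩, rfl⟩
    exact ⟨v, hv, hv0, rfl, v, plane_orth hF h hv hv, hv0, rfl⟩
  have hBD : ∀ x ∈ B, x ∈ points hF := fun x hx => by
    obtain ⟨v, -, -, -, hp⟩ := hBpt x hx; exact hp
  have hBE : ∀ x ∈ B, x ∈ E := fun x hx => by
    obtain ⟨v, hv, -, rfl, -⟩ := hBpt x hx
    exact hE ▸ tp_mem_planeGroup hF hv
  have hBcomm : ∀ x ∈ B, ∀ y ∈ B, Commute x y := fun x hx y hy =>
    (hEab x (hBE x hx)).2 y (hBE y hy)
  obtain ⟨A, hA⟩ : ∃ A, planeA hF f a b c = A := ⟨_, rfl⟩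
  rw [hA]
  have hAC : A ≤ Subgroup.centralizer ({d} : Set G) := hA ▸ planeA_le hF a b c
  have hAsq : ∀ x ∈ A, x * x = 1 := hA ▸ planeA_sq hc hF h
  have hAcard : Nat.card A = 2 ^ 10 := hA ▸ planeA_card hc hF h
  have hAmem : ∀ z : ↥(Subgroup.centralizer ({d} : Set G)), (z : G) ∈ A ↔ f z ∈ E := fun z => by
    rw [← hA, ← hE, mem_planeA]
    exact ⟨fun ⟨_, h⟩ => h, fun h => ⟨z.2, h⟩⟩
  obtain ⟨dd, hdd⟩ : ∃ dd : ↥(Subgroup.centralizer ({d} : Set G)), ⟨d, hc.self_mem⟩ = dd := ⟨_, rfl⟩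
  have hddv : (dd : G) = d := hdd ▸ rfl
  have hfdd : f dd = 1 := hdd ▸ hc.f_self
  have hlc : ∀ {x y : ↥(Subgroup.centralizer ({d} : Set G))}, f x = f y → y = x ∨ y = x * dd :=
    fun h => hdd ▸ hc.lift_cases h
  have hdA : d ∈ A := hddv ▸ (hAmem dd).2 (by rw [hfdd]; exact one_mem _)
  have hcomm : ∀ x ∈ A, ∀ y ∈ A, Commute x y := fun x hx y hy =>
    sq_one_comm94 (hAsq x hx) (hAsq y hy) (hAsq _ (mul_mem hx hy))
  have h1n : ¬ IsConj d (1 : G) := fun h => hc.ne (isConj_one_left.1 h)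
  have hconj : ∀ g x : G, IsConj d (g * x * g⁻¹) ↔ IsConj d x := fun g x =>
    ⟨fun h => h.trans (isConj_iff.2 ⟨g⁻¹, by simp [mul_assoc]⟩),
      fun h => h.trans (isConj_iff.2 ⟨g, rfl⟩)⟩
  -- the set of conjugates and its symmetries
  obtain ⟨O, hOdef⟩ : ∃ O : Set G, {x : G | x ∈ A ∧ IsConj d x} = O := ⟨_, rfl⟩
  rw [hOdef]
  have hO : ∀ x, x ∈ O ↔ x ∈ A ∧ IsConj d x := fun x => hOdef ▸ Iff.rfl
  have hdO : d ∈ O := (hO d).2 ⟨hdA, IsConj.refl d⟩
  have hOinv : ∀ n ∈ Subgroup.normalizer (A : Set G), ∀ x ∈ O, n * x * n⁻¹ ∈ O := by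
    intro n hn x hx
    rw [hO] at hx ⊢
    exact ⟨(Subgroup.mem_set_normalizer_iff.1 hn x).1 hx.1, (hconj n x).2 hx.2⟩
  have htr : ∀ x ∈ O, ∀ y ∈ O, ∃ n ∈ Subgroup.normalizer (A : Set G), n * x * n⁻¹ = y := by
    intro x hx y hy
    rw [hO] at hx hy
    obtain ⟨n, hn, e⟩ := cover_transitive hc hF h (hA.symm ▸ hx.1) (hA.symm ▸ hy.1) hx.2 hy.2
    exact ⟨n, hA ▸ hn, e⟩
  have hPcard : ∀ x ∈ O, {y | y ∈ O ∧ x * y ∈ O}.ncard = {y | y ∈ O ∧ d * y ∈ O}.ncard := by
    have le : ∀ x ∈ O, ∀ x' ∈ O,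
        {y | y ∈ O ∧ x * y ∈ O}.ncard ≤ {y | y ∈ O ∧ x' * y ∈ O}.ncard := by
      intro x hx x' hx'
      obtain ⟨n, hn', e⟩ := htr x hx x' hx'
      refine Set.ncard_le_ncard_of_injOn (fun y => n * y * n⁻¹) ?_
        (fun a _ b _ h => by simpa using h) (Set.toFinite _)
      rintro y ⟨hy, hxy⟩
      refine ⟨hOinv n hn' y hy, ?_⟩
      rw [← e, show n * x * n⁻¹ * (n * y * n⁻¹) = n * (x * y) * n⁻¹ by simp [mul_assoc]]
      exact hOinv n hn' _ hxy
    exact fun x hx => le_antisymm (le x hx d hdO) (le d hdO x hx)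
  -- counting lifts
  obtain ⟨φ, hφ⟩ : ∃ φ : PSU 6 F 2 → ℕ, ∀ e, φ e = coverFib94 d f e := ⟨_, fun _ => rfl⟩
  have hcnt : ∀ S : Finset (PSU 6 F 2), (∀ e ∈ S, e ∈ E) →
      {x | x ∈ O ∧ ∃ z : ↥(Subgroup.centralizer ({d} : Set G)), (z : G) = x ∧ f z ∈ S}.ncard =
        ∑ e ∈ S, φ e := by
    intro S hS
    rw [show {x | x ∈ O ∧ ∃ z : ↥(Subgroup.centralizer ({d} : Set G)), (z : G) = x ∧ f z ∈ S} =
      (fun z : ↥(Subgroup.centralizer ({d} : Set G)) => (z : G)) ''
        ((Finset.univ.filter fun z => f z ∈ S ∧ IsConj d (z : G) :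
          Finset ↥(Subgroup.centralizer ({d} : Set G))) : Set _) from ?_,
      Set.ncard_image_of_injective _ Subtype.val_injective, Set.ncard_coe_finset,
      Finset.card_eq_sum_card_fiberwise (f := fun z => f z) (t := S)
        (fun z hz => (Finset.mem_filter.1 hz).2.1)]
    · refine Finset.sum_congr rfl fun e he => ?_
      rw [hφ, coverFib94, ← Set.ncard_coe_finset]
      congr 1
      ext z
      simp only [Finset.coe_filter, Finset.mem_filter, Finset.mem_univ, true_and, Set.mem_setOf_eq]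
      exact ⟨fun h => ⟨h.2, h.1.2⟩, fun h => ⟨⟨h.1 ▸ he, h.2⟩, h.1⟩⟩
    · ext x
      simp only [Finset.coe_filter, Finset.mem_univ, true_and, Set.mem_setOf_eq, Set.mem_image]
      constructor
      · rintro ⟨hx, z, rfl, hz⟩
        exact ⟨z, ⟨hz, ((hO _).1 hx).2⟩, rfl⟩
      · rintro ⟨z, ⟨hz, hzc⟩, rfl⟩
        exact ⟨(hO _).2 ⟨(hAmem z).2 (hS _ hz), hzc⟩, z, rfl, hz⟩
  have hOcard : O.ncard = ∑ e ∈ Finset.univ.filter (· ∈ E), φ e := by
    rw [← hcnt _ fun e he => (Finset.mem_filter.1 he).2]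
    congr 1
    ext x
    refine ⟨fun hx => ⟨hx, ⟨x, hAC ((hO x).1 hx).1⟩, rfl, ?_⟩, fun h => h.1⟩
    exact Finset.mem_filter.2 ⟨Finset.mem_univ _, (hAmem _).1 ((hO x).1 hx).1⟩
  -- the classes in the group
  obtain ⟨Bf, hBf⟩ : ∃ Bf : Finset (PSU 6 F 2), Finset.univ.filter (· ∈ B) = Bf := ⟨_, rfl⟩
  have mBf : ∀ x, x ∈ Bf ↔ x ∈ B := fun x => by simp [← hBf]
  have cBf : Bf.card = 21 := by
    rw [← plane_points_ncard hF h, hB, ← Set.ncard_coe_finset]
    congr 1; ext x; simp [mBf]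
  obtain ⟨P2, hP2⟩ : ∃ P2 : Finset (PSU 6 F 2),
      (Bf.powersetCard 2).image (fun t => t.toList.prod) = P2 := ⟨_, rfl⟩
  have hpairfact : ∀ x ∈ B, ∀ y ∈ B, x ≠ y → IsFact (points hF) 2 (x * y) [x, y] :=
    fun x hx y hy hxy => ⟨by simpa using hxy, rfl, by simp [hBD x hx, hBD y hy],
      by simp [hBcomm x hx y hy, (hBcomm x hx y hy).symm], by simp⟩
  have hP2mem : ∀ e, e ∈ P2 ↔ ∃ x ∈ B, ∃ y ∈ B, x ≠ y ∧ x * y = e := by
    intro e
    rw [← hP2, Finset.mem_image]
    have key : ∀ x ∈ B, ∀ y ∈ B, x ≠ y → ({x, y} : Finset (PSU 6 F 2)).toList.prod = x * y := by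
      intro x hx y hy hxy
      have hperm : ({x, y} : Finset (PSU 6 F 2)).toList.Perm [x, y] := by
        have h := Finset.toList_insert (a := x) (s := {y}) (by simpa using hxy)
        rwa [Finset.toList_singleton] at h
      rw [hperm.prod_eq' ?_]
      · simp
      · refine List.pairwise_of_forall_mem_list fun u hu w hw => ?_
        simp only [Finset.mem_toList, Finset.mem_insert, Finset.mem_singleton] at hu hw
        refine hBcomm u ?_ w ?_ <;> [rcases hu with rfl | rfl; rcases hw with rfl | rfl] <;>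
          assumption
    constructor
    · rintro ⟨t, ht, rfl⟩
      obtain ⟨hts, htc⟩ := Finset.mem_powersetCard.1 ht
      obtain ⟨x, y, hxy, rfl⟩ := Finset.card_eq_two.1 htc
      have hx : x ∈ B := (mBf x).1 (hts (by simp))
      have hy : y ∈ B := (mBf y).1 (hts (by simp))
      exact ⟨x, hx, y, hy, hxy, (key x hx y hy hxy).symm⟩
    · rintro ⟨x, hx, y, hy, hxy, rfl⟩
      refine ⟨{x, y}, Finset.mem_powersetCard.2 ⟨?_, Finset.card_pair hxy⟩, key x hx y hy hxy⟩
      intro u hu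
      simp only [Finset.mem_insert, Finset.mem_singleton] at hu
      rcases hu with rfl | rfl
      · exact (mBf _).2 hx
      · exact (mBf _).2 hy
  have cP2 : P2.card = 210 := by
    rw [← hP2, Finset.card_image_of_injOn, Finset.card_powersetCard, cBf]
    · rfl
    intro s hs t ht h
    have fact : ∀ t ∈ Bf.powersetCard 2, IsFact (points hF) 2 t.toList.prod t.toList := by
      intro t ht
      obtain ⟨hts, htc⟩ := Finset.mem_powersetCard.1 ht
      exact ⟨Finset.nodup_toList _, by rw [Finset.length_toList, htc],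
        fun x hx => hBD x ((mBf x).1 (hts (Finset.mem_toList.1 hx))),
        fun x hx y hy => hBcomm _ ((mBf x).1 (hts (Finset.mem_toList.1 hx))) _
          ((mBf y).1 (hts (Finset.mem_toList.1 hy))), rfl⟩
    have h' : s.toList.prod = t.toList.prod := h
    ext x
    have := pair_unique hD hn (fact s hs) (h'.symm ▸ fact t ht) x
    rwa [Finset.mem_toList, Finset.mem_toList] at this
  have hBP : ∀ x ∈ B, ∀ y ∈ B, x ≠ y → x * y ∉ B ∧ x * y ≠ 1 := by
    intro x hx y hy hxy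
    refine ⟨fun h => no_rel₃ hD hn (hBD x hx) (hBD y hy) (hBD _ h) (hBcomm x hx y hy) hxy rfl,
      fun h => hxy ?_⟩
    rw [eq_inv_of_mul_eq_one_left h, tt_inv hD (hBD y hy)]
  obtain ⟨R, hR⟩ : ∃ R : Finset (PSU 6 F 2),
      (Finset.univ.filter (· ∈ E)) \ ({1} ∪ Bf ∪ P2) = R := ⟨_, rfl⟩
  have d1 : Disjoint ({1} : Finset (PSU 6 F 2)) Bf := by
    rw [Finset.disjoint_singleton_left, mBf]
    exact fun h => tt_ne_one hD (hBD _ h) rfl
  have d2 : Disjoint ({1} ∪ Bf) P2 := by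
    rw [Finset.disjoint_left]
    intro x hx hx2
    obtain ⟨u, hu, w, hw, huw, rfl⟩ := (hP2mem x).1 hx2
    rcases Finset.mem_union.1 hx with h | h
    · exact (hBP u hu w hw huw).2 (Finset.mem_singleton.1 h)
    · exact (hBP u hu w hw huw).1 ((mBf _).1 h)
  have hsubE : ({1} ∪ Bf ∪ P2 : Finset (PSU 6 F 2)) ⊆ Finset.univ.filter (· ∈ E) := by
    intro x hx
    refine Finset.mem_filter.2 ⟨Finset.mem_univ _, ?_⟩
    rcases Finset.mem_union.1 hx with h | h
    · rcases Finset.mem_union.1 h with h | h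
      · rw [Finset.mem_singleton.1 h]; exact one_mem _
      · exact hBE x ((mBf x).1 h)
    · obtain ⟨u, hu, w, hw, -, rfl⟩ := (hP2mem x).1 h
      exact mul_mem (hBE u hu) (hBE w hw)
  have cR : R.card = 280 := by
    rw [← hR, Finset.card_sdiff_of_subset hsubE, Finset.card_union_of_disjoint d2,
      Finset.card_union_of_disjoint d1, Finset.card_singleton, cBf, cP2,
      show (Finset.univ.filter (· ∈ E)).card = 512 from ?_]
    rw [show (512 : ℕ) = 2 ^ 9 by norm_num, ← (U6Thompson94.u6_thompson hF).2.1 a b c h, hE,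
      Nat.card_eq_fintype_card, Fintype.card_subtype]
  have inB : ∀ v ∈ plane a b c, v ≠ 0 → tp hF v ∈ B := fun v hv hv0 => hB ▸ ⟨v, ⟨hv, hv0⟩, rfl⟩
  have hRframe : ∀ e ∈ R, ∃ x y z, Frame3 x y z ∧ e = tp hF x * tp hF y * tp hF z := by
    intro e he
    rw [← hR, Finset.mem_sdiff, Finset.mem_filter] at he
    obtain ⟨⟨-, heE⟩, hen⟩ := he
    simp only [Finset.mem_union, Finset.mem_singleton, not_or, mBf, hP2mem] at hen
    rcases planeGroup_element hF h (hE.symm ▸ heE) hen.1.1 with ⟨x, hx, hx0, rfl⟩ |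
      ⟨x, hx, y, hy, hx0, hyx, rfl⟩ | ⟨x, -, y, -, z, -, hfr, rfl⟩
    · exact absurd (inB x hx hx0) hen.1.2
    · have hy0 : y ≠ 0 := fun e => hyx (e.symm ▸ Submodule.zero_mem _)
      refine absurd ⟨_, inB x hx hx0, _, inB y hy hy0, fun e => ?_, rfl⟩ hen.2
      obtain ⟨k, -, hk⟩ := tp_inj hF (plane_orth hF h hx hx) (plane_orth hF h hy hy) hx0 hy0 e
      exact hyx (hk ▸ Submodule.smul_mem _ _ (Submodule.mem_span_singleton_self x))
    · exact ⟨x, y, z, hfr, rfl⟩
  -- the three constants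
  have hφconj : ∀ g e, φ (g * e * g⁻¹) = φ e := fun g e => by rw [hφ, hφ, hc.fib_conj]
  obtain ⟨r₀, hr₀⟩ : R.Nonempty := Finset.card_pos.1 (by rw [cR]; norm_num)
  obtain ⟨k, hk⟩ : ∃ k, φ (tp hF a) = k := ⟨_, rfl⟩
  obtain ⟨l, hl⟩ : ∃ l, φ (tp hF a * tp hF b) = l := ⟨_, rfl⟩
  obtain ⟨m, hmC⟩ : ∃ m, φ (tp hF a * tp hF b * tp hF c) = m := ⟨_, rfl⟩
  have hφB : ∀ x ∈ B, φ x = k := by
    intro x hx
    obtain ⟨v, hv, hv0, rfl, -⟩ := hBpt x hx
    obtain ⟨y, hy1, hy2, hy3⟩ := extend_one hF (plane_orth hF h hv hv) hv0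
    obtain ⟨z, hz⟩ := extend_two hF (plane_orth hF h hv hv) hy1 hy2 hv0 hy3
    obtain ⟨g, ga, -, -, -⟩ := frame_conj hF h hz
    rw [← hk, ← ga, hφconj]
  have hφP : ∀ e ∈ P2, φ e = l := by
    intro e he
    obtain ⟨x, hx, y, hy, hxy, rfl⟩ := (hP2mem e).1 he
    obtain ⟨v, hv, hv0, rfl, -⟩ := hBpt x hx
    obtain ⟨w, hw, hw0, rfl, -⟩ := hBpt y hy
    have hwv : w ∉ Submodule.span F ({v} : Set (Fin 6 → F)) := not_mem_one fun t ht => by
      refine hxy ?_
      rw [← ht, tp_scale hF (plane_orth hF h hv hv) fun h0 => hw0 (by rw [← ht, h0, zero_smul])]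
    obtain ⟨z, hz⟩ := extend_two hF (plane_orth hF h hv hv) (plane_orth hF h hw hw)
      (plane_orth hF h hw hv) hv0 hwv
    obtain ⟨g, ga, gb, -, -⟩ := frame_conj hF h hz
    rw [← hl, ← ga, ← gb, show g * tp hF a * g⁻¹ * (g * tp hF b * g⁻¹) =
      g * (tp hF a * tp hF b) * g⁻¹ by simp [mul_assoc], hφconj]
  have hφR : ∀ e ∈ R, φ e = m := by
    intro e he
    obtain ⟨x, y, z, hfr, rfl⟩ := hRframe e he
    obtain ⟨g, ga, gb, gc, -⟩ := frame_conj hF h hfr
    rw [← hmC, ← ga, ← gb, ← gc, show g * tp hF a * g⁻¹ * (g * tp hF b * g⁻¹) * (g * tp hF c * g⁻¹) =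
      g * (tp hF a * tp hF b * tp hF c) * g⁻¹ by simp [mul_assoc], hφconj]
  have hφ1 : φ 1 = 1 := (hφ 1).trans hc.fib_one
  have htotal : O.ncard = 1 + 21 * k + 210 * l + 280 * m := by
    rw [hOcard, ← Finset.sum_sdiff hsubE, hR, Finset.sum_union d2, Finset.sum_union d1,
      Finset.sum_singleton, hφ1,
      Finset.sum_congr rfl (fun e he => hφB e ((mBf e).1 he)),
      Finset.sum_congr rfl hφP, Finset.sum_congr rfl hφR,
      Finset.sum_const, Finset.sum_const, Finset.sum_const, cBf, cP2, cR]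
    simp only [smul_eq_mul]
    omega
  have hkle : k ≤ 2 := hk ▸ (hφ (tp hF a)).symm ▸ hc.fib_le _
  have hmle : m ≤ 2 := hmC ▸ (hφ (tp hF a * tp hF b * tp hF c)).symm ▸ hc.fib_le _
  have hlle : l ≤ 1 := by
    rw [← hl, hφ]
    -- the product of two orthogonal transvections is conjugate to a square
    obtain ⟨y, g, hyg⟩ : ∃ y g : PSU 6 F 2, y * y = g * (tp hF a * tp hF b) * g⁻¹ := by
      have hb0 : b ≠ 0 := fun e => h.b0 (e.symm ▸ Submodule.zero_mem _)
      have hab : a ∉ Submodule.span F ({b} : Set (Fin 6 → F)) := not_mem_one fun t ht =>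
        h.b0 (Submodule.mem_span_singleton.2 ⟨t⁻¹, by
          rw [← ht, smul_smul, inv_mul_cancel₀ (fun h0 => h.a0 (by rw [← ht, h0, zero_smul])), one_smul]⟩)
      obtain ⟨z1, p1, q1⟩ := exists_dual_sub hF hab
      obtain ⟨z2, p2, q2⟩ := exists_dual_sub hF h.b0
      have e1 : hm z1 b = 0 := p1 b (Submodule.mem_span_singleton_self b)
      have e2 : hm z2 a = 0 := p2 a (Submodule.mem_span_singleton_self a)
      have sa : hm (z1 + z2) a = 1 := by rw [hm_addL, q1, e2, add_zero]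
      have sb : hm (z1 + z2) b = 1 := by rw [hm_addL, e1, q2, zero_add]
      obtain ⟨t, ht⟩ := U62.exists_isotropify hF h.aa
        (show hm (z1 + z2) a ≠ 0 by rw [sa]; exact one_ne_zero)
      have ta : hm (z1 + z2 + t • a) a = 1 := by
        rw [hm_addL, hm_smulL, sa, h.aa, mul_zero, add_zero]
      have tb : hm (z1 + z2 + t • a) b = 1 := by
        rw [hm_addL, hm_smulL, sb, hm_flip hF h.ba, mul_zero, add_zero]
      have hz0 : z1 + z2 + t • a ≠ 0 := fun e => by rw [e, hm_zeroL] at ta; exact zero_ne_one ta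
      obtain ⟨u, hu⟩ : ∃ u, tp hF (z1 + z2 + t • a) = u := ⟨_, rfl⟩
      have huD : u ∈ points hF := ⟨_, ht, hz0, hu⟩
      have haD : tp hF a ∈ points hF := ⟨a, h.aa, h.a0, rfl⟩
      have hbD : tp hF b ∈ points hF := ⟨b, h.bb, hb0, rfl⟩
      have hua : ¬ Commute u (tp hF a) := fun hcm => by
        have := (tp_commute_iff hF h.aa ht h.a0 hz0).1 (hu ▸ hcm.symm)
        rw [ta] at this; exact one_ne_zero this
      have hub : ¬ Commute u (tp hF b) := fun hcm => by
        have := (tp_commute_iff hF h.bb ht hb0 hz0).1 (hu ▸ hcm.symm)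
        rw [tb] at this; exact one_ne_zero this
      have hcab : Commute (tp hF a) (tp hF b) := (tp_commute_iff hF h.aa h.bb h.a0 hb0).2 h.ba
      refine ⟨tp hF a * u * tp hF b, u, ?_⟩
      have e1 : u * tp hF a * u = tp hF a * u * tp hF a := tt_braid hD huD haD hua
      have e2 : tp hF b * u * tp hF b = u * tp hF b * u := (tt_braid hD huD hbD hub).symm
      rw [tt_inv hD huD]
      calc tp hF a * u * tp hF b * (tp hF a * u * tp hF b)
          = tp hF a * u * (tp hF b * tp hF a) * (u * tp hF b) := by simp only [mul_assoc]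
        _ = (tp hF a * u * tp hF a) * (tp hF b * u * tp hF b) := by
            rw [← hcab.eq]; simp only [mul_assoc]
        _ = (u * tp hF a * u) * (u * tp hF b * u) := by rw [e1, e2]
        _ = u * (tp hF a * tp hF b) * u := by
            simp only [mul_assoc]
            rw [tt_cancel_left hD huD]
    obtain ⟨y', hy'⟩ := hc.surj y
    rw [← hc.fib_conj _ g, ← hyg, ← hy', ← map_mul]
    refine (Set.ncard_le_ncard (t := {y' * y' * dd}) (fun z hz => ?_) (Set.toFinite _)).trans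
      (le_of_eq (Set.ncard_singleton _))
    rcases hlc hz.1.symm with h | h
    · have h2 := hz.2
      rw [h, Subgroup.coe_mul] at h2
      exact absurd h2 (hc.not_conj_sq _)
    · rw [Set.mem_singleton_iff]; exact h
  -- lifts in `O`
  have hzO : ∀ z : ↥(Subgroup.centralizer ({d} : Set G)), f z ∈ E →
      ((z : G) ∈ O ↔ IsConj d (z : G)) := fun z hz => by
    rw [hO, hAmem]; exact ⟨fun h => h.2, fun h => ⟨hz, h⟩⟩
  have hdz : ∀ z : ↥(Subgroup.centralizer ({d} : Set G)),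
      ((z * dd : ↥(Subgroup.centralizer ({d} : Set G))) : G) = (z : G) * d :=
    fun z => by rw [Subgroup.coe_mul, hddv]
  have hone : ∀ z : ↥(Subgroup.centralizer ({d} : Set G)), f z ∈ E → φ (f z) = 1 →
      ((z : G) * d ∈ O ↔ (z : G) ∉ O) := by
    intro z hz h
    rw [← hdz, hzO _ (by rw [map_mul, hfdd, mul_one]; exact hz), hzO _ hz, hdz]
    exact hc.iff_of_one94 ((hφ _).symm.trans h)
  have hzero : ∀ z : ↥(Subgroup.centralizer ({d} : Set G)), φ (f z) = 0 → (z : G) ∉ O := fun z hz h =>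
    hc.not_of_zero94 ((hφ _).symm.trans hz) ((hO _).1 h).2
  have hφcases : ∀ e ∈ E, e = 1 ∨ φ e = k ∨ φ e = l ∨ e ∈ R := by
    intro e he
    by_cases h : e ∈ ({1} ∪ Bf ∪ P2 : Finset (PSU 6 F 2))
    · rcases Finset.mem_union.1 h with h | h
      · rcases Finset.mem_union.1 h with h | h
        · exact Or.inl (Finset.mem_singleton.1 h)
        · exact Or.inr (Or.inl (hφB e ((mBf e).1 h)))
      · exact Or.inr (Or.inr (Or.inl (hφP e h)))
    · exact Or.inr (Or.inr (Or.inr (hR ▸ Finset.mem_sdiff.2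
        ⟨Finset.mem_filter.2 ⟨Finset.mem_univ _, he⟩, h⟩)))
  have hgeO : 2 ≤ O.ncard := by
    obtain ⟨g, hgC, hgd⟩ := hc.nwc
    obtain ⟨c', hcA⟩ := cover_into hc hF h (z := ⟨g * d * g⁻¹, hgC⟩) (by
      rw [← map_mul, show (⟨g * d * g⁻¹, hgC⟩ : ↥(Subgroup.centralizer ({d} : Set G))) *
        ⟨g * d * g⁻¹, hgC⟩ = 1 from Subtype.ext (by
          show g * d * g⁻¹ * (g * d * g⁻¹) = 1
          rw [show g * d * g⁻¹ * (g * d * g⁻¹) = g * (d * d) * g⁻¹ by simp [mul_assoc], hc.sq]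
          simp), map_one])
    have hne' : (c' : G) * (g * d * g⁻¹) * (c' : G)⁻¹ ≠ d := fun h => hgd (by
      have hcd : (c' : G)⁻¹ * d * c' = d := by
        rw [mul_assoc, ← (Subgroup.mem_centralizer_singleton_iff.1 c'.2), inv_mul_cancel_left]
      calc g * d * g⁻¹ = (c' : G)⁻¹ * ((c' : G) * (g * d * g⁻¹) * (c' : G)⁻¹) * c' := by
            simp [mul_assoc]
        _ = d := by rw [h, hcd])
    exact (Set.one_lt_ncard (Set.toFinite O)).2 ⟨_, (hO _).2 ⟨hA ▸ hcA,
      (hconj _ _).2 (isConj_iff.2 ⟨g, rfl⟩)⟩, d, hdO, hne'⟩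
  -- the finite orbit in `A`
  obtain ⟨O', hO'⟩ : ∃ O' : Finset ↥A, Finset.univ.filter (fun x : ↥A => (x : G) ∈ O) = O' := ⟨_, rfl⟩
  have mO' : ∀ x, x ∈ O' ↔ (x : G) ∈ O := fun x => by simp [← hO']
  have cO' : O'.card = O.ncard := by
    rw [← Set.ncard_coe_finset, ← Set.ncard_image_of_injective _ Subtype.val_injective]
    congr 1
    ext x
    simp only [Set.mem_image, Finset.mem_coe, mO']
    exact ⟨fun ⟨y, hy, e⟩ => e ▸ hy, fun hx => ⟨⟨x, ((hO x).1 hx).1⟩, hx, rfl⟩⟩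
  have hO'ne : O'.Nonempty := ⟨⟨d, hdA⟩, (mO' _).2 hdO⟩
  have hO'inv : ∀ n ∈ Subgroup.normalizer (A : Set G), ∀ x ∈ O', ∀ y : ↥A,
      n * (x : G) * n⁻¹ = y → y ∈ O' := fun n hn' x hx y e =>
    (mO' y).2 (e ▸ hOinv n hn' x ((mO' x).1 hx))
  have hO'tr : ∀ x ∈ O', ∀ y ∈ O', ∃ n ∈ Subgroup.normalizer (A : Set G), n * (x : G) * n⁻¹ = y :=
    fun x hx y hy => htr x ((mO' x).1 hx) y ((mO' y).1 hy)
  have hAsq' : ∀ x : ↥A, x * x = 1 := fun x => Subtype.ext (hAsq x x.2)
  have kill : ∀ q : ℕ, q.Prime → (∀ j < 10, 2 ^ 10 % q ≠ 2 ^ j % q) → q ∣ O.ncard → False :=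
    fun q hq hbad hdvd => Cover94.orbit_prime_bound A hAsq' hAcard O' hO'ne hO'inv hO'tr hq
      (cO'.symm ▸ hdvd) hbad
  -- many partners
  have hP560 : k ≤ 1 → l ≤ 1 → m = 2 → ∀ x ∈ O, 560 ≤ {y | y ∈ O ∧ x * y ∈ O}.ncard := by
    intro hk1 hl1 hm2 x hx
    rw [hPcard x hx]
    have hsub : {y | y ∈ O ∧ ∃ z : ↥(Subgroup.centralizer ({d} : Set G)), (z : G) = y ∧ f z ∈ R} ⊆
        {y | y ∈ O ∧ d * y ∈ O} := by
      rintro y ⟨hy, z, rfl, hz⟩
      refine ⟨hy, ?_⟩
      have hzE : f z ∈ E := (hAmem z).1 ((hO _).1 hy).1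
      have h2 : coverFib94 d f (f z) = 2 := by rw [← hφ, hφR _ hz, hm2]
      rw [(hcomm d hdA _ ((hO _).1 hy).1).eq, ← hdz,
        hzO _ (by rw [map_mul, hfdd, mul_one]; exact hzE), hdz]
      exact (hc.conj_of_two94 h2).2
    refine le_trans ?_ (Set.ncard_le_ncard hsub (Set.toFinite _))
    rw [hcnt R (fun e he => (Finset.mem_filter.1 (Finset.mem_sdiff.1 (hR.symm ▸ he)).1).2),
      Finset.sum_congr rfl hφR, Finset.sum_const, cR, hm2]
    rfl
  have hnot1 : ∀ x, x ∈ A → x * x ∉ O := fun x hx h => h1n (hAsq x hx ▸ ((hO _).1 h).2)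
  have h1O : (1 : G) ∉ O := fun h => h1n ((hO _).1 h).2
  -- 561
  have case561 : k = 0 → l = 0 → m = 2 → False := by
    intro hk0 hl0 hm2
    have hcl : ∀ x ∈ O, ∀ y ∈ O, x ≠ y → x * y ∈ O := by
      intro x hx y hy hxy
      have hsub : {z | z ∈ O ∧ x * z ∈ O} ⊆ O \ {x} := fun z hz => ⟨hz.1, fun e => by
        rw [Set.mem_singleton_iff.1 e] at hz
        exact hnot1 x ((hO x).1 hx).1 hz.2⟩
      have hcard : (O \ {x}).ncard = 560 := by
        rw [Set.ncard_sdiff_singleton_of_mem hx, htotal, hk0, hl0, hm2]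
      have heq := Set.eq_of_subset_of_ncard_le hsub
        (by rw [hcard]; exact hP560 (by omega) (by omega) hm2 x hx) (Set.toFinite _)
      have : y ∈ {z | z ∈ O ∧ x * z ∈ O} := by rw [heq]; exact ⟨hy, Ne.symm hxy⟩
      exact this.2
    obtain ⟨H, hH⟩ : ∃ H : Subgroup G, ∀ x, x ∈ H ↔ x = 1 ∨ x ∈ O :=
      ⟨{ carrier := {x | x = 1 ∨ x ∈ O}
         one_mem' := Or.inl rfl
         mul_mem' := by
           rintro x y (rfl | hx) (rfl | hy)
           · exact Or.inl (one_mul 1)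
           · exact Or.inr (by rwa [one_mul])
           · exact Or.inr (by rwa [mul_one])
           · by_cases e : x = y
             · exact Or.inl (e ▸ hAsq x ((hO x).1 hx).1)
             · exact Or.inr (hcl x hx y hy e)
         inv_mem' := by
           rintro x (rfl | hx)
           · exact Or.inl inv_one
           · exact Or.inr (by rwa [inv_eq_of_mul_eq_one_right (hAsq x ((hO x).1 hx).1)]) }, fun _ => Iff.rfl⟩
    have hle : H ≤ A := fun x hx => by
      rcases (hH x).1 hx with rfl | hx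
      · exact one_mem A
      · exact ((hO x).1 hx).1
    have hcH : Nat.card H = 562 := by
      rw [← SetLike.coe_sort_coe, Nat.card_coe_set_eq,
        show ((H : Set G)) = insert 1 O by ext x; simp [hH],
        Set.ncard_insert_of_notMem h1O (Set.toFinite _), htotal, hk0, hl0, hm2]
    have := Subgroup.card_dvd_of_le hle
    rw [hcH, hAcard] at this
    norm_num at this
  -- 792
  have case792 : k = 1 → l = 1 → m = 2 → False := by
    intro hk1 hl1 hm2
    have hn792 : O.ncard = 792 := by rw [htotal, hk1, hl1, hm2]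
    have hOA : O ⊆ (A : Set G) := fun y hy => ((hO y).1 hy).1
    have hAn : (A : Set G).ncard = 1024 := by
      rw [← Nat.card_coe_set_eq]; exact hAcard.trans (by norm_num)
    have hout : ∀ x ∈ O, ∀ n ∈ A, n ∉ O → x * n ∈ O := by
      intro x hx n hn hnO
      have hxA := ((hO x).1 hx).1
      have himg : ((fun y => x * y) '' O).ncard = O.ncard :=
        Set.ncard_image_of_injective _ (mul_right_injective x)
      have hint : O ∩ (fun y => x * y) '' O = {y | y ∈ O ∧ x * y ∈ O} := by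
        ext y
        constructor
        · rintro ⟨hy, z, hz, rfl⟩
          exact ⟨hy, by rwa [← mul_assoc, hAsq x hxA, one_mul]⟩
        · rintro ⟨hy, hxy⟩
          exact ⟨hy, x * y, hxy, show x * (x * y) = y by rw [← mul_assoc, hAsq x hxA, one_mul]⟩
      have hsubA : O ∪ (fun y => x * y) '' O ⊆ (A : Set G) := by
        rintro y (hy | ⟨z, hz, rfl⟩)
        · exact hOA hy
        · exact mul_mem hxA (hOA hz)
      have h1 := Set.ncard_union_add_ncard_inter O ((fun y => x * y) '' O)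
        (Set.toFinite _) (Set.toFinite _)
      rw [hint, himg, hn792] at h1
      have h2 : {y | y ∈ O ∧ x * y ∈ O}.ncard = 560 := by
        refine le_antisymm ?_ (hP560 (by omega) (by omega) hm2 x hx)
        rw [hPcard x hx]
        have hsub : {y | y ∈ O ∧ d * y ∈ O} ⊆
            {y | y ∈ O ∧ ∃ z : ↥(Subgroup.centralizer ({d} : Set G)), (z : G) = y ∧ f z ∈ R} := by
          rintro y ⟨hy, hdy⟩
          obtain ⟨z, rfl⟩ : ∃ z : ↥(Subgroup.centralizer ({d} : Set G)), (z : G) = y :=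
            ⟨⟨y, hAC (hOA hy)⟩, rfl⟩
          refine ⟨hy, z, rfl, ?_⟩
          have hzE := (hAmem z).1 (hOA hy)
          have hyd : (z : G) * d ∈ O := by rwa [(hcomm _ (hOA hy) d hdA).eq]
          have hne1 : φ (f z) ≠ 1 := fun h => (hone z hzE h).1 hyd hy
          rcases hφcases _ hzE with h | h | h | h
          · exact absurd (h ▸ hφ1) hne1
          · exact absurd (h.trans hk1) hne1
          · exact absurd (h.trans hl1) hne1
          · exact h
        refine (Set.ncard_le_ncard hsub (Set.toFinite _)).trans ?_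
        rw [hcnt R (fun e he => (Finset.mem_filter.1 (Finset.mem_sdiff.1 (hR.symm ▸ he)).1).2),
          Finset.sum_congr rfl hφR, Finset.sum_const, cR, hm2]
        rfl
      have heq := Set.eq_of_subset_of_ncard_le hsubA (by rw [hAn]; omega) (Set.toFinite _)
      have : n ∈ O ∪ (fun y => x * y) '' O := by rw [heq]; exact hn
      rcases this with h | ⟨z, hz, rfl⟩
      · exact absurd h hnO
      · rwa [← mul_assoc, hAsq x hxA, one_mul]
    obtain ⟨H, hH⟩ : ∃ H : Subgroup G, ∀ x, x ∈ H ↔ x ∈ A ∧ x ∉ O :=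
      ⟨{ carrier := {x | x ∈ A ∧ x ∉ O}
         one_mem' := ⟨one_mem A, h1O⟩
         mul_mem' := by
           rintro x y ⟨hx, hxO⟩ ⟨hy, hyO⟩
           refine ⟨mul_mem hx hy, fun h => hyO ?_⟩
           have := hout _ h x hx hxO
           rwa [(hcomm x hx y hy).eq, mul_assoc, hAsq x hx, mul_one] at this
         inv_mem' := fun {x} hx => by
           rw [inv_eq_of_mul_eq_one_right (hAsq x hx.1)]; exact hx }, fun _ => Iff.rfl⟩
    have hcH : Nat.card H = 232 := by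
      rw [← SetLike.coe_sort_coe, Nat.card_coe_set_eq,
        show ((H : Set G)) = (A : Set G) \ O by ext x; simp [hH],
        Set.ncard_sdiff hOA (Set.toFinite _), hAn, hn792]
    have := Subgroup.card_dvd_of_le (show H ≤ A from fun x hx => ((hH x).1 hx).1)
    rw [hcH, hAcard] at this
    norm_num at this
  -- 512
  have case512 : k = 1 → l = 1 → m = 1 → False := by
    intro hk1 hl1 hm1
    have hall : ∀ z : ↥(Subgroup.centralizer ({d} : Set G)), f z ∈ E → φ (f z) = 1 := by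
      intro z hz
      rcases hφcases _ hz with h | h | h | h
      · rw [h, hφ1]
      · rw [h, hk1]
      · rw [h, hl1]
      · rw [hφR _ h, hm1]
    have hsp : ∀ x ∈ A, x * d ∈ O ↔ x ∉ O := fun x hx =>
      hone ⟨x, hAC hx⟩ ((hAmem _).1 hx) (hall _ ((hAmem _).1 hx))
    have hprod : ∀ x ∈ O, ∀ y ∈ O, x * y ∉ O := by
      intro x hx y hy hxy
      obtain ⟨n, hn', e⟩ := htr x hx d hdO
      have h1 := hOinv n hn' y hy
      have h2 := hOinv n hn' _ hxy
      rw [show n * (x * y) * n⁻¹ = n * x * n⁻¹ * (n * y * n⁻¹) by simp [mul_assoc], e,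
        (hcomm d hdA _ ((hO _).1 h1).1).eq] at h2
      exact (hsp _ ((hO _).1 h1).1).1 h2 h1
    have hiff : ∀ x ∈ A, IsConj d x ↔ x ∈ O := fun x hx => by
      rw [hO]; exact ⟨fun h => ⟨hx, h⟩, fun h => h.2⟩
    refine no_hyperplane hc hF h (fun x hx => ?_) (fun x hx y hy h1 h2 h3 => ?_)
    · rw [hA] at hx
      rw [hiff _ (mul_mem hx hdA), hiff _ hx]
      exact hsp x hx
    · rw [hA] at hx hy
      rw [hiff _ hx] at h1
      rw [hiff _ hy] at h2
      rw [hiff _ (mul_mem hx hy)] at h3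
      refine hprod _ ((hsp x hx).2 h1) _ ((hsp y hy).2 h2) ?_
      rwa [show x * d * (y * d) = x * y from by
        rw [mul_assoc x d, (hcomm d hdA _ (mul_mem hy hdA)).eq, mul_assoc y, hc.sq, mul_one]]
  -- conclusion
  rcases (show k = 0 ∨ k = 1 ∨ k = 2 by omega) with rfl | rfl | rfl <;>
    rcases (show l = 0 ∨ l = 1 by omega) with rfl | rfl <;>
      rcases (show m = 0 ∨ m = 1 ∨ m = 2 by omega) with rfl | rfl | rfl
  · omega
  · exact (kill 281 (by norm_num) (by decide) (htotal ▸ (by norm_num))).elim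
  · exact (case561 rfl rfl rfl).elim
  · exact (kill 211 (by norm_num) (by decide) (htotal ▸ (by norm_num))).elim
  · exact (kill 491 (by norm_num) (by decide) (htotal ▸ (by norm_num))).elim
  · exact (kill 257 (by norm_num) (by decide) (htotal ▸ (by norm_num))).elim
  · omega
  · exact (kill 151 (by norm_num) (by decide) (htotal ▸ (by norm_num))).elim
  · exact (kill 97 (by norm_num) (by decide) (htotal ▸ (by norm_num))).elim
  · exact (kill 29 (by norm_num) (by decide) (htotal ▸ (by norm_num))).elim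
  · exact (case512 rfl rfl rfl).elim
  · exact (case792 rfl rfl rfl).elim
  · exact (kill 43 (by norm_num) (by decide) (htotal ▸ (by norm_num))).elim
  · exact (kill 19 (by norm_num) (by decide) (htotal ▸ (by norm_num))).elim
  · exact (kill 67 (by norm_num) (by decide) (htotal ▸ (by norm_num))).elim
  · exact (kill 23 (by norm_num) (by decide) (htotal ▸ (by norm_num))).elim
  · exact (kill 13 (by norm_num) (by decide) (htotal ▸ (by norm_num))).elim
  · exact (kill 271 (by norm_num) (by decide) (htotal ▸ (by norm_num))).elim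

end CfsgLib.ThreeTransp.U6Cover94
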