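import Mathlib
import Cfsg.Agent.ThreeTransp.M24Triple25
import Cfsg.Agent.ThreeTransp.M24Layer
import Cfsg.Agent.ThreeTransp.M22Simple

/-!
Type M(24): the centralizer in the derived subgroup of the product of two commuting members.
-/

set_option autoImplicit false

namespace CfsgLib.ThreeTransp

open Cfsg
open scoped commutatorElement

universe u

variable {G : Type u} [Group G] {D : Set G}

section m24

variable [Finite G] (hG : IsThreeTranspositionGroup D) (hp : IsPrimitiveUnderConj D)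
  (h24 : IsOfTypeM24 G D)
include hG hp h24

variable {a b : G} (ha : a ∈ D) (hb : b ∈ nbr D a)
include ha hb

theorem m24_pair_mem_closure (φ : G →* Multiplicative (ZMod 2)) (hφ : ∀ d ∈ D, φ d ≠ 1) :
    a ∈ Subgroup.closure (nbr D a ∩ nbr D b) ∧ b ∈ Subgroup.closure (nbr D a ∩ nbr D b) := by
  obtain ⟨hnc, -⟩ := m24_bar hG hp h24 ha
  obtain ⟨c, hca, hcb⟩ : (nbr D a ∩ nbr D b).Nonempty := by
    refine Set.nonempty_of_ncard_ne_zero ?_
    rw [bar_card_comm hG hnc (m24_levels hG hp h24 ha) hb]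
    norm_num
  obtain ⟨h1, h2, -⟩ := m24_triple_mem_closure hG hp h24 ha hb hca hcb φ hφ
  exact ⟨Subgroup.closure_mono Set.inter_subset_left h1,
    Subgroup.closure_mono Set.inter_subset_left h2⟩

theorem m24_centralizer_pair (φ : G →* Multiplicative (ZMod 2)) (hφ : ∀ d ∈ D, φ d ≠ 1) :
    Subgroup.centralizer ({a, b} : Set G) = Subgroup.closure (nbr D a ∩ nbr D b) := by
  classical
  obtain ⟨hnc, hT, -, h23⟩ := m24_bar hG hp h24 ha
  have hp23 := m24_bar_prim hG hp h24 ha
  refine le_antisymm (fun g hg => ?_) ?_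
  · rw [Subgroup.mem_centralizer_iff] at hg
    have hga : g ∈ Subgroup.closure (nbr D a) := by
      rw [← (m24_level hG hp h24).cent a ha, Subgroup.mem_centralizer_iff]
      rintro _ rfl; exact hg _ (Set.mem_insert _ _)
    have hmk : (QuotientGroup.mk ⟨g, hga⟩ :
        ↥(Subgroup.closure (nbr D a)) ⧸ Subgroup.center ↥(Subgroup.closure (nbr D a))) ∈
          Subgroup.closure (nbr (nbrBar D a) (barPt hb)) := by
      rw [← (m23_level hT hp23 h23).cent _ (barPt_mem hb), Subgroup.mem_centralizer_singleton_iff,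
        barPt, ← QuotientGroup.mk_mul, ← QuotientGroup.mk_mul]
      exact congrArg _ (Subtype.ext (hg b (by simp)).symm)
    rw [nbr_barPt_eq hG hnc hb, barOf, ← QuotientGroup.coe_mk',
      ← MonoidHom.map_closure, Subgroup.mem_map] at hmk
    obtain ⟨k, hk, hkg⟩ := hmk
    have hkS : (k : G) ∈ Subgroup.closure (nbr D a ∩ nbr D b) := by
      have := Subgroup.mem_map_of_mem (Subgroup.closure (nbr D a)).subtype hk
      rw [MonoidHom.map_closure] at this
      refine Subgroup.closure_mono ?_ this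
      rintro _ ⟨z, hz, rfl⟩
      exact ⟨hz.1, hz.2⟩
    simp only [QuotientGroup.mk'_apply, QuotientGroup.eq] at hkg
    rcases (m24_step hG hp h24).center_mem ha hkg with h | h
    · rw [Subgroup.coe_mul, Subgroup.coe_inv, inv_mul_eq_one] at h
      have hv : (k : G) = g := h
      exact hv ▸ hkS
    · rw [Subgroup.coe_mul, Subgroup.coe_inv, inv_mul_eq_iff_eq_mul] at h
      rw [show g = (k : G) * a from h]
      exact mul_mem hkS (m24_pair_mem_closure hG hp h24 ha hb φ hφ).1
  · rw [Subgroup.closure_le]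
    intro z hz
    rw [SetLike.mem_coe, Subgroup.mem_centralizer_iff]
    rintro _ (rfl | rfl)
    · exact hz.1.2.2.eq
    · exact hz.2.2.2.eq

theorem m24_pair_conj {x y : G} (hx : x ∈ nbr D a ∩ nbr D b) (hy : y ∈ nbr D a ∩ nbr D b) :
    ∃ g ∈ Subgroup.closure (nbr D a ∩ nbr D b), g * x * g⁻¹ = y := by
  classical
  obtain ⟨hnc, hT, -, h23⟩ := m24_bar hG hp h24 ha
  have hp23 := m24_bar_prim hG hp h24 ha
  obtain ⟨hnc', -, -⟩ := m23_bar hT hp23 h23 (barPt_mem hb)
  have hB := m23_levels hT hp23 h23 (barPt_mem hb)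
  obtain ⟨S, hS⟩ : ∃ S, nbr (nbrBar D a) (barPt hb) = S := ⟨_, rfl⟩
  have hcard : S.ncard = 3510 := by rw [← hS]; exact bar_card_nbr hT hnc' hB
  have hfew : ∀ p ∈ S, {w | w ∈ S ∧ Commute w p}.ncard ≤ 694 := by
    intro p hp'
    rw [← hS] at hp' ⊢
    refine (Set.ncard_le_ncard (t := insert p
      (nbr (nbrBar D a) (barPt hb) ∩ nbr (nbrBar D a) p)) ?_
      (Set.toFinite _)).trans ((Set.ncard_insert_le _ _).trans
        (by rw [bar_card_comm hT hnc' hB hp']))
    rintro w ⟨hw, hwp⟩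
    by_cases e : w = p
    · exact Or.inl e
    · exact Or.inr ⟨hw, hw.1, e, hwp.symm⟩
  have himg := nbr_barPt_eq hG hnc hb
  have hin : ∀ {z : G} (hz : z ∈ nbr D a ∩ nbr D b), barPt hz.1 ∈ S := fun hz => by
    rw [← hS, himg]
    exact ⟨⟨_, Subgroup.subset_closure hz.1⟩, ⟨hz.1, hz.2⟩, rfl⟩
  obtain ⟨q, hq', hqe⟩ := exists_closure_conj_of_few hT.1
    (fun z hz => (hS ▸ hz : z ∈ nbr (nbrBar D a) (barPt hb)).1) hfew
    (by rw [hcard]; norm_num) (hin hx) (hin hy)
  rw [← hS, himg, barOf, ← QuotientGroup.coe_mk', ← MonoidHom.map_closure, Subgroup.mem_map] at hq'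
  obtain ⟨k, hk, rfl⟩ := hq'
  refine ⟨k, ?_, ?_⟩
  · have := Subgroup.mem_map_of_mem (Subgroup.closure (nbr D a)).subtype hk
    rw [MonoidHom.map_closure] at this
    refine Subgroup.closure_mono ?_ this
    rintro _ ⟨z, hz, rfl⟩
    exact ⟨hz.1, hz.2⟩
  · rw [QuotientGroup.mk'_apply, barPt, barPt, ← QuotientGroup.mk_inv, ← QuotientGroup.mk_mul,
      ← QuotientGroup.mk_mul] at hqe
    exact congrArg Subtype.val (nbr_mk_injOn hG hnc
      ((nbrIn_ttg hG a).2.1 k ⟨x, Subgroup.subset_closure hx.1⟩ hx.1)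
      (show (⟨y, Subgroup.subset_closure hy.1⟩ : ↥(Subgroup.closure (nbr D a))) ∈ nbrIn D a
        from hy.1) hqe)

theorem m24_pair_m22 (φ : G →* Multiplicative (ZMod 2)) (hφ : ∀ d ∈ D, φ d ≠ 1) :
    ∃ (Q : Type u) (_ : Group Q) (_ : Finite Q) (Δ : Set Q), IsThreeTranspositionGroup Δ ∧
      IsPrimitiveUnderConj Δ ∧ IsOfTypeM22 Q Δ ∧
      ∃ ψ : ↥(Subgroup.centralizer ({a, b} : Set G)) →* Q, Function.Surjective ψ ∧
        ∀ k, ψ k = 1 ↔ (k : G) ∈ Subgroup.closure ({a, b} : Set G) := by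
  classical
  obtain ⟨hnc, hT, -, h23⟩ := m24_bar hG hp h24 ha
  have hp23 := m24_bar_prim hG hp h24 ha
  obtain ⟨-, hT', h22⟩ := m23_bar hT hp23 h23 (barPt_mem hb)
  have hK0 := m24_centralizer_pair hG hp h24 ha hb φ hφ
  have hle : Subgroup.centralizer ({a, b} : Set G) ≤ Subgroup.closure (nbr D a) :=
    hK0 ▸ Subgroup.closure_mono Set.inter_subset_left
  obtain ⟨π, hπ⟩ : ∃ π : ↥(Subgroup.centralizer ({a, b} : Set G)) →* _,
      π = (QuotientGroup.mk' (Subgroup.center ↥(Subgroup.closure (nbr D a)))).comp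
        (Subgroup.inclusion hle) := ⟨_, rfl⟩
  have himg := nbr_barPt_eq hG hnc hb
  have hmem : ∀ k, π k ∈ Subgroup.closure (nbr (nbrBar D a) (barPt hb)) := by
    intro k
    rw [← (m23_level hT hp23 h23).cent _ (barPt_mem hb), Subgroup.mem_centralizer_singleton_iff,
      hπ, MonoidHom.comp_apply, QuotientGroup.mk'_apply, barPt, ← QuotientGroup.mk_mul,
      ← QuotientGroup.mk_mul]
    exact congrArg _ (Subtype.ext (Subgroup.mem_centralizer_iff.1 k.2 b (by simp)).symm)
  have hsurj : ∀ q ∈ Subgroup.closure (nbr (nbrBar D a) (barPt hb)), ∃ k, π k = q := by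
    intro q hq'
    rw [himg, barOf, ← QuotientGroup.coe_mk', ← MonoidHom.map_closure, Subgroup.mem_map] at hq'
    obtain ⟨k, hk, rfl⟩ := hq'
    have hkS : (k : G) ∈ Subgroup.centralizer ({a, b} : Set G) := by
      rw [hK0]
      have := Subgroup.mem_map_of_mem (Subgroup.closure (nbr D a)).subtype hk
      rw [MonoidHom.map_closure] at this
      refine Subgroup.closure_mono ?_ this
      rintro _ ⟨z, hz, rfl⟩
      exact ⟨hz.1, hz.2⟩
    exact ⟨⟨k, hkS⟩, by rw [hπ]; rfl⟩
  refine ⟨_, inferInstance, inferInstance, _, hT', m22_primitive hT' h22, h22,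
    (QuotientGroup.mk' _).comp (π.codRestrict _ hmem), ?_, fun k => ?_⟩
  · intro u
    obtain ⟨⟨q, hq'⟩, rfl⟩ := QuotientGroup.mk_surjective u
    obtain ⟨k, rfl⟩ := hsurj q hq'
    exact ⟨k, rfl⟩
  rw [MonoidHom.comp_apply, QuotientGroup.mk'_apply, QuotientGroup.eq_one_iff]
  have hAV : a ∈ Subgroup.closure ({a, b} : Set G) := Subgroup.subset_closure (by simp)
  have hBV : b ∈ Subgroup.closure ({a, b} : Set G) := Subgroup.subset_closure (by simp)
  constructor
  · intro hk
    rcases (m23_step hT hp23 h23).center_mem (barPt_mem hb) hk with h | h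
    · have h' : π k = 1 := h
      rw [hπ, MonoidHom.comp_apply, QuotientGroup.mk'_apply, QuotientGroup.eq_one_iff] at h'
      rcases (m24_step hG hp h24).center_mem ha h' with e | e
      · rw [show (k : G) = 1 from e]; exact one_mem _
      · rw [show (k : G) = a from e]; exact hAV
    · have h' : π k = barPt hb := h
      rw [hπ, MonoidHom.comp_apply, QuotientGroup.mk'_apply, barPt, eq_comm, QuotientGroup.eq] at h'
      rcases (m24_step hG hp h24).center_mem ha h' with e | e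
      · rw [show (k : G) = b from (inv_mul_eq_one.1 e).symm]; exact hBV
      · rw [show (k : G) = b * a from inv_mul_eq_iff_eq_mul.1 e]; exact mul_mem hBV hAV
  · intro hk
    rw [Subgroup.mem_center_iff]
    rintro ⟨q, hq'⟩
    obtain ⟨m, rfl⟩ := hsurj q hq'
    apply Subtype.ext
    show π m * π k = π k * π m
    rw [← map_mul, ← map_mul]
    refine congrArg π (Subtype.ext ?_)
    exact (commute_closure_iff.2 (fun s hs =>
      (Subgroup.mem_centralizer_iff.1 m.2 s hs : Commute s (m : G))) (k : G) hk).eq.symm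

set_option maxHeartbeats 1600000 in
theorem m24_pair_main (φ : G →* Multiplicative (ZMod 2)) (hφ : ∀ d ∈ D, φ d ≠ 1)
    {A : Type} [Group A]
    (hU : ∀ (H : Type u) [Group H] [Finite H] (Δ : Set H), IsThreeTranspositionGroup Δ →
      IsPrimitiveUnderConj Δ → IsOfTypeM22 H Δ → Nonempty (H ≃* A))
    (hA2 : Nat.card (MulAut A) = 2 * Nat.card A)
    (K CL : Subgroup G) (hK : K = φ.ker ⊓ Subgroup.centralizer ({a, b} : Set G))
    (hCL : CL = φ.ker ⊓ Subgroup.centralizer ({a * b} : Set G))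
    [hn : ((Subgroup.zpowers (a * b)).subgroupOf CL).Normal] :
    Cfsg.IsQuasisimple ↥K ∧ K = (Cfsg.generalizedFittingSubgroup ↥CL).map CL.subtype ∧ K ≤ CL ∧
      (K.subgroupOf CL).index = 2 ∧ a * b ∈ K ∧
      Nonempty (↥CL ⧸ (Subgroup.zpowers (a * b)).subgroupOf CL ≃* MulAut A) := by
  classical
  have hD := hG.1
  have hnt : NoTwins D := by
    obtain ⟨-, d, hd, c', hc', hdc, -⟩ := id h24
    exact primitive_noTwins hG hp hd hc' hdc
  have hab := hb.2.2
  have hne := Ne.symm hb.2.1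
  have haa := tt_mul_self hD ha
  obtain ⟨K₀, hK₀⟩ : ∃ K₀, K₀ = Subgroup.centralizer ({a, b} : Set G) := ⟨_, rfl⟩
  rw [← hK₀] at hK
  obtain ⟨hAc, hBc⟩ := m24_pair_mem_closure hG hp h24 ha hb φ hφ
  rw [← m24_centralizer_pair hG hp h24 ha hb φ hφ, ← hK₀] at hAc hBc
  have memK₀ : ∀ g : G, g ∈ K₀ ↔ g * a * g⁻¹ = a ∧ g * b * g⁻¹ = b := by
    intro g
    rw [hK₀, Subgroup.mem_centralizer_iff, mul_inv_eq_iff_eq_mul, mul_inv_eq_iff_eq_mul]
    refine ⟨fun h => ⟨(h a (by simp)).symm, (h b (by simp)).symm⟩, ?_⟩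
    rintro ⟨h1, h2⟩ _ (rfl | rfl)
    · exact h1.symm
    · exact h2.symm
  have memK : ∀ g, g ∈ K ↔ φ g = 1 ∧ g ∈ K₀ := fun g => by
    rw [hK, Subgroup.mem_inf, MonoidHom.mem_ker]
  have memCL : ∀ g, g ∈ CL ↔ φ g = 1 ∧ g * (a * b) * g⁻¹ = a * b := fun g => by
    rw [hCL, Subgroup.mem_inf, MonoidHom.mem_ker, Subgroup.mem_centralizer_singleton_iff,
      mul_inv_eq_iff_eq_mul]
  have hfact : ∀ c ∈ CL, (c * a * c⁻¹ = a ∧ c * b * c⁻¹ = b) ∨
      (c * a * c⁻¹ = b ∧ c * b * c⁻¹ = a) := by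
    intro c hc
    have hne' : c * a * c⁻¹ ≠ c * b * c⁻¹ := fun e => hne (mul_left_cancel (mul_right_cancel e))
    have := pair_unique hD hnt (j := a * b) (l := [a, b]) (l' := [c * a * c⁻¹, c * b * c⁻¹])
      ⟨by simp [hne], rfl, by simp [ha, hb.1], by simp [hab, hab.symm], by simp⟩
      ⟨by simp [hne'], rfl, by simp [tt_conj_mem hG ha, tt_conj_mem hG hb.1],
        by simp [commute_conj_iff'.2 hab, (commute_conj_iff'.2 hab).symm],
        by rw [List.prod_cons, List.prod_singleton]; exact Eq.trans (by group) ((memCL c).1 hc).2⟩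
    simp only [List.mem_cons, List.not_mem_nil, or_false] at this
    rcases (this (c * a * c⁻¹)).2 (Or.inl rfl) with h1 | h1 <;>
      rcases (this (c * b * c⁻¹)).2 (Or.inr rfl) with h2 | h2
    · exact absurd (h1.trans h2.symm) hne'
    · exact Or.inl ⟨h1, h2⟩
    · exact Or.inr ⟨h1, h2⟩
    · exact absurd (h1.trans h2.symm) hne'
  have hKCL : K ≤ CL := fun g hg => by
    obtain ⟨h1, h2⟩ := (memK g).1 hg
    obtain ⟨h3, h4⟩ := (memK₀ g).1 h2
    exact (memCL g).2 ⟨h1, by
      rw [show g * (a * b) * g⁻¹ = g * a * g⁻¹ * (g * b * g⁻¹) by group, h3, h4]⟩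
  have hfab : φ (a * b) = 1 := by
    rw [map_mul]; exact (zmod_two_cases _ _ (hφ a ha) (hφ b hb.1)).2
  have hj : a * b ∈ K := (memK _).2 ⟨hfab, mul_mem hAc hBc⟩
  -- the swap
  obtain ⟨hnc, -⟩ := m24_bar hG hp h24 ha
  obtain ⟨c, hca, hcb⟩ : (nbr D a ∩ nbr D b).Nonempty := by
    refine Set.nonempty_of_ncard_ne_zero ?_
    rw [bar_card_comm hG hnc (m24_levels hG hp h24 ha) hb]
    norm_num
  obtain ⟨g₀, hg1, hga, hgb, -⟩ := m24_triple_swap hG hp h24 ha hb hca hcb φ hφ
  have hg₀ : g₀ ∈ CL := (memCL g₀).2 ⟨hg1, by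
    rw [show g₀ * (a * b) * g₀⁻¹ = g₀ * a * g₀⁻¹ * (g₀ * b * g₀⁻¹) by group, hga, hgb, hab.eq]⟩
  have hindex : (K.subgroupOf CL).index = 2 := by
    rw [Subgroup.index_eq_two_iff]
    refine ⟨⟨g₀, hg₀⟩, fun x => ?_⟩
    simp only [Subgroup.mem_subgroupOf, Subgroup.coe_mul, memK, memK₀, map_mul,
      ((memCL (x : G)).1 x.2).1, hg1, one_mul, true_and]
    have e1 : ∀ z : G, (x : G) * g₀ * z * ((x : G) * g₀)⁻¹ =
        (x : G) * (g₀ * z * g₀⁻¹) * (x : G)⁻¹ := fun z => by group
    rw [e1, e1, hga, hgb]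
    rcases hfact x x.2 with ⟨h1, h2⟩ | ⟨h1, h2⟩ <;> rw [h1, h2] <;> unfold Xor <;> tauto
  -- perfectness
  obtain ⟨S, hS⟩ : ∃ S, S = nbr D a ∩ nbr D b := ⟨_, rfl⟩
  have hKS : K₀ = Subgroup.closure S := by
    rw [hK₀, hS, m24_centralizer_pair hG hp h24 ha hb φ hφ]
  have hder : commutator ↥K₀ = (φ.comp K₀.subtype).ker := by
    refine parity_hom_eq (φ.comp K₀.subtype) (S := (Subtype.val : ↥K₀ → G) ⁻¹' S) ?_ ?_ ?_ ?_
    · subst hKS; exact Subgroup.closure_closure_coe_preimage
    · exact fun x hx => Subtype.ext (tt_mul_self hD (hS ▸ hx : (x : G) ∈ nbr D a ∩ nbr D b).1.1)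
    · exact fun x hx => hφ _ (hS ▸ hx : (x : G) ∈ nbr D a ∩ nbr D b).1.1
    · intro x hx y hy
      obtain ⟨g, hg, hxy⟩ := m24_pair_conj hG hp h24 ha hb (x := (x : G)) (y := (y : G))
        (hS ▸ hx) (hS ▸ hy)
      exact ⟨⟨g, hKS ▸ hS ▸ hg⟩, Subtype.ext hxy⟩
  have hsplit : ∀ g ∈ K₀, g ∈ K ∨ g * a ∈ K := by
    intro g hg
    by_cases h : φ g = 1
    · exact Or.inl ((memK g).2 ⟨h, hg⟩)
    · exact Or.inr ((memK _).2 ⟨by rw [map_mul]; exact (zmod_two_cases _ _ h (hφ a ha)).2,
        mul_mem hg hAc⟩)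
  have hca' : ∀ g ∈ K₀, Commute g a ∧ Commute g b := fun g hg =>
    ⟨mul_inv_eq_iff_eq_mul.1 ((memK₀ g).1 hg).1, mul_inv_eq_iff_eq_mul.1 ((memK₀ g).1 hg).2⟩
  have hKK : ⁅K, K⁆ = K := by
    refine le_antisymm (Subgroup.commutator_le_self _) fun g hg => ?_
    have h1 : (⟨g, ((memK g).1 hg).2⟩ : ↥K₀) ∈ commutator ↥K₀ := by
      rw [hder, MonoidHom.mem_ker]; exact ((memK g).1 hg).1
    have h2 : commutator ↥K₀ ≤ ⁅K, K⁆.comap K₀.subtype := by
      rw [commutator_def, Subgroup.commutator_le]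
      intro x _ y _
      rw [Subgroup.mem_comap, map_commutatorElement]
      obtain ⟨x', hx', ex⟩ : ∃ x' ∈ K, ∀ z ∈ K₀, ⁅(x : G), z⁆ = ⁅x', z⁆ := by
        rcases hsplit x x.2 with h | h
        · exact ⟨x, h, fun _ _ => rfl⟩
        · refine ⟨_, h, fun z hz => ?_⟩
          have hc' : Commute a z := (hca' z hz).1.symm
          rw [commutatorElement_def, commutatorElement_def, mul_inv_rev, tt_inv hD ha,
            show (x : G) * a * z * (a * (x : G)⁻¹) = (x : G) * (a * z * a) * (x : G)⁻¹ by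
              simp only [mul_assoc], hc'.eq, mul_assoc z a a, haa, mul_one]
      obtain ⟨y', hy', ey⟩ : ∃ y' ∈ K, ∀ z ∈ K₀, ⁅z, (y : G)⁆ = ⁅z, y'⁆ := by
        rcases hsplit y y.2 with h | h
        · exact ⟨y, h, fun _ _ => rfl⟩
        · refine ⟨_, h, fun z hz => ?_⟩
          have hc' : Commute a z⁻¹ := (hca' z hz).1.symm.inv_right
          rw [commutatorElement_def, commutatorElement_def, mul_inv_rev, tt_inv hD ha,
            show z * ((y : G) * a) * z⁻¹ * (a * (y : G)⁻¹) = z * (y : G) * (a * z⁻¹ * a) *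
              (y : G)⁻¹ by simp only [mul_assoc], hc'.eq, mul_assoc z⁻¹ a a, haa, mul_one]
      show ⁅(x : G), (y : G)⁆ ∈ ⁅K, K⁆
      rw [ex _ y.2, ey _ ((memK x').1 hx').2]
      exact Subgroup.commutator_mem_commutator hx' hy'
    exact h2 h1
  have hperf : Group.IsPerfect ↥K := Subgroup.isPerfect_iff.2 hKK
  -- the quotient
  obtain ⟨Q, _, _, Δ, hQ, hQp, hQ22, ψ, hψs, hψk⟩ := m24_pair_m22 hG hp h24 ha hb φ hφ
  haveI hQs : IsSimpleGroup Q := m22_isSimple hQ hQp hQ22
  have hQZ : Subgroup.center Q = ⊥ := hQ22.1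
  subst hK₀
  have hKle : K ≤ Subgroup.centralizer ({a, b} : Set G) := fun g hg => ((memK g).1 hg).2
  obtain ⟨θ, hθ⟩ : ∃ θ : ↥K →* Q, θ = ψ.comp (Subgroup.inclusion hKle) := ⟨_, rfl⟩
  have hθs : Function.Surjective θ := by
    intro u
    obtain ⟨k, rfl⟩ := hψs u
    rcases hsplit k k.2 with h | h
    · exact ⟨⟨k, h⟩, by rw [hθ]; rfl⟩
    · refine ⟨⟨_, h⟩, ?_⟩
      have ha' : ψ ⟨a, hAc⟩ = 1 := (hψk _).2 (Subgroup.subset_closure (by simp))
      rw [hθ, MonoidHom.comp_apply,
        show Subgroup.inclusion hKle ⟨(k : G) * a, h⟩ = k * ⟨a, hAc⟩ from rfl, map_mul, ha', mul_one]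
  have hbb := tt_mul_self hD hb.1
  have habsq : a * b * (a * b) = 1 := by
    rw [mul_assoc, ← mul_assoc b, ← hab.eq, mul_assoc a b b, hbb, mul_one, haa]
  have hZcases : ∀ z, z ∈ Subgroup.zpowers (a * b) → z = 1 ∨ z = a * b := by
    intro z hz
    obtain ⟨k, rfl⟩ := Subgroup.mem_zpowers_iff.1 hz
    rcases Int.even_or_odd k with ⟨m, rfl⟩ | ⟨m, rfl⟩
    · left; rw [zpow_add, ← (Commute.refl (a * b)).mul_zpow, habsq, one_zpow]
    · right
      rw [zpow_add, zpow_one, two_mul, zpow_add, ← (Commute.refl (a * b)).mul_zpow, habsq, one_zpow,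
        one_mul]
  have hθk : θ.ker = (Subgroup.zpowers (a * b)).subgroupOf K := by
    ext k
    rw [MonoidHom.mem_ker, hθ, MonoidHom.comp_apply, hψk, Subgroup.mem_subgroupOf,
      Subgroup.coe_inclusion]
    constructor
    · intro h
      have h1 := ((memK (k : G)).1 k.2).1
      have : (k : G) = 1 ∨ (k : G) = a ∨ (k : G) = b ∨ (k : G) = a * b := by
        have h0 : ∀ v ∈ Subgroup.closure ({a, b} : Set G),
            v = 1 ∨ v = a ∨ v = b ∨ v = a * b := by
          intro v hv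
          induction hv using Subgroup.closure_induction with
          | mem y hy => rcases hy with rfl | rfl <;> simp
          | one => simp
          | mul x y _ _ hx hy =>
            rcases hx with rfl | rfl | rfl | rfl <;> rcases hy with rfl | rfl | rfl | rfl <;>
              simp [haa, hbb, ← hab.eq, mul_assoc, tt_cancel_left hD ha, hab.symm.left_comm]
          | inv x _ hx =>
            rcases hx with rfl | rfl | rfl | rfl <;>
              simp [tt_inv hD ha, tt_inv hD hb.1, hab.symm.eq]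
        exact h0 _ h
      rcases this with e | e | e | e <;> rw [e] at h1 ⊢
      · exact one_mem _
      · exact absurd h1 (hφ a ha)
      · exact absurd h1 (hφ b hb.1)
      · exact Subgroup.mem_zpowers _
    · intro h
      rcases hZcases _ h with e | e <;> rw [e]
      · exact one_mem _
      · exact mul_mem (Subgroup.subset_closure (by simp)) (Subgroup.subset_closure (by simp))
  have hcen : Subgroup.center ↥K = θ.ker := by
    refine le_antisymm (fun z hz => ?_) fun z hz => ?_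
    · rw [MonoidHom.mem_ker]
      have hzc : θ z ∈ Subgroup.center Q := by
        rw [Subgroup.mem_center_iff]
        intro u
        obtain ⟨k, rfl⟩ := hθs u
        rw [← map_mul, ← map_mul, Subgroup.mem_center_iff.1 hz k]
      rw [hQZ, Subgroup.mem_bot] at hzc
      exact hzc
    · rw [Subgroup.mem_center_iff]
      intro k
      obtain ⟨h1, h2⟩ := hca' k ((memK _).1 k.2).2
      have hz' : (z : G) = 1 ∨ (z : G) = a * b := by
        rw [hθk, Subgroup.mem_subgroupOf] at hz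
        exact hZcases _ hz
      refine Subtype.ext ?_
      rcases hz' with e | e <;> simp only [Subgroup.coe_mul, e]
      · rw [one_mul, mul_one]
      · exact (h1.mul_right h2).eq
  have hqs : Cfsg.IsQuasisimple ↥K := by
    refine ⟨hperf, ?_⟩
    exact (MulEquiv.isSimpleGroup_congr ((QuotientGroup.quotientMulEquivOfEq hcen).trans
      (QuotientGroup.quotientKerEquivOfSurjective θ hθs))).2 hQs
  -- elements centralizing `K`
  haveI hKn : (K.subgroupOf CL).Normal := Subgroup.normal_of_index_eq_two hindex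
  have hZK : ∀ g : ↥CL, (∀ k ∈ K, Commute (g : G) k) → (g : G) ∈ Subgroup.zpowers (a * b) := by
    intro g hg
    obtain ⟨hg1, -⟩ := (memCL g).1 g.2
    have hgK : (g : G) ∈ K := by
      refine (memK _).2 ⟨hg1, (memK₀ _).2 ?_⟩
      rcases hfact g g.2 with h | ⟨h1, h2⟩
      · exact h
      exfalso
      have hck : c ∈ Subgroup.centralizer ({a, b} : Set G) := (memK₀ c).2
        ⟨by rw [← hca.2.2.eq, mul_inv_cancel_right], by rw [← hcb.2.2.eq, mul_inv_cancel_right]⟩
      have hk : c * a ∈ K := (memK _).2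
        ⟨by rw [map_mul]; exact (zmod_two_cases _ _ (hφ c hca.1) (hφ a ha)).2, mul_mem hck hAc⟩
      have hpr : (g : G) * c * (g : G)⁻¹ * b = c * a := by
        rw [← h1, show (g : G) * c * (g : G)⁻¹ * ((g : G) * a * (g : G)⁻¹) =
          (g : G) * (c * a) * (g : G)⁻¹ by group, (hg _ hk).eq, mul_inv_cancel_right]
      have hne' : (g : G) * c * (g : G)⁻¹ ≠ b := fun e =>
        hca.2.1 (mul_left_cancel (mul_right_cancel (e.trans h1.symm)))
      have hcb' : Commute ((g : G) * c * (g : G)⁻¹) b := by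
        rw [← h1]; exact commute_conj_iff'.2 hca.2.2.symm
      have := (pair_unique hD hnt (j := c * a) (l := [c, a]) (l' := [(g : G) * c * (g : G)⁻¹, b])
        ⟨by simp [hca.2.1], rfl, by simp [hca.1, ha], by simp [hca.2.2, hca.2.2.symm], by simp⟩
        ⟨by simp [hne'], rfl, by simp [tt_conj_mem hG hca.1, hb.1], by simp [hcb', hcb'.symm],
          by simpa using hpr⟩ b).2 (by simp)
      simp only [List.mem_cons, List.not_mem_nil, or_false] at this
      rcases this with e | e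
      · exact hcb.2.1 e.symm
      · exact hb.2.1 e
    have : (⟨g, hgK⟩ : ↥K) ∈ Subgroup.center ↥K :=
      Subgroup.mem_center_iff.2 fun k => Subtype.ext (hg k k.2).eq.symm
    rw [hcen, hθk, Subgroup.mem_subgroupOf] at this
    exact this
  have hcK' : Subgroup.centralizer ((K.subgroupOf CL : Subgroup ↥CL) : Set ↥CL) ≤
      K.subgroupOf CL := by
    intro g hg
    rw [Subgroup.mem_subgroupOf]
    refine Subgroup.zpowers_le.2 hj (hZK g fun k hk => ?_)
    exact congrArg Subtype.val (Subgroup.mem_centralizer_iff.1 hg ⟨k, hKCL hk⟩ hk).symm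
  have e := Subgroup.subgroupOfEquivOfLe hKCL
  have hqs' : Cfsg.IsQuasisimple ↥(K.subgroupOf CL) := by
    haveI := hperf
    refine ⟨Group.IsPerfect.ofSurjective (f := e.symm.toMonoidHom) e.symm.surjective, ?_⟩
    have hsimp := hqs.2
    obtain ⟨q, -⟩ := quotCenterCongr e
    exact (MulEquiv.isSimpleGroup_congr q).2 hsimp
  have hF' : Cfsg.generalizedFittingSubgroup ↥CL = K.subgroupOf CL := by
    have hcomp : Cfsg.IsComponent (K.subgroupOf CL) := ⟨hKn.isSubnormal, hqs'⟩
    refine le_antisymm (sup_le (sSup_le fun L hL => ?_) ?_) (le_sup_of_le_left (le_sSup hcomp))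
    · by_cases h : L = K.subgroupOf CL
      · exact h.le
      · exact (Subgroup.commutator_eq_bot_iff_le_centralizer.mp
          (CfsgLib.Cores.commutator_eq_bot_of_ne hL hcomp h)).trans hcK'
    · haveI := CfsgLib.Fitting.fittingSubgroup_isNilpotent ↥CL
      have h := CfsgLib.FStar.component_commute_nilpotent hcomp
        (CfsgLib.Fitting.fittingSubgroup_normal ↥CL)
        (N := fittingSubgroup ↥CL)
      rw [Subgroup.commutator_comm] at h
      exact (Subgroup.commutator_eq_bot_iff_le_centralizer.mp h).trans hcK'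
  refine ⟨hqs, ?_, hKCL, hindex, hj, ?_⟩
  · rw [hF', Subgroup.subgroupOf_map_subtype, inf_eq_left.2 hKCL]
  -- the automorphisms
  obtain ⟨θ', hθ'⟩ : ∃ θ' : ↥(K.subgroupOf CL) →* Q, θ' = θ.comp e.toMonoidHom := ⟨_, rfl⟩
  have hθ's : Function.Surjective θ' := by rw [hθ']; exact hθs.comp e.surjective
  have hθ'k : θ'.ker = Subgroup.center ↥(K.subgroupOf CL) := by
    ext k
    rw [MonoidHom.mem_ker, hθ', MonoidHom.comp_apply, MulEquiv.coe_toMonoidHom, ← MonoidHom.mem_ker,
      ← hcen, Subgroup.mem_center_iff, Subgroup.mem_center_iff]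
    constructor
    · intro h x
      apply e.injective
      rw [map_mul, map_mul, h]
    · intro h x
      obtain ⟨x, rfl⟩ := e.surjective x
      rw [← map_mul, ← map_mul, h]
  obtain ⟨Φ, hΦ⟩ := exists_quot_action (K.subgroupOf CL) θ' hθ's hθ'k
  have hΦk : Φ.ker = (Subgroup.zpowers (a * b)).subgroupOf CL := by
    ext g
    rw [MonoidHom.mem_ker, Subgroup.mem_subgroupOf]
    constructor
    · intro h
      refine hZK g fun k hk => ?_
      have hfix := conjNormal_eq_one_of_central (K.subgroupOf CL) hqs'.1 (x := g) (fun m => by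
        rw [← hθ'k, MonoidHom.mem_ker, map_mul, map_inv, inv_mul_eq_one, ← hΦ, h, MulAut.one_apply])
        ⟨⟨k, hKCL hk⟩, hk⟩
      have := congrArg (fun m : ↥(K.subgroupOf CL) => ((m : ↥CL) : G)) hfix
      simp only [MulAut.conjNormal_apply, Subgroup.coe_mul, Subgroup.coe_inv] at this
      exact mul_inv_eq_iff_eq_mul.1 this
    · intro h
      ext p
      obtain ⟨k, rfl⟩ := hθ's p
      rw [hΦ, MulAut.one_apply]
      congr 1
      refine Subtype.ext (Subtype.ext ?_)
      simp only [MulAut.conjNormal_apply, Subgroup.coe_mul, Subgroup.coe_inv]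
      obtain ⟨h1, h2⟩ := hca' _ ((memK _).1 k.2).2
      rcases hZcases _ h with e' | e' <;> rw [e']
      · simp
      · exact mul_inv_eq_iff_eq_mul.2 (h1.mul_right h2).eq.symm
  obtain ⟨iso⟩ := hU Q Δ hQ hQp hQ22
  haveI : Finite (MulAut Q) :=
    Finite.of_injective (fun e => (e : Q → Q)) DFunLike.coe_injective
  have hcardQ : Nat.card (MulAut Q) = 2 * Nat.card Q := by
    rw [Nat.card_congr (MulAut.congr iso).toEquiv, hA2, Nat.card_congr iso.toEquiv]
  have hrange : Φ.range = ⊤ := by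
    refine Subgroup.eq_top_of_card_eq _ ?_
    have h1 := Subgroup.card_mul_index (K.subgroupOf CL)
    rw [hindex, Nat.card_congr e.toEquiv] at h1
    have h2 : Nat.card ↥K = Nat.card Q * 2 := by
      rw [Subgroup.card_eq_card_quotient_mul_card_subgroup θ.ker,
        Nat.card_congr (QuotientGroup.quotientKerEquivOfSurjective θ hθs).toEquiv, hθk,
        Nat.card_congr (Subgroup.subgroupOfEquivOfLe (Subgroup.zpowers_le.2 hj)).toEquiv,
        Nat.card_zpowers]
      congr 1
      refine orderOf_eq_prime (by rw [pow_two]; exact habsq) fun h => hne ?_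
      rw [← tt_inv hD hb.1]; exact eq_inv_of_mul_eq_one_left h
    have h3 : Nat.card ↥CL = Nat.card ↥Φ.range * 2 := by
      rw [Subgroup.card_eq_card_quotient_mul_card_subgroup Φ.ker,
        Nat.card_congr (QuotientGroup.quotientKerEquivRange Φ).toEquiv, hΦk,
        Nat.card_congr (Subgroup.subgroupOfEquivOfLe ((Subgroup.zpowers_le.2 hj).trans hKCL)).toEquiv,
        Nat.card_zpowers]
      congr 1
      refine orderOf_eq_prime (by rw [pow_two]; exact habsq) fun h => hne ?_
      rw [← tt_inv hD hb.1]; exact eq_inv_of_mul_eq_one_left h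
    rw [hcardQ]
    omega
  exact ⟨((QuotientGroup.quotientMulEquivOfEq hΦk.symm).trans
    ((QuotientGroup.quotientKerEquivRange Φ).trans
      ((MulEquiv.subgroupCongr hrange).trans Subgroup.topEquiv))).trans (MulAut.congr iso)⟩

end m24

end CfsgLib.ThreeTransp
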