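import Mathlib
import Cfsg.Agent.ThreeTransp.M22PairMain25
import Cfsg.Agent.AutOrth.Conformal
import Cfsg.Agent.LargeExtraspecial.Simple
import Cfsg.Agent.S0288
import Cfsg.Agent.S0303

/-!
The generalized Fitting subgroup of the centralizer of a product of two commuting members.
-/

set_option autoImplicit false

namespace CfsgLib.ThreeTransp.Pair25

open Cfsg Cfsg.Geo

universe u

theorem zmod_two_anisotropic :
    ∀ z₁ z₂ : ZMod 2, z₁ ^ 2 + 1 * z₁ * z₂ + 1 * z₂ ^ 2 = 0 → z₁ = 0 ∧ z₂ = 0 := by decide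

theorem zmod_two_scalar : ∀ c : ZMod 2, c = 0 ∨ c = 1 := by decide

theorem mult_two_cases : ∀ z : Multiplicative (ZMod 2), z = 1 ∨ z = Multiplicative.ofAdd 1 := by
  decide

theorem mult_two_sq :
    Multiplicative.ofAdd (1 : ZMod 2) * Multiplicative.ofAdd (1 : ZMod 2) = 1 ∧
      Multiplicative.ofAdd (1 : ZMod 2) ≠ 1 := by decide

/-- The isometry group of the elliptic form in dimension six over two elements is `Aut PSU(4, 2)`. -/
theorem isometry_six_minus_equiv {K : Type} [Field K] [Fintype K] (hK : Fintype.card K = 4)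
    (haut : Nat.card (MulAut (PSU 4 K 2)) = 51840) :
    Nonempty (↥(isometryGroup (ZMod 2) (quadFormMinus 2 (ZMod 2) 1 1)) ≃* MulAut (PSU 4 K 2)) := by
  classical
  haveI : Fact (Nat.Prime 2) := ⟨Nat.prime_two⟩
  have hab := zmod_two_anisotropic
  obtain ⟨e⟩ := Cfsg.Agent.S0303.result (F := ZMod 2) (K := K) (q := 2) (ZMod.card 2)
    (hK.trans (by norm_num)) 1 1 hab
  obtain ⟨Q, hQd⟩ : ∃ Q, Q = quadFormMinus 2 (ZMod 2) (1 : ZMod 2) 1 := ⟨_, rfl⟩
  have hcard : Nat.card ↥(isometryGroup (ZMod 2) Q) = 51840 := by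
    have h := Cfsg.Agent.S0288.result (F := ZMod 2) (q := 2) (ZMod.card 2) 3 (by norm_num) 1 1 hab
    rw [show (3 : ℕ) - 1 = 2 from rfl] at h
    rw [hQd, h]
    norm_num [Finset.prod_range_succ]
  have hQ : IsNondegenerateQuadraticForm Q :=
    hQd ▸ CfsgLib.Classical.Orth.isNondegQF_quadFormMinus 2 (1 : ZMod 2) 1 hab
  subst hQd
  obtain ⟨α, hα⟩ : ∃ α, α = (CfsgLib.AutOrth.conjS (quadFormMinus 2 (ZMod 2) (1 : ZMod 2) 1)).comp
      (Subgroup.inclusion (CfsgLib.AutOrth.isometry_le_similarity (quadFormMinus 2 (ZMod 2) (1 : ZMod 2) 1))) :=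
    ⟨_, rfl⟩
  have hinj : Function.Injective α := by
    refine (injective_iff_map_eq_one _).2 fun g hg => ?_
    rw [hα] at hg
    obtain ⟨c, hc⟩ := CfsgLib.AutOrth.scalar_of_conjS_eq_one hQ (by simp) hg
    have hc' : ∀ x : (Fin 2 ⊕ Fin 2) ⊕ Fin 2 → ZMod 2,
        ((g : GL ((Fin 2 ⊕ Fin 2) ⊕ Fin 2) (ZMod 2)) :
          Matrix ((Fin 2 ⊕ Fin 2) ⊕ Fin 2) ((Fin 2 ⊕ Fin 2) ⊕ Fin 2) (ZMod 2)).mulVec x = c • x := hc
    have hdis : c = 0 ∨ c = 1 := zmod_two_scalar c
    have hc1 : c = 1 := hdis.resolve_left fun h0 => by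
      have h := hc' (fun _ => 1)
      rw [h0, zero_smul] at h
      obtain ⟨A, hA⟩ : ∃ A : GL ((Fin 2 ⊕ Fin 2) ⊕ Fin 2) (ZMod 2), A = g := ⟨_, rfl⟩
      rw [← hA] at h
      have h2 := congrArg (((A⁻¹ : GL ((Fin 2 ⊕ Fin 2) ⊕ Fin 2) (ZMod 2)) :
        Matrix ((Fin 2 ⊕ Fin 2) ⊕ Fin 2) ((Fin 2 ⊕ Fin 2) ⊕ Fin 2) (ZMod 2))).mulVec h
      rw [Matrix.mulVec_mulVec, Units.inv_mul, Matrix.one_mulVec, Matrix.mulVec_zero] at h2
      exact one_ne_zero (congrFun h2 (Sum.inl (Sum.inl 0)))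
    apply Subtype.ext
    apply Units.ext
    refine Matrix.ext_of_mulVec_single fun i => ?_
    rw [hc', hc1, one_smul]
    exact (Matrix.one_mulVec _).symm
  haveI : Finite (MulAut (PSU 4 K 2)) :=
    Finite.of_injective (fun e => (e : PSU 4 K 2 → PSU 4 K 2)) DFunLike.coe_injective
  obtain ⟨β, hβ⟩ : ∃ β, β = (MulAut.congr e).toMonoidHom.comp α := ⟨_, rfl⟩
  have hβi : Function.Injective β := by rw [hβ]; exact (MulAut.congr e).injective.comp hinj
  refine ⟨MulEquiv.ofBijective β ((Nat.bijective_iff_injective_and_card β).2 ⟨hβi, ?_⟩)⟩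
  rw [hcard, haut]

variable {G : Type u} [Group G] [Finite G] {D : Set G}

theorem m22_pair_fitting (hG : IsThreeTranspositionGroup D) (hp : IsPrimitiveUnderConj D)
    (h22 : IsOfTypeM22 G D) {a b : G} (ha : a ∈ D) (hb : b ∈ nbr D a) (C : Subgroup G)
    (hC : C = Subgroup.centralizer ({a * b} : Set G))
    [hn : (Cfsg.generalizedFittingSubgroup ↥C).Normal] :
    (∃ (E : Type) (_ : Group E) (_ : Finite E), Cfsg.IsExtraspecial 2 E ∧ Nat.card E = 2 ^ 9 ∧
      Nonempty (↥(Cfsg.generalizedFittingSubgroup ↥C) ≃* Multiplicative (ZMod 2) × E)) ∧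
      Nonempty (↥C ⧸ Cfsg.generalizedFittingSubgroup ↥C ≃*
        Cfsg.isometryGroup (ZMod 2) (Cfsg.quadFormMinus 2 (ZMod 2) 1 1)) := by
  classical
  haveI : Fact (Nat.Prime 2) := ⟨Nat.prime_two⟩
  obtain ⟨E, hE⟩ := m22_pair_struct hG hp h22 ha hb _ C rfl hC
  haveI := hE.normal
  have hEC : E ≤ C := hE.hEK.trans hE.le
  have hE2 : IsPGroup 2 ↥E := by
    exact (IsPGroup.iff_card (p := 2)).2 ⟨10, hE.card⟩
  have hcore : Cfsg.pCore 2 ↥C = E.subgroupOf C :=
    le_antisymm (sSup_le fun N hN => hE.max N hN.1 hN.2)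
      (CfsgLib.LocalP.le_pCore hE.normal (hE2.of_equiv (Subgroup.subgroupOfEquivOfLe hEC).symm))
  have hF : Cfsg.generalizedFittingSubgroup ↥C = E.subgroupOf C := by
    rw [CfsgLib.CharPClimb.generalizedFitting_eq_pCore (p := 2) ?_, hcore]
    rw [hcore]
    intro c hc
    rw [Subgroup.mem_subgroupOf]
    refine hE.self ⟨c.2, Subgroup.mem_centralizer_iff.2 fun x hx => ?_⟩
    exact congrArg Subtype.val (Subgroup.mem_centralizer_iff.1 hc ⟨x, hEC hx⟩ hx)
  constructor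
  · obtain ⟨M, hME, haM, hcover, hMx, hMc⟩ := hE.split
    have haE : a ∈ E := hE.hV (Subgroup.subset_closure (by simp))
    have hsq : a * a = 1 := tt_mul_self hG.1 ha
    obtain ⟨ι₁, hι₁⟩ : ∃ ι₁ : Multiplicative (ZMod 2) →* ↥E,
        ι₁ (Multiplicative.ofAdd 1) = ⟨a, haE⟩ := by
      refine ⟨MonoidHom.mk' (fun s => if s = 1 then 1 else ⟨a, haE⟩) fun s t => ?_, ?_⟩
      · rcases mult_two_cases s
          with rfl | rfl <;>
        rcases mult_two_cases t
          with rfl | rfl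
        · simp
        · simp
        · simp
        · rw [if_pos mult_two_sq.1, if_neg mult_two_sq.2]
          exact (Subtype.ext hsq).symm
      · simp [mult_two_sq.2]
    have hcm : ∀ (s : Multiplicative (ZMod 2)) (m : ↥M), Commute (ι₁ s) (Subgroup.inclusion hME m) := by
      intro s m
      rcases mult_two_cases s
        with rfl | rfl
      · rw [map_one]; exact Commute.one_left _
      · rw [hι₁]
        exact Subtype.ext (Subgroup.mem_centralizer_iff.1 (hE.hEK (hME m.2)) a (by simp))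
    obtain ⟨ι, hι⟩ : ∃ ι, ι = MonoidHom.noncommCoprod ι₁ (Subgroup.inclusion hME) hcm := ⟨_, rfl⟩
    have hsur : Function.Surjective ι := by
      rintro ⟨x, hx⟩
      rcases hcover x hx with h | h
      · exact ⟨(1, ⟨x, h⟩), by rw [hι, MonoidHom.noncommCoprod_apply, map_one, one_mul]; rfl⟩
      · refine ⟨(Multiplicative.ofAdd 1, ⟨x * a, h⟩), ?_⟩
        rw [hι, MonoidHom.noncommCoprod_apply, hι₁]
        refine Subtype.ext ?_
        show a * (x * a) = x
        rw [← mul_assoc, (Subgroup.mem_centralizer_iff.1 (hE.hEK hx) a (by simp)), mul_assoc, hsq,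
          mul_one]
    have hbij : Function.Bijective ι := by
      refine (Nat.bijective_iff_surjective_and_card _).2 ⟨hsur, ?_⟩
      rw [Nat.card_prod, hMc, hE.card, Nat.card_congr Multiplicative.toAdd, Nat.card_zmod]
      norm_num
    obtain ⟨τ⟩ : Nonempty (↥M ≃* Shrink.{0} ↥M) := ⟨((equivShrink.{0} ↥M).symm.mulEquiv).symm⟩
    refine ⟨Shrink.{0} ↥M, inferInstance, Finite.of_equiv ↥M τ.toEquiv,
      CfsgLib.LargeExtraspecial.isExtraspecial_of_mulEquiv τ hMx,
      by rw [← Nat.card_congr τ.toEquiv, hMc], ⟨?_⟩⟩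
    exact (MulEquiv.subgroupCongr hF).trans ((Subgroup.subgroupOfEquivOfLe hEC).trans
      ((MulEquiv.ofBijective ι hbij).symm.trans ((MulEquiv.refl _).prodCongr τ)))
  · obtain ⟨F, _, _, hF4, Φ, hΦs, hΦk, haut⟩ := hE.quot
    obtain ⟨ω⟩ := isometry_six_minus_equiv hF4 haut
    exact ⟨((QuotientGroup.quotientMulEquivOfEq (hF.trans hΦk.symm)).trans
      (QuotientGroup.quotientKerEquivOfSurjective Φ hΦs)).trans ω.symm⟩

end CfsgLib.ThreeTransp.Pair25
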