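import Cfsg.Prelude.Def_FischerSpaces
import Cfsg.Agent.Eq.Def_FischerSpaces
import Cfsg.Agent.CosetEnum.Fi22.O7Order
import Cfsg.Agent.CosetEnum.Fi22.O7Iso.Iso

/-!
A three-transposition group isomorphic to the presented Fi22, with the first letter a member of the
class, has a D-subgroup PΩ₇(3) containing a Sylow 3-subgroup of the whole group.
-/

set_option autoImplicit false

namespace CfsgLib.ThreeTransp

open CosetEnum CosetEnum.Fi22 in
/-- Two letters joined in the diagram: the second is a conjugate of the first. -/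
theorem fi22_gen_conj43 (x y : ℕ)
    (hxy : Cfsg.Spor.coxLabel Cfsg.Spor.Fi22.edges (dec x) (dec y) = 3) :
    (gen x * gen y) * gen x * (gen x * gen y)⁻¹ = gen y := by
  have hx : dec x ∈ Cfsg.Spor.coxNodes Cfsg.Spor.Fi22.edges := by cases dec x <;> decide
  have hy : dec y ∈ Cfsg.Spor.coxNodes Cfsg.Spor.Fi22.edges := by cases dec y <;> decide
  have h : PresentedGroup.mk (Cfsg.Spor.coxRelators Cfsg.Spor.Fi22.edges ∪
      {r | r ∈ Cfsg.Spor.Fi22.extra})
      ((FreeGroup.of (dec x) * FreeGroup.of (dec y)) ^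
        Cfsg.Spor.coxLabel Cfsg.Spor.Fi22.edges (dec x) (dec y)) = 1 :=
    PresentedGroup.one_of_mem (Or.inl ⟨dec x, hx, dec y, hy, rfl⟩)
  rw [hxy, map_pow, map_mul] at h
  change (gen x * gen y) ^ 3 = 1 at h
  have sx := gen_sq x
  have sy := gen_sq y
  rw [pow_three] at h
  rw [mul_inv_rev, gen_inv x, gen_inv y]
  have h' : gen x * gen y * gen x * (gen y * gen x) * gen y = 1 := by
    simpa only [mul_assoc] using h
  rw [eq_inv_of_mul_eq_one_left h', gen_inv y]

open CosetEnum CosetEnum.Fi22 in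
/-- The D-subgroup PΩ₇(3) of a group isomorphic to Fi22. -/
theorem m22_O7_dsubgroup_of_model43 {G : Type*} [Group G] [Finite G] {D : Set G}
    (hD : Cfsg.IsThreeTranspositionGroup D) (e : G ≃* Cfsg.Spor.Fi22)
    (ha : e.symm (gen 0) ∈ D) :
    ∃ L : Subgroup G, Cfsg.IsDSubgroup D L ∧
      Nonempty (↥L ≃* Cfsg.POmega (ZMod 3) (Cfsg.quadFormOdd 3 (ZMod 3))) ∧
      ∀ P : Sylow 3 ↥L, ∃ P' : Sylow 3 G, (P : Subgroup ↥L).map L.subtype = (P' : Subgroup G) := by
  have : Fact (Nat.Prime 3) := ⟨Nat.prime_three⟩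
  have step : ∀ x y : ℕ, Cfsg.Spor.coxLabel Cfsg.Spor.Fi22.edges (dec x) (dec y) = 3 →
      e.symm (gen x) ∈ D → e.symm (gen y) ∈ D := by
    intro x y hxy hx
    rw [← fi22_gen_conj43 x y hxy, map_mul, map_mul, map_inv]
    exact hD.2.1 _ _ hx
  have h1 := step 0 1 (by decide) ha
  have h2 := step 1 2 (by decide) h1
  have h3 := step 2 3 (by decide) h2
  have h4 := step 3 4 (by decide) h3
  have h5 := step 4 5 (by decide) h4
  have h6 := step 5 6 (by decide) h5
  have h7 := step 3 7 (by decide) h3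
  have h8 := step 7 8 (by decide) h7
  have hmem : ∀ x ∈ [1, 2, 3, 4, 5, 6, 7, 8], e.symm (g9 x) ∈ D := by
    intro x hx
    fin_cases hx <;> rw [g9, letterVal_lt gen (by norm_num)] <;> assumption
  set L : Subgroup G := L7.map e.symm.toMonoidHom with hL
  have hcard : Nat.card L = 4585351680 := by
    rw [hL, ← card_L7]
    exact Nat.card_congr (Subgroup.equivMapOfInjective L7 _ e.symm.injective).toEquiv.symm
  refine ⟨L, ?_, ?_, ?_⟩
  · refine le_antisymm ((Subgroup.closure_le _).2 fun d hd => hd.2) ?_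
    rw [hL, L7, vsub, MonoidHom.map_closure, Subgroup.closure_le]
    rintro _ ⟨z, ⟨x, hx, rfl⟩, rfl⟩
    refine Subgroup.subset_closure ⟨hmem x hx, ?_⟩
    exact Subgroup.subset_closure ⟨g9 x, ⟨x, hx, rfl⟩, rfl⟩
  · obtain ⟨i⟩ := O7Iso.nonempty_iso
    exact ⟨(Subgroup.equivMapOfInjective L7 _ e.symm.injective).symm.trans i⟩
  · intro P
    have hG : Nat.card G = 64561751654400 := (Nat.card_congr e.toEquiv).trans card_fi22
    have hp : Nat.card ↥((P : Subgroup ↥L).map L.subtype) = 3 ^ (Nat.card G).factorization 3 := by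
      rw [← Nat.card_congr (Subgroup.equivMapOfInjective _ _ L.subtype_injective).toEquiv,
        P.card_eq_multiplicity, hcard, hG]
      congr 1
      rw [Nat.factorization_def _ Nat.prime_three, Nat.factorization_def _ Nat.prime_three,
        show (4585351680 : ℕ) = 232960 * 3 ^ 9 from by norm_num,
        show (64561751654400 : ℕ) = 3280076800 * 3 ^ 9 from by norm_num,
        padicValNat.mul (by norm_num) (by norm_num), padicValNat.mul (by norm_num) (by norm_num),
        padicValNat.eq_zero_of_not_dvd (by norm_num : ¬ 3 ∣ 232960),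
        padicValNat.eq_zero_of_not_dvd (by norm_num : ¬ 3 ∣ 3280076800)]
    exact ⟨Sylow.ofCard _ hp, rfl⟩

end CfsgLib.ThreeTransp
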