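import Mathlib
import Cfsg.Agent.ThreeTransp.M22Pair25

/-!
Type M(22): the map of a pair centralizer to the point stabilizer, with its compatibility.
-/

set_option autoImplicit false

namespace CfsgLib.ThreeTransp.Pair25

open Cfsg CfsgLib.ThreeTransp.U62Point

universe u

variable {G : Type u} [Group G] {D : Set G}

section m22

variable [Finite G] (hG : IsThreeTranspositionGroup D) (hp : IsPrimitiveUnderConj D)
  (h22 : IsOfTypeM22 G D)
include hG hp h22

/-- The centralizer of a pair maps onto the stabilizer of a point, compatibly with the model. -/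
theorem exists_pair_model_hom {a b : G} (ha : a ∈ D) (hb : b ∈ nbr D a) (M : PointModel D a) :
    ∃ χ : ↥(Subgroup.centralizer ({a, b} : Set G)) →* ↥(stabVec (M.pt b)),
      (∀ (k : ↥(Subgroup.centralizer ({a, b} : Set G))) (y : G), y ∈ nbr D a → Commute (k : G) y →
        PSU62.tp M.hF (CfsgLib.Unitary.sv (χ k).1 (M.pt y)) = PSU62.tp M.hF (M.pt y)) ∧
      Function.Surjective χ ∧ (∀ k, χ k = 1 ↔ (k : G) = 1 ∨ (k : G) = a) ∧
      ∀ k : ↥(Subgroup.centralizer ({a, b} : Set G)), (k : G) ∈ nbr D a →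
        PSU62.hm (M.pt (k : G)) (M.pt b) = 0 →
          (χ k : ↥(SU 6 M.F 2)) = PSU62.tv M.hF (M.pt (k : G)) := by
  classical
  obtain ⟨ψ, hψn, hψk⟩ := exists_model_hom hG hp h22 ha M
  have hp0 := (M.iso b hb).2
  have hpp := (M.iso b hb).1
  have hKa : Subgroup.centralizer ({a, b} : Set G) ≤ Subgroup.centralizer ({a} : Set G) :=
    Subgroup.centralizer_le (by simp)
  have hbC : b ∈ Subgroup.centralizer ({a} : Set G) :=
    Subgroup.mem_centralizer_singleton_iff.2 hb.2.2.symm.eq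
  have hψb : ψ ⟨b, hbC⟩ = PSU62.tp M.hF (M.pt b) := hψn ⟨b, hbC⟩ hb
  obtain ⟨m, hm⟩ : ∃ m : ↥(stabVec (M.pt b)) →* PSU 6 M.F 2,
      m = (QuotientGroup.mk' (Subgroup.center ↥(SU 6 M.F 2))).comp (stabVec (M.pt b)).subtype :=
    ⟨_, rfl⟩
  have hmi : Function.Injective m := by
    rw [← MonoidHom.ker_eq_bot_iff, eq_bot_iff]
    intro A hA
    rw [hm, MonoidHom.mem_ker] at hA
    exact Subgroup.mem_bot.2 (Subtype.ext
      (center_inf_stabVec M.hF hp0 ((QuotientGroup.eq_one_iff A.1).1 hA) A.2))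
  have hran : ∀ k : ↥(Subgroup.centralizer ({a, b} : Set G)),
      ∃ A, m A = ψ (Subgroup.inclusion hKa k) := by
    intro k
    have hc : ψ (Subgroup.inclusion hKa k) ∈
        Subgroup.centralizer ({PSU62.tp M.hF (M.pt b)} : Set (PSU 6 M.F 2)) := by
      rw [Subgroup.mem_centralizer_singleton_iff, ← hψb, ← map_mul, ← map_mul]
      exact congrArg ψ (Subtype.ext (mem_centralizer_pair.1 k.2).2.eq)
    rw [centralizer_tp M.hF hp0 hpp] at hc
    obtain ⟨A, hA, e⟩ := hc
    exact ⟨⟨A, hA⟩, by rw [hm]; exact e⟩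
  choose f hf using hran
  refine ⟨MonoidHom.mk' f fun k l => hmi (by rw [map_mul, hf, hf, hf, map_mul, map_mul]),
    fun k y hy hky => ?_, fun A => ?_, fun k => ?_, fun k hk hkp => ?_⟩
  · have hyC : y ∈ Subgroup.centralizer ({a} : Set G) :=
      Subgroup.mem_centralizer_singleton_iff.2 hy.2.2.symm.eq
    have h := congrArg ψ (show Subgroup.inclusion hKa k * ⟨y, hyC⟩ * (Subgroup.inclusion hKa k)⁻¹ =
      ⟨y, hyC⟩ from Subtype.ext (show (k : G) * y * (k : G)⁻¹ = y by
        rw [hky.eq, mul_inv_cancel_right]))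
    rw [map_mul, map_mul, map_inv, hψn ⟨y, hyC⟩ hy, ← hf k, hm] at h
    rw [MonoidHom.mk'_apply, PSU62.tp, ← PSU62.conj_tv M.hF _ (M.iso y hy).1]
    exact h
  · obtain ⟨g, hg⟩ : ∃ g : ↥(Subgroup.centralizer ({a} : Set G)), ψ g = m A :=
      model_hom_surjective hG hp h22 ha M ψ hψk (m A)
    have hgb : (g : G) * b * (g : G)⁻¹ = b := by
      have hga : (g : G) * a * (g : G)⁻¹ = a := by
        rw [Subgroup.mem_centralizer_singleton_iff.1 g.2, mul_inv_cancel_right]
      have hmem : (g : G) * b * (g : G)⁻¹ ∈ nbr D a := by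
        have := nbr_conj hG (g : G) hb
        rwa [hga] at this
      refine M.inj _ hmem b hb ?_
      have e1 := hψn (g * ⟨b, hbC⟩ * g⁻¹) hmem
      rw [map_mul, map_mul, map_inv, hψb, hg] at e1
      refine e1.symm.trans ?_
      rw [mul_inv_eq_iff_eq_mul]
      refine (Subgroup.mem_centralizer_singleton_iff.1 ?_)
      rw [centralizer_tp M.hF hp0 hpp, hm]
      exact ⟨A, A.2, rfl⟩
    refine ⟨⟨g, mem_centralizer_pair.2 ⟨Subgroup.mem_centralizer_singleton_iff.1 g.2,
      mul_inv_eq_iff_eq_mul.1 hgb⟩⟩, hmi ?_⟩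
    rw [MonoidHom.mk'_apply, hf]
    exact hg
  · rw [MonoidHom.mk'_apply]
    have := hψk (Subgroup.inclusion hKa k)
    rw [← hf k, ← map_one m, hmi.eq_iff] at this
    exact this
  · have e : f k = ⟨PSU62.tv M.hF (M.pt (k : G)), tv_mem_stabVec M.hF (M.iso _ hk).1
        (PSU62.hm_flip M.hF hkp)⟩ := hmi (by
      rw [hf, hψn (Subgroup.inclusion hKa k) hk, hm]; rfl)
    exact congrArg Subtype.val e

end m22

end CfsgLib.ThreeTransp.Pair25
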