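import Mathlib
import Cfsg.Agent.ThreeTransp.U6Radical25
import Cfsg.Agent.ThreeTransp.M22PairSwap25

/-!
The action of the point stabilizer on the kernel of its map onto `SU(4, 2)`, and the absence of
proper invariant additive sets in the natural module.
-/

set_option autoImplicit false

namespace CfsgLib.ThreeTransp.U62Point

open Cfsg CfsgLib.ThreeTransp.PSU62 CfsgLib.ThreeTransp.U62
open scoped Matrix

variable {F : Type} [Field F] [Fintype F] {p f : Fin 6 → F} {g : Fin 4 → Fin 6 → F}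

/-- Coordinates adapted to a given hyperbolic pair. -/
theorem exists_coord_at (hF : Fintype.card F = 4) {p f : Fin 6 → F} (hp : hm p p = 0)
    (hf : hm f f = 0) (hpf : hm p f = 1) : ∃ g, Coord p f g := by
  have hT : CfsgLib.Unitary.IsNondeg 2 (⊤ : Submodule F (Fin 6 → F)) :=
    CfsgLib.Unitary.isNondeg_top (card_sq hF)
  have hd : Module.finrank F ↥(⊤ : Submodule F (Fin 6 → F)) = 6 := by simp
  have hH : HypPair ⊤ p f := ⟨trivial, trivial, hp, hf, hpf⟩
  obtain ⟨g, hg, hgW, hspan⟩ := CfsgLib.Unitary.exists_orthonorm_basis (card_sq hF)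
    (isNondeg_hypPerp hF hT hH) (finrank_hypPerp hF hH hd)
  exact ⟨g, hH, hg, fun i => (mem_hypPerp.1 (hgW i)).2.1, fun i => (mem_hypPerp.1 (hgW i)).2.2,
    hspan⟩

/-- Conjugation acts on the vectors of the kernel through `res`. -/
theorem delta_conj (hF : Fintype.card F = 4) (C : Coord p f g) (A : ↥(stabVec p))
    {B : ↥(stabVec p)} (hB : res hF C B = 1) :
    delta f g (A * B * A⁻¹) = CfsgLib.Unitary.sv (res hF C A) (delta f g B) := by
  obtain ⟨d, hd⟩ : ∃ d, CfsgLib.Unitary.sv B.1 f + f = d := ⟨_, rfl⟩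
  obtain ⟨d', hd'⟩ : ∃ d', CfsgLib.Unitary.sv (A * B * A⁻¹).1 f + f = d' := ⟨_, rfl⟩
  have hdp : hm d p = 0 := hd ▸ C.move_perp hF B
  have hd'p : hm d' p = 0 := hd' ▸ C.move_perp hF (A * B * A⁻¹)
  have e : delta f g B = coord g d := by rw [← hd, C.coord_move hF]
  have e' : delta f g (A * B * A⁻¹) = coord g d' := by rw [← hd', C.coord_move hF]
  have hC : res hF C (A * B * A⁻¹) = 1 := by
    rw [map_mul, map_mul, map_inv, hB, mul_one, mul_inv_cancel]
  rw [e, e', res_coord hF C A hdp]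
  funext i
  have hgi : hm (CfsgLib.Unitary.sv (A⁻¹ : ↥(stabVec p)).1 (g i)) p = 0 :=
    stab_perp hF (A⁻¹).2 (C.perp_p i)
  have h1 : CfsgLib.Unitary.sv (A * B * A⁻¹).1 (g i) = g i + hm (g i) d' • p :=
    hd' ▸ ker_apply_eq hF C hC (C.perp_p i)
  have h2 : CfsgLib.Unitary.sv (A * B * A⁻¹).1 (g i) =
      g i + hm (CfsgLib.Unitary.sv (A⁻¹ : ↥(stabVec p)).1 (g i)) d • p := by
    rw [Subgroup.coe_mul, Subgroup.coe_mul, CfsgLib.Unitary.sv_mul, CfsgLib.Unitary.sv_mul,
      ker_apply_eq hF C hB hgi, hd, CfsgLib.Unitary.sv_add, CfsgLib.Unitary.sv_smul,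
      (A.2 : CfsgLib.Unitary.sv A.1 p = p), Subgroup.coe_inv, CfsgLib.Unitary.sv_sv_inv]
  have h3 : hm (g i) d' = hm (CfsgLib.Unitary.sv (A⁻¹ : ↥(stabVec p)).1 (g i)) d :=
    smul_left_injective F C.hyp.ne_zero (add_left_cancel (h1.symm.trans h2))
  have h4 : hm (CfsgLib.Unitary.sv (A⁻¹ : ↥(stabVec p)).1 (g i)) d =
      hm (g i) (CfsgLib.Unitary.sv A.1 d) := by
    conv_rhs => arg 1; rw [← CfsgLib.Unitary.sv_sv_inv A.1 (g i)]
    rw [← Subgroup.coe_inv]
    exact (CfsgLib.Unitary.sv_herm A.1 _ _).symm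
  show hm d' (g i) = hm (CfsgLib.Unitary.sv A.1 d) (g i)
  rw [hm_symm hF (g i) d', hm_symm hF (g i) (CfsgLib.Unitary.sv A.1 d), h3, h4]

/-- An element with diagonal matrix. -/
theorem exists_diag4 (hF : Fintype.card F = 4) (t : Fin 4 → F) (ht : ∏ i, t i = 1) :
    ∃ A : ↥(SU 4 F 2), ∀ (u : Fin 4 → F) (i : Fin 4), CfsgLib.Unitary.sv A u i = t i * u i := by
  have hne : ∀ i, t i ≠ 0 := fun i hi => by
    rw [Finset.prod_eq_zero (Finset.mem_univ i) hi] at ht
    exact zero_ne_one ht
  have hdet : (Matrix.diagonal t).det = 1 := by rw [Matrix.det_diagonal, ht]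
  refine ⟨⟨(⟨Matrix.diagonal t, hdet⟩ : Matrix.SpecialLinearGroup (Fin 4) F),
    (mem_SU_iff _).2 fun u v => ?_⟩, fun u i => ?_⟩
  · show hermForm 4 F 2 (Matrix.diagonal t *ᵥ u) (Matrix.diagonal t *ᵥ v) = _
    unfold hermForm
    refine Finset.sum_congr rfl fun i _ => ?_
    rw [Matrix.mulVec_diagonal, Matrix.mulVec_diagonal,
      show t i * u i * (t i * v i) ^ 2 = t i ^ 3 * (u i * v i ^ 2) by ring,
      F4.cube_eq_one hF (hne i), one_mul]
  · show (Matrix.diagonal t *ᵥ u) i = _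
    rw [Matrix.mulVec_diagonal]

theorem fin4_third : ∀ i j : Fin 4, ∃ k : Fin 4, k ≠ i ∧ k ≠ j := by decide

/-- The natural module of `SU(4, 2)` has no proper invariant additive set. -/
theorem invariant_top4 (hF : Fintype.card F = 4) {P : (Fin 4 → F) → Prop} (h0 : P 0)
    (hadd : ∀ x y, P x → P y → P (x + y))
    (hinv : ∀ (A : ↥(SU 4 F 2)) (x : Fin 4 → F), P x → P (CfsgLib.Unitary.sv A x))
    {u : Fin 4 → F} (hu : P u) (hu0 : u ≠ 0) (v : Fin 4 → F) : P v := by
  classical
  obtain ⟨w, hw0, hw1, hw3, hws⟩ := F4.exists_omega hF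
  obtain ⟨i, hi⟩ : ∃ i, u i ≠ 0 := by
    by_contra h
    push Not at h
    exact hu0 (funext h)
  have hpv : ∀ j k : Fin 4, j ≠ k →
      ∏ l, (if l = j then w else if l = k then w ^ 2 else (1 : F)) = 1 := by
    intro j k hjk
    rw [← Finset.prod_subset (Finset.subset_univ {j, k}) (fun l _ hl => ?_),
      Finset.prod_pair hjk, if_pos rfl, if_neg (Ne.symm hjk), if_pos rfl]
    · linear_combination hw3
    · simp only [Finset.mem_insert, Finset.mem_singleton, not_or] at hl
      simp [hl.1, hl.2]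
  obtain ⟨j, hij⟩ : ∃ j : Fin 4, j ≠ i := exists_ne i
  obtain ⟨k, hki, hkj⟩ : ∃ k : Fin 4, k ≠ i ∧ k ≠ j := fin4_third i j
  have hdiag : ∀ (m l : Fin 4), m ≠ l → ∀ x, P x →
      P (fun r => (if r = m then w + 1 else if r = l then w ^ 2 + 1 else (0 : F)) * x r) := by
    intro m l hml x hx
    obtain ⟨A, hA⟩ := exists_diag4 hF _ (hpv m l hml)
    have h := hadd _ _ (hinv A x hx) hx
    convert h using 1
    funext r
    rw [Pi.add_apply, hA]
    by_cases h1 : r = m
    · simp only [if_pos h1]; ring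
    · by_cases h2 : r = l
      · simp only [if_neg h1, if_pos h2]; ring
      · simp only [if_neg h1, if_neg h2, zero_mul, one_mul, F4.add_self hF]
  -- a vector on one axis
  have hc : P (Pi.single i ((w + 1) * ((w + 1) * u i))) := by
    have h := hdiag i j hij.symm _ (hdiag i k hki.symm u hu)
    convert h using 1
    funext r
    by_cases h1 : r = i
    · subst h1; simp
    · rw [Pi.single_eq_of_ne h1]
      by_cases h2 : r = j
      · subst h2; simp [h1, hkj.symm]
      · simp [h1, h2]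
  obtain ⟨c, hcdef⟩ : ∃ c, (w + 1) * ((w + 1) * u i) = c := ⟨_, rfl⟩
  rw [hcdef] at hc
  have hw' : w + 1 ≠ 0 := fun h => hw1 (by linear_combination h - two_zero hF)
  have hc0 : c ≠ 0 := hcdef ▸ mul_ne_zero hw' (mul_ne_zero hw' hi)
  -- all axes
  have haxis : ∀ r : Fin 4, P (Pi.single r c) := by
    intro r
    by_cases hri : r = i
    · rw [hri]; exact hc
    obtain ⟨x, hx⟩ : ∃ x, x = (Pi.single i 1 + Pi.single r 1 : Fin 4 → F) := ⟨_, rfl⟩
    have hsum : ∀ y : Fin 4 → F, hermForm 4 F 2 y x = y i + y r := by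
      intro y
      rw [hx]
      unfold hermForm
      rw [← Finset.sum_subset (Finset.subset_univ {i, r}) (fun s _ hs => ?_),
        Finset.sum_pair (Ne.symm hri)]
      · simp [Pi.single_eq_of_ne hri, Pi.single_eq_of_ne (Ne.symm hri)]
      · simp only [Finset.mem_insert, Finset.mem_singleton, not_or] at hs
        simp [hs.1, hs.2]
    have hxx : hermForm 4 F 2 x x = 0 := by
      rw [hsum, hx]
      simp [Pi.single_eq_of_ne hri, Pi.single_eq_of_ne (Ne.symm hri), F4.add_self hF]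
    have h := hinv (tv4 hF x) _ hc
    rw [sv_tv4 hF hxx, hsum, Pi.single_eq_same, Pi.single_eq_of_ne hri, add_zero] at h
    convert h using 1
    funext s
    rw [hx]
    by_cases hs : s = i
    · subst hs; simp [Pi.single_eq_of_ne (Ne.symm hri), F4.add_self hF]
    · by_cases hs' : s = r
      · subst hs'; simp [Pi.single_eq_of_ne hs]
      · simp [Pi.single_eq_of_ne hs, Pi.single_eq_of_ne hs']
  -- all multiples
  have hall : ∀ (r : Fin 4) (z : F), P (Pi.single r z) := by
    intro r z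
    obtain ⟨s, hs⟩ : ∃ s : Fin 4, s ≠ r := exists_ne r
    have hrot : ∀ y, P (Pi.single r y) → P (Pi.single r (w * y)) := by
      intro y hy
      obtain ⟨A, hA⟩ := exists_diag4 hF _ (hpv r s hs.symm)
      have h := hinv A _ hy
      convert h using 1
      funext t
      rw [hA]
      by_cases ht : t = r
      · subst ht; simp
      · simp [Pi.single_eq_of_ne ht]
    rcases Pair25.four_cases hF hw0 hw1 (z * c⁻¹) with h | h | h | h
    · rw [show z = 0 by simpa [hc0] using h, Pi.single_zero]; exact h0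
    · rw [show z = c by rw [← inv_mul_cancel_right₀ hc0 z, h, one_mul]]; exact haxis r
    · rw [show z = w * c by rw [← inv_mul_cancel_right₀ hc0 z, h]]; exact hrot _ (haxis r)
    · rw [show z = w * (w * c) by rw [← inv_mul_cancel_right₀ hc0 z, h]; ring]
      exact hrot _ (hrot _ (haxis r))
  rw [← Finset.univ_sum_single v]
  exact Finset.sum_induction _ P hadd h0 fun r _ => hall r _

end CfsgLib.ThreeTransp.U62Point
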