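import Mathlib
import Cfsg.Agent.ThreeTransp.M22PairModel25
import Cfsg.Agent.ThreeTransp.M22PairMain25
import Cfsg.Agent.ThreeTransp.U6RadicalConj25

/-!
Type M(22): the normal subgroup `E` of the centralizer of a pair acts regularly, modulo `⟨a⟩`, on the
neighbours of `a` not commuting with `b`, and has no proper invariant subgroup above `⟨a, b⟩`.
-/

set_option autoImplicit false

namespace CfsgLib.ThreeTransp.Pair25

open Cfsg CfsgLib.ThreeTransp.U62Point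

universe u

variable {G : Type u} [Group G] {D : Set G}

section m22

variable [Finite G] (hG : IsThreeTranspositionGroup D) (hp : IsPrimitiveUnderConj D)
  (h22 : IsOfTypeM22 G D)
include hG hp h22

variable {a b : G} (ha : a ∈ D) (hb : b ∈ nbr D a) {C E : Subgroup G}
  (hE : PairStruct a b (Subgroup.centralizer ({a, b} : Set G)) C E)
include ha hb hE

set_option maxHeartbeats 800000 in
theorem pair_far_one {f : G} (hfa : f ∈ nbr D a) (hfb : ¬ Commute f b) :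
    (∀ e ∈ E, Commute e f → e = 1 ∨ e = a) ∧
      ∀ W : Subgroup G, W ≤ E → Subgroup.closure ({a, b} : Set G) ≤ W →
        (∀ k ∈ Subgroup.centralizer ({a, b} : Set G), ∀ w ∈ W, k * w * k⁻¹ ∈ W) →
        (∃ w ∈ W, w ∉ Subgroup.closure ({a, b} : Set G)) → W = E := by
  classical
  haveI : Fact (Nat.Prime 2) := ⟨Nat.prime_two⟩
  have hD := hG.1
  have hab := hb.2.2
  obtain ⟨M⟩ := m22_pointModel hG h22 ha
  have hF := M.hF
  obtain ⟨χ, hχf, hχs, hχk, hχn⟩ := exists_pair_model_hom hG hp h22 ha hb M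
  obtain ⟨h, hh⟩ : ∃ h, PSU62.hm (M.pt b) (M.pt f) = h := ⟨_, rfl⟩
  have hh0 : h ≠ 0 := fun e => hfb ((M.comm b hb f hfa).2 (PSU62.hm_flip hF (hh.trans e))).symm
  obtain ⟨f', hf'⟩ : ∃ f', h • M.pt f = f' := ⟨_, rfl⟩
  have hff : PSU62.hm f' f' = 0 := by
    rw [← hf', PSU62.hm_smulL, PSU62.hm_smulR, (M.iso f hfa).1, mul_zero, mul_zero]
  have hpf : PSU62.hm (M.pt b) f' = 1 := by
    rw [← hf', PSU62.hm_smulR, hh, ← pow_succ, F4.cube_eq_one hF hh0]
  obtain ⟨g, Co⟩ := exists_coord_at hF (M.iso b hb).1 hff hpf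
  obtain ⟨Φ₀, hΦ₀⟩ : ∃ Φ₀ : ↥(Subgroup.centralizer ({a, b} : Set G)) →* ↥(SU 4 M.F 2),
      Φ₀ = (res hF Co).comp χ := ⟨_, rfl⟩
  have hΦs : Function.Surjective Φ₀ := by
    rw [hΦ₀]; exact (res_surjective hF Co).comp hχs
  have hΦχ : ∀ k, Φ₀ k = res hF Co (χ k) := fun k => by rw [hΦ₀]; rfl
  -- the kernel is `E`
  have hKC := hE.le
  haveI := hE.normal
  haveI hEn : (E.subgroupOf (Subgroup.centralizer ({a, b} : Set G))).Normal := ⟨fun n hn k => by
    rw [Subgroup.mem_subgroupOf] at hn ⊢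
    exact hE.normal.conj_mem ⟨n, hKC n.2⟩ hn ⟨k, hKC k.2⟩⟩
  have hE2 : IsPGroup 2 ↥(E.subgroupOf (Subgroup.centralizer ({a, b} : Set G))) :=
    ((IsPGroup.iff_card (p := 2)).2 ⟨10, hE.card⟩).of_equiv
      (Subgroup.subgroupOfEquivOfLe hE.hEK).symm
  obtain ⟨N, hN⟩ : ∃ N, N = (E.subgroupOf (Subgroup.centralizer ({a, b} : Set G))).map Φ₀ :=
    ⟨_, rfl⟩
  haveI : N.Normal := hN ▸ hEn.map Φ₀ hΦs
  have hN1 := normal_twoGroup_su4_eq_bot hF N (hN ▸ hE2.map Φ₀)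
  have hker : ∀ e : ↥(Subgroup.centralizer ({a, b} : Set G)), (e : G) ∈ E → Φ₀ e = 1 := by
    intro e he
    have hm : Φ₀ e ∈ N := hN ▸ Subgroup.mem_map_of_mem Φ₀ he
    rwa [hN1, Subgroup.mem_bot] at hm
  have hA : a ∈ Subgroup.centralizer ({a, b} : Set G) := mem_centralizer_pair.2 ⟨Commute.refl a, hab⟩
  have hB : b ∈ Subgroup.centralizer ({a, b} : Set G) :=
    mem_centralizer_pair.2 ⟨hab.symm, Commute.refl b⟩
  have hχb : (χ ⟨b, hB⟩).1 = PSU62.tv hF (M.pt b) := hχn ⟨b, hB⟩ hb (M.iso b hb).1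
  have hsmall : ∀ k : ↥(Subgroup.centralizer ({a, b} : Set G)),
      (χ k).1 = 1 ∨ (χ k).1 = PSU62.tv hF (M.pt b) →
        (k : G) = 1 ∨ (k : G) = a ∨ (k : G) = b ∨ (k : G) = a * b := by
    intro k hk
    rcases hk with h | h
    · rcases (hχk k).1 (Subtype.ext h) with e | e
      exacts [Or.inl e, Or.inr (Or.inl e)]
    · have e : χ (k * ⟨b, hB⟩⁻¹) = 1 := by
        rw [map_mul, map_inv, show χ k = χ ⟨b, hB⟩ from Subtype.ext (h.trans hχb.symm), mul_inv_cancel]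
      rcases (hχk _).1 e with e' | e' <;> rw [Subgroup.coe_mul, Subgroup.coe_inv] at e'
      · exact Or.inr (Or.inr (Or.inl (mul_inv_eq_one.1 e')))
      · exact Or.inr (Or.inr (Or.inr (mul_inv_eq_iff_eq_mul.1 e')))
  refine ⟨fun e he hef => ?_, fun W hWE hVW hWK ⟨w₀, hw₀, hw₀V⟩ => ?_⟩
  · obtain ⟨k, hk⟩ : ∃ k : ↥(Subgroup.centralizer ({a, b} : Set G)), (k : G) = e :=
      ⟨⟨e, hE.hEK he⟩, rfl⟩
    have hres : res hF Co (χ k) = 1 := (hΦχ k).symm.trans (hker k (hk ▸ he))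
    obtain ⟨c, -, hc⟩ := PSU62.tp_inj hF
      (CfsgLib.Unitary.herm_sv_self_eq_zero (χ k).1 (M.iso f hfa).1) (M.iso f hfa).1
      (fun h0 => (M.iso f hfa).2 (by
        rw [← CfsgLib.Unitary.sv_inv_sv (χ k).1 (M.pt f), h0]; exact Matrix.mulVec_zero _))
      (M.iso f hfa).2 (hχf k f hfa (hk ▸ hef))
    have hc0 : c ≠ 0 := fun h0 => (M.iso f hfa).2 (by rw [hc, h0, zero_smul])
    have hAf : CfsgLib.Unitary.sv (χ k).1 f' = c⁻¹ • f' := by
      rw [← hf', CfsgLib.Unitary.sv_smul, smul_comm]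
      congr 1
      conv_rhs => rw [hc, inv_smul_smul₀ hc0]
    have hd : delta f' g (χ k) = 0 := by
      rw [delta, hAf, coord_smul, Co.coord_f hF, smul_zero]
    rw [← hk]
    rcases delta_eq_zero hF Co hres hd with h1 | h1
    · exact (hχk k).1 (Subtype.ext h1)
    · exfalso
      rw [h1, PSU62.sv_tv hF (M.iso b hb).1, Co.hyp.fe hF, one_smul] at hAf
      have := congrArg (fun x => PSU62.hm x f') hAf
      simp only [PSU62.hm_addL, PSU62.hm_smulL, hff, hpf, mul_zero, zero_add] at this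
      exact one_ne_zero this
  · have hdmul : ∀ k l : ↥(Subgroup.centralizer ({a, b} : Set G)), (k : G) ∈ E →
        delta f' g (χ (k * l)) = delta f' g (χ k) + delta f' g (χ l) := fun k l hk => by
      rw [map_mul, delta_mul hF Co ((hΦχ k).symm.trans (hker k hk))]
    have hzero : ∀ k : ↥(Subgroup.centralizer ({a, b} : Set G)), (k : G) ∈ E →
        delta f' g (χ k) = 0 → (k : G) ∈ Subgroup.closure ({a, b} : Set G) := by
      intro k hk hd
      rw [pair_mem_V hD ha hb.1 hab]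
      exact hsmall k (delta_eq_zero hF Co ((hΦχ k).symm.trans (hker k hk)) hd)
    have key := invariant_top4 hF
      (P := fun u => ∃ k : ↥(Subgroup.centralizer ({a, b} : Set G)),
        (k : G) ∈ W ∧ delta f' g (χ k) = u)
      ⟨1, by rw [Subgroup.coe_one]; exact one_mem W, by rw [map_one, delta_one hF Co]⟩
      (by
        rintro _ _ ⟨k, hk, rfl⟩ ⟨l, hl, rfl⟩
        exact ⟨k * l, mul_mem hk hl, hdmul k l (hWE hk)⟩)
      (by
        rintro A _ ⟨k, hk, rfl⟩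
        obtain ⟨m, rfl⟩ := hΦs A
        refine ⟨m * k * m⁻¹, hWK m m.2 k hk, ?_⟩
        rw [map_mul, map_mul, map_inv, delta_conj hF Co (χ m) ((hΦχ k).symm.trans (hker k (hWE hk))),
          ← hΦχ])
      (u := delta f' g (χ ⟨w₀, hE.hEK (hWE hw₀)⟩)) ⟨⟨w₀, hE.hEK (hWE hw₀)⟩, hw₀, rfl⟩
      (fun h0 => hw₀V (hzero ⟨w₀, hE.hEK (hWE hw₀)⟩ (hWE hw₀) h0))
    refine le_antisymm hWE fun x hx => ?_
    obtain ⟨k, hk, hkd⟩ := key (delta f' g (χ ⟨x, hE.hEK hx⟩))
    have hkx : ((k⁻¹ * ⟨x, hE.hEK hx⟩ : ↥(Subgroup.centralizer ({a, b} : Set G))) : G) ∈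
        Subgroup.closure ({a, b} : Set G) := by
      refine hzero _ (by simpa using mul_mem (inv_mem (hWE hk)) hx) ?_
      have e := hdmul k (k⁻¹ * ⟨x, hE.hEK hx⟩) (hWE hk)
      rw [mul_inv_cancel_left, hkd, eq_comm, add_eq_left] at e
      exact e
    have := mul_mem hk (hVW hkx)
    simpa using this

theorem pair_far_ncard : {f | f ∈ nbr D a ∧ ¬ Commute f b}.ncard = 512 := by
  have hset : nbr D a = {f | f ∈ nbr D a ∧ ¬ Commute f b} ∪ insert b (nbr D a ∩ nbr D b) := by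
    ext x
    constructor
    · intro hx
      by_cases hc : Commute x b
      · by_cases hxb : x = b
        · exact Or.inr (Or.inl hxb)
        · exact Or.inr (Or.inr ⟨hx, hx.1, hxb, hc.symm⟩)
      · exact Or.inl ⟨hx, hc⟩
    · rintro (h | rfl | h)
      exacts [h.1, hb, h.1]
  have h1 := m22_ncard_nbr hG hp h22 ha
  rw [hset, Set.ncard_union_eq ?_ (Set.toFinite _) (Set.toFinite _),
    Set.ncard_insert_of_notMem (fun hh => hh.2.2.1 rfl) (Set.toFinite _),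
    m22_ncard_common hG h22 ha hb] at h1
  · omega
  · rw [Set.disjoint_left]
    rintro x ⟨-, hx⟩ (rfl | hx')
    · exact hx (Commute.refl _)
    · exact hx hx'.2.2.2.symm

theorem pair_free {f : G} (hfa : f ∈ nbr D a) (hfb : ¬ Commute f b) :
    ∀ e ∈ E, Commute e f → e = 1 ∨ e = a :=
  (pair_far_one hG hp h22 ha hb hE hfa hfb).1

theorem pair_invariant_top (W : Subgroup G) (hWE : W ≤ E)
    (hVW : Subgroup.closure ({a, b} : Set G) ≤ W)
    (hWK : ∀ k ∈ Subgroup.centralizer ({a, b} : Set G), ∀ w ∈ W, k * w * k⁻¹ ∈ W)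
    (hw : ∃ w ∈ W, w ∉ Subgroup.closure ({a, b} : Set G)) : W = E := by
  obtain ⟨f, hfa, hfb⟩ : {f | f ∈ nbr D a ∧ ¬ Commute f b}.Nonempty :=
    Set.nonempty_of_ncard_ne_zero (by rw [pair_far_ncard hG hp h22 ha hb hE]; norm_num)
  exact (pair_far_one hG hp h22 ha hb hE hfa hfb).2 W hWE hVW hWK hw

/-- `E` is transitive on the neighbours of `a` not commuting with `b`. -/
theorem pair_transitive {f f' : G} (hfa : f ∈ nbr D a) (hfb : ¬ Commute f b)
    (hfa' : f' ∈ nbr D a) (hfb' : ¬ Commute f' b) : ∃ e ∈ E, e * f * e⁻¹ = f' := by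
  classical
  have hD := hG.1
  have haE : a ∈ E := hE.hV (Subgroup.subset_closure (by simp))
  have hfix : ∀ e ∈ E, e * a * e⁻¹ = a ∧ e * b * e⁻¹ = b := fun e he => by
    obtain ⟨h1, h2⟩ := mem_centralizer_pair.1 (hE.hEK he)
    exact ⟨by rw [h1.eq, mul_inv_cancel_right], by rw [h2.eq, mul_inv_cancel_right]⟩
  obtain ⟨S, hS⟩ : ∃ S : Subgroup ↥E, S = Subgroup.zpowers ⟨a, haE⟩ := ⟨_, rfl⟩
  have hfun : ∀ e : ↥E, (e : G) * f * (e : G)⁻¹ ∈ {f | f ∈ nbr D a ∧ ¬ Commute f b} := by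
    intro e
    obtain ⟨h1, h2⟩ := hfix e e.2
    refine ⟨?_, fun h => hfb ?_⟩
    · have := nbr_conj hG (e : G) hfa; rwa [h1] at this
    · rw [← h2] at h; exact commute_conj_iff'.1 h
  have hiff : ∀ e e' : ↥E, (e : G) * f * (e : G)⁻¹ = (e' : G) * f * (e' : G)⁻¹ ↔
      e⁻¹ * e' ∈ S := by
    intro e e'
    constructor
    · intro h
      have hc : Commute ((e⁻¹ * e' : ↥E) : G) f := by
        rw [Subgroup.coe_mul, Subgroup.coe_inv]
        show (e : G)⁻¹ * e' * f = f * ((e : G)⁻¹ * e')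
        calc (e : G)⁻¹ * e' * f = (e : G)⁻¹ * ((e' : G) * f * (e' : G)⁻¹) * e' := by group
          _ = f * ((e : G)⁻¹ * e') := by rw [← h]; group
      rw [hS]
      rcases pair_free hG hp h22 ha hb hE hfa hfb _ (e⁻¹ * e').2 hc with h1 | h1
      · rw [show e⁻¹ * e' = 1 from Subtype.ext h1]; exact one_mem _
      · rw [show e⁻¹ * e' = ⟨a, haE⟩ from Subtype.ext h1]; exact Subgroup.mem_zpowers _
    · intro h
      rw [hS] at h
      obtain ⟨i, hi⟩ := Subgroup.mem_zpowers_iff.1 h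
      have hi' : a ^ i = (e : G)⁻¹ * e' := by simpa using congrArg Subtype.val hi
      have hcf : Commute (a ^ i) f := Commute.zpow_left hfa.2.2 i
      calc (e : G) * f * (e : G)⁻¹ = (e : G) * (f * a ^ i) * (a ^ i)⁻¹ * (e : G)⁻¹ := by group
        _ = (e : G) * (a ^ i * f) * (a ^ i)⁻¹ * (e : G)⁻¹ := by rw [hcf.eq]
        _ = (e' : G) * f * (e' : G)⁻¹ := by rw [hi']; group
  have hS2 : Nat.card ↥S = 2 := by
    rw [hS, Nat.card_zpowers, ← Subgroup.orderOf_coe]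
    exact hD.1 a ha
  have hq : Nat.card (↥E ⧸ S) = 512 := by
    have h1 := Subgroup.card_eq_card_quotient_mul_card_subgroup S
    rw [hE.card, hS2] at h1
    omega
  have hinj : Function.Injective (Quotient.lift
      (fun e : ↥E => (⟨_, hfun e⟩ : ↥{f | f ∈ nbr D a ∧ ¬ Commute f b}))
      fun e e' h => Subtype.ext ((hiff e e').2 (QuotientGroup.leftRel_apply.1 h))) := by
    rintro ⟨e⟩ ⟨e'⟩ h
    exact Quotient.sound (QuotientGroup.leftRel_apply.2 ((hiff e e').1 (congrArg Subtype.val h)))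
  have hbij := (Nat.bijective_iff_injective_and_card _).2 ⟨hinj, by
    rw [Nat.card_coe_set_eq, pair_far_ncard hG hp h22 ha hb hE]; exact hq⟩
  obtain ⟨⟨e⟩, he⟩ := hbij.2 ⟨f', hfa', hfb'⟩
  exact ⟨e, e.2, congrArg Subtype.val he⟩

end m22

end CfsgLib.ThreeTransp.Pair25
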