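import Mathlib
import Cfsg.Agent.ThreeTransp.M22PairOrbit25

/-!
Type M(22): no nontrivial abelian subgroup of odd order centralizing `a`, inverted by `b`, is
normalized by `E`.
-/

set_option autoImplicit false

namespace CfsgLib.ThreeTransp.Pair25

open Cfsg CfsgLib.ThreeTransp.U62Point

universe u

variable {G : Type u} [Group G] {D : Set G}

section m22

variable [Finite G] (hG : IsThreeTranspositionGroup D) (hp : IsPrimitiveUnderConj D)
  (h22 : IsOfTypeM22 G D)
include hG hp h22

variable {a b : G} (ha : a ∈ D) (hb : b ∈ nbr D a) {C E : Subgroup G}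
  (hE : PairStruct a b (Subgroup.centralizer ({a, b} : Set G)) C E)
include ha hb hE

theorem pair_odd_trivial (S : Subgroup G) (hodd : Odd (Nat.card ↥S))
    (hSa : ∀ g ∈ S, Commute g a) (hSb : ∀ g ∈ S, b * g * b⁻¹ = g⁻¹)
    (hSE : ∀ e ∈ E, ∀ g ∈ S, e * g * e⁻¹ ∈ S) (hcomm : ∀ g ∈ S, ∀ g' ∈ S, g * g' = g' * g) :
    S = ⊥ := by
  classical
  have hD := hG.1
  have hbb := tt_mul_self hD hb.1
  by_contra hne
  obtain ⟨g, hg, hg1⟩ : ∃ g ∈ S, g ≠ 1 := by
    by_contra h
    push Not at h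
    exact hne ((Subgroup.eq_bot_iff_forall S).2 h)
  have hpow : ∀ x ∈ S, x ^ Nat.card ↥S = 1 := fun x hx => by
    have := congrArg Subtype.val (pow_card_eq_one' (x := (⟨x, hx⟩ : ↥S)))
    rwa [SubmonoidClass.coe_pow] at this
  obtain ⟨n, hn⟩ := id hodd
  obtain ⟨r, hr, hrr⟩ : ∃ r ∈ S, r * r = g := ⟨g ^ (n + 1), S.pow_mem hg _, by
    rw [← pow_add, show n + 1 + (n + 1) = Nat.card ↥S + 1 by omega, pow_succ, hpow g hg, one_mul]⟩
  obtain ⟨f, hf⟩ : ∃ f, r * b * r⁻¹ = f := ⟨_, rfl⟩
  have hgf : g = f * b := by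
    have := hSb r⁻¹ (inv_mem hr)
    rw [inv_inv, tt_inv hD hb.1] at this
    rw [← hf, ← hrr, show r * b * r⁻¹ * b = r * (b * r⁻¹ * b) by group, this]
  have hfa : f ∈ nbr D a := by
    have := nbr_conj hG r hb
    rwa [(hSa r hr).eq, mul_inv_cancel_right, hf] at this
  have hfb : ¬ Commute f b := by
    intro h
    have h1 : g * g = 1 := by
      rw [hgf]
      calc f * b * (f * b) = f * (b * f) * b := by group
        _ = 1 := by rw [← h.eq, ← mul_assoc f, tt_mul_self hD hfa.1, one_mul, hbb]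
    refine hg1 ?_
    have h2 := hpow g hg
    rw [hn, pow_succ, pow_mul, pow_two, h1, one_pow, one_mul] at h2
    exact h2
  have hall : ∀ x ∈ nbr D a, ¬ Commute x b → x * b ∈ S := by
    intro x hx hxb
    obtain ⟨e, he, hex⟩ := pair_transitive hG hp h22 ha hb hE hfa hfb hx hxb
    have h := hSE e he g hg
    have hec := (mem_centralizer_pair.1 (hE.hEK he)).2
    rwa [hgf, show e * (f * b) * e⁻¹ = e * f * e⁻¹ * (e * b * e⁻¹) by group, hex, hec.eq,
      mul_inv_cancel_right] at h
  -- a second far member commuting with the first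
  obtain ⟨y, hy, hyb⟩ : ∃ y ∈ nbr D a ∩ nbr D f, ¬ Commute y b := by
    by_contra h
    push Not at h
    obtain ⟨M⟩ := m22_pointModel hG h22 ha
    have h1 := M.ncard_common hfa
    have h2 := M.ncard_common_noncommute hfa hb hfb
    have hle := Set.ncard_le_ncard (s := nbr D a ∩ nbr D f)
      (t := nbr D a ∩ nbr D f ∩ nbr D b) (fun x hx => ⟨hx, hx.1.1, fun e => hfb (by
        have := hx.2.2.2
        rwa [e] at this), (h x hx).symm⟩) (Set.toFinite _)
    omega
  have hc := hcomm _ (hall f hfa hfb) _ (hall y hy.1 hyb)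
  have e1 : f * b * y = y * b * f := mul_right_cancel (by
    rw [mul_assoc _ y b, mul_assoc _ f b]; exact hc)
  have hfy : Commute f y := hy.2.2.2
  have e2 : f * b = b * y * b * f := by
    calc f * b = f * b * y * y := by rw [mul_assoc _ y y, tt_mul_self hD hy.1.1, mul_one]
      _ = y * b * (f * y) := by rw [e1]; simp only [mul_assoc]
      _ = (y * b * y) * f := by rw [hfy.eq]; simp only [mul_assoc]
      _ = b * y * b * f := by rw [tt_braid hD hy.1.1 hb.1 hyb]
  have e3 : b * f * b = b * y * b := by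
    rw [← tt_braid hD hfa.1 hb.1 hfb, e2, mul_assoc _ f f, tt_mul_self hD hfa.1, mul_one]
  exact hy.2.2.1 (mul_left_cancel (mul_right_cancel e3)).symm

end m22

end CfsgLib.ThreeTransp.Pair25
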